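import Mathlib
import Cfsg.Agent.Lib.KS2.SSConj2
import Cfsg.Agent.Lib.KS2.IsoCount

/-!
Counting monic polynomials with prescribed block factorization, and the semisimple
realization of characteristic polynomials dividing `X ^ r - 1`.
-/

set_option autoImplicit false
set_option linter.unusedSimpArgs false
set_option linter.unusedVariables false
set_option linter.deprecated false
set_option linter.unusedSectionVars false

namespace Cfsg.Agent.Lib.PrimeCl

open Polynomial UniqueFactorizationMonoid

lemma card_tuples (B : Type*) [Fintype B] (k : ℕ) :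
    Nat.card {a : B → ℕ // ∑ b, a b ≤ k} = Nat.choose (k + Fintype.card B) (Fintype.card B) := by
  classical
  have e : {a : B → ℕ // ∑ b, a b ≤ k} ≃ {P : Option B → ℕ // ∑ i, P i = k} := {
    toFun := fun a => ⟨fun o => o.elim (k - ∑ b, a.1 b) a.1, by
      rw [Fintype.sum_option]
      have := a.2
      simp only [Option.elim]
      omega⟩
    invFun := fun P => ⟨fun b => P.1 (some b), by
      have := P.2
      rw [Fintype.sum_option] at this
      show ∑ b, P.1 (some b) ≤ k
      omega⟩
    left_inv := fun a => by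
      apply Subtype.ext
      rfl
    right_inv := fun P => by
      apply Subtype.ext
      funext o
      cases o with
      | none =>
        have := P.2
        rw [Fintype.sum_option] at this
        simp only [Option.elim]
        omega
      | some b => rfl }
  rw [Nat.card_congr e, ← Nat.card_congr (Sym.equivNatSumOfFintype (Option B) k),
    Nat.card_eq_fintype_card, Sym.card_sym_eq_choose, Fintype.card_option]
  have h1 : Fintype.card B + 1 + k - 1 = k + Fintype.card B := by omega
  rw [h1]
  exact Nat.choose_symm_add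

variable {F : Type*} [Field F]

lemma monic_X1 : (X - 1 : F[X]).Monic := by simpa using monic_X_sub_C (1 : F)

lemma natDegree_X1 : (X - 1 : F[X]).natDegree = 1 := by simpa using natDegree_X_sub_C (1 : F)

/-- The polynomial attached to a tuple of multiplicities. -/
noncomputable def blk {B : Type*} [Fintype B] (P : B → F[X]) (n d : ℕ) (a : B → ℕ) : F[X] :=
  (X - 1) ^ (n - d * ∑ b, a b) * ∏ b, P b ^ a b

section
variable {B : Type*} [Fintype B] (P : B → F[X]) (n d : ℕ)

lemma blk_monic (hm : ∀ b, (P b).Monic) (a : B → ℕ) : (blk P n d a).Monic := by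
  unfold blk
  exact (monic_X1.pow _).mul (monic_prod_of_monic _ _ fun b _ => (hm b).pow _)

lemma blk_natDegree (hm : ∀ b, (P b).Monic) (hd : ∀ b, (P b).natDegree = d) (a : B → ℕ)
    (ha : d * ∑ b, a b ≤ n) : (blk P n d a).natDegree = n := by
  unfold blk
  rw [(monic_X1.pow _).natDegree_mul (monic_prod_of_monic _ _ fun b _ => (hm b).pow _),
    (monic_X1).natDegree_pow, natDegree_X1, natDegree_prod_of_monic _ _ fun b _ => (hm b).pow _]
  have : ∑ b, (P b ^ a b).natDegree = d * ∑ b, a b := by
    rw [Finset.mul_sum]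
    refine Finset.sum_congr rfl fun b _ => ?_
    rw [(hm b).natDegree_pow, hd b, mul_comm]
  rw [this]
  omega

lemma blk_le (hm : ∀ b, (P b).Monic) (hd : ∀ b, (P b).natDegree = d) (hd0 : 0 < d)
    (hco : ∀ b c, b ≠ c → IsCoprime (P b) (P c)) (hX : ∀ b, IsCoprime (P b) (X - 1))
    (a a' : B → ℕ) (h : blk P n d a = blk P n d a') (b : B) : a b ≤ a' b := by
  classical
  have h1 : P b ^ a b ∣ blk P n d a := by
    unfold blk
    refine Dvd.dvd.mul_left ?_ _
    exact Finset.dvd_prod_of_mem (fun c => P c ^ a c) (Finset.mem_univ b)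
  rw [h] at h1
  unfold blk at h1
  rw [← Finset.mul_prod_erase Finset.univ _ (Finset.mem_univ b)] at h1
  have h2 : IsCoprime (P b ^ a b) ((X - 1) ^ (n - d * ∑ b, a' b) * ∏ c ∈ Finset.univ.erase b, P c ^ a' c) := by
    apply IsCoprime.pow_left
    refine IsCoprime.mul_right ((hX b).pow_right) ?_
    refine IsCoprime.prod_right fun c hc => ?_
    exact (hco b c (Finset.ne_of_mem_erase hc).symm).pow_right
  have h3 : P b ^ a b ∣ P b ^ a' b := by
    have h4 : P b ^ a b ∣ ((X - 1) ^ (n - d * ∑ b, a' b) * ∏ c ∈ Finset.univ.erase b, P c ^ a' c) * P b ^ a' b := by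
      convert h1 using 1
      ring
    exact h2.dvd_of_dvd_mul_left h4
  have h5 := natDegree_le_of_dvd h3 ((hm b).pow _).ne_zero
  rw [(hm b).natDegree_pow, (hm b).natDegree_pow, hd b] at h5
  exact Nat.le_of_mul_le_mul_right h5 hd0

lemma blk_inj (hm : ∀ b, (P b).Monic) (hd : ∀ b, (P b).natDegree = d) (hd0 : 0 < d)
    (hco : ∀ b c, b ≠ c → IsCoprime (P b) (P c)) (hX : ∀ b, IsCoprime (P b) (X - 1))
    (a a' : B → ℕ) (h : blk P n d a = blk P n d a') : a = a' := by
  funext b
  exact le_antisymm (blk_le P n d hm hd hd0 hco hX a a' h b) (blk_le P n d hm hd hd0 hco hX a' a h.symm b)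

lemma blk_zero : blk P n d (fun _ => 0) = (X - 1) ^ n := by
  simp [blk]

lemma blk_eq_X1_iff (hm : ∀ b, (P b).Monic) (hd : ∀ b, (P b).natDegree = d) (hd0 : 0 < d)
    (hco : ∀ b c, b ≠ c → IsCoprime (P b) (P c)) (hX : ∀ b, IsCoprime (P b) (X - 1))
    (a : B → ℕ) : blk P n d a = (X - 1) ^ n ↔ a = fun _ => 0 := by
  constructor
  · intro h
    rw [← blk_zero P n d] at h
    exact blk_inj P n d hm hd hd0 hco hX _ _ h
  · rintro rfl
    exact blk_zero P n d

end

/-- A count: if the polynomials in `T` are exactly the images of the tuples of total weight at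
most `n / d`, then `T` minus the power of `X - 1` has `C(n/d + |B|, |B|) - 1` elements. -/
lemma card_of_blk {B : Type*} [Fintype B] (P : B → F[X]) (n d : ℕ)
    (hm : ∀ b, (P b).Monic) (hd : ∀ b, (P b).natDegree = d) (hd0 : 0 < d)
    (hco : ∀ b c, b ≠ c → IsCoprime (P b) (P c)) (hX : ∀ b, IsCoprime (P b) (X - 1))
    (T : Set F[X])
    (hT : ∀ f, f ∈ T ↔ ∃ a : B → ℕ, d * ∑ b, a b ≤ n ∧ a ≠ (fun _ => 0) ∧ blk P n d a = f) :
    Nat.card T = Nat.choose (n / d + Fintype.card B) (Fintype.card B) - 1 := by
  classical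
  have hA : ∀ a : B → ℕ, d * ∑ b, a b ≤ n ↔ ∑ b, a b ≤ n / d := by
    intro a
    rw [Nat.le_div_iff_mul_le hd0, mul_comm]
  have hcard := card_tuples B (n / d)
  haveI : Finite {a : B → ℕ // ∑ b, a b ≤ n / d} := by
    apply Nat.finite_of_card_ne_zero
    rw [hcard]
    exact (Nat.choose_pos (Nat.le_add_left _ _)).ne'
  let A : Set (B → ℕ) := {a | ∑ b, a b ≤ n / d}
  have hA0 : (fun _ => 0 : B → ℕ) ∈ A := by simp [A]
  have hinj : Set.InjOn (blk P n d) (A \ {fun _ => 0}) := by
    intro a _ a' _ h
    exact blk_inj P n d hm hd hd0 hco hX a a' h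
  have hTeq : T = blk P n d '' (A \ {fun _ => 0}) := by
    ext f
    rw [hT]
    constructor
    · rintro ⟨a, h1, h2, h3⟩
      exact ⟨a, ⟨(hA a).1 h1, h2⟩, h3⟩
    · rintro ⟨a, ⟨h1, h2⟩, h3⟩
      exact ⟨a, (hA a).2 h1, h2, h3⟩
  have h1 : Nat.card T = (blk P n d '' (A \ {fun _ => 0})).ncard := by
    rw [hTeq]
    exact Nat.card_coe_set_eq _
  rw [h1, Set.ncard_image_of_injOn hinj, Set.ncard_diff_singleton_of_mem hA0]
  rw [← hcard]
  congr 1

/-- An irreducible factor of the characteristic polynomial divides every annihilating polynomial. -/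
lemma irr_dvd_of_aeval_eq_zero {ι : Type*} [Fintype ι] [DecidableEq ι] (A : Matrix ι ι F) (π q : F[X])
    (hπ : Irreducible π) (h : π ∣ A.charpoly) (hq : aeval A q = 0) : π ∣ q := by
  classical
  haveI : Fact (Irreducible π) := ⟨hπ⟩
  let K := AdjoinRoot π
  let α : K := AdjoinRoot.root π
  let φ : F →+* K := algebraMap F K
  let A' : Matrix ι ι K := A.map φ
  have h1 : (A'.charpoly).IsRoot α := by
    have : A'.charpoly = A.charpoly.map φ := by
      simp [A', Matrix.charpoly_map]
    rw [this]
    obtain ⟨s, hs⟩ := h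
    rw [hs, Polynomial.map_mul, IsRoot, eval_mul]
    have h2 : eval α (π.map φ) = 0 := by
      have := AdjoinRoot.isRoot_root π
      exact this
    rw [h2, zero_mul]
  have h2 : (Matrix.scalar ι α - A').det = 0 := by
    have h3 := h1
    rw [IsRoot, Matrix.eval_charpoly] at h3
    exact h3
  obtain ⟨v, hv0, hv⟩ := Matrix.exists_mulVec_eq_zero_iff.mpr h2
  have hv1 : A'.mulVec v = α • v := by
    rw [Matrix.sub_mulVec, sub_eq_zero] at hv
    rw [← hv]
    simp [Matrix.scalar_apply, Matrix.smul_mulVec, Matrix.one_mulVec]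
  have hpow : ∀ k : ℕ, (A' ^ k).mulVec v = α ^ k • v := by
    intro k
    induction k with
    | zero => simp
    | succ k ih =>
      rw [pow_succ, ← Matrix.mulVec_mulVec, hv1, Matrix.mulVec_smul, ih, smul_smul, pow_succ]
      rw [mul_comm]
  have hev : ∀ s : F[X], ((aeval A s).map φ).mulVec v = (aeval α s) • v := by
    intro s
    induction s using Polynomial.induction_on' with
    | add p1 p2 h1 h2 =>
      simp only [map_add, Matrix.map_add _ (φ.map_add), Matrix.add_mulVec, h1, h2, add_smul]
    | monomial k c =>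
      rw [aeval_monomial, aeval_monomial]
      have h3 : ((algebraMap F (Matrix ι ι F)) c * A ^ k).map φ = (φ c) • (A' ^ k) := by
        ext i j
        simp only [A', Matrix.map_apply, Algebra.algebraMap_eq_smul_one, smul_mul_assoc, one_mul,
          Matrix.smul_apply, smul_eq_mul, map_mul, ← Matrix.map_pow]
      rw [h3, Matrix.smul_mulVec, hpow, smul_smul]
  have h3 := hev q
  rw [hq] at h3
  have h4 : (aeval α q) • v = 0 := by
    rw [← h3]
    simp [Matrix.zero_mulVec]
  have h5 : aeval α q = 0 := by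
    rcases smul_eq_zero.mp h4 with h | h
    · exact h
    · exact absurd h hv0
  have h6 : AdjoinRoot.mk π q = 0 := by
    rw [← AdjoinRoot.aeval_eq]
    exact h5
  exact AdjoinRoot.mk_eq_zero.mp h6

end Cfsg.Agent.Lib.PrimeCl
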