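import Mathlib
import Cfsg.Agent.Lib.PrimeCl.Count

/-!
Classes of prime order in `GL_n(q)`: the polynomial parameters.
-/

set_option autoImplicit false
set_option linter.unusedSimpArgs false
set_option linter.unusedVariables false
set_option linter.deprecated false
set_option linter.unusedSectionVars false

namespace Cfsg.Agent.Lib.PrimeCl

open Polynomial UniqueFactorizationMonoid

variable {F : Type*} [Field F]

lemma coprime_of_monic_irr {π π' : F[X]} (h : Irreducible π) (h' : Irreducible π') (hm : π.Monic)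
    (hm' : π'.Monic) (hne : π ≠ π') : IsCoprime π π' := by
  rw [h.coprime_iff_not_dvd]
  intro hd
  exact hne (eq_of_monic_of_associated hm hm' ((h.dvd_irreducible_iff_associated h').1 hd))

/-- If all irreducible factors of the characteristic polynomial of a semisimple element divide
`R`, then the element is annihilated by `R`. -/
lemma aeval_eq_zero_of_factors {ι : Type*} [Fintype ι] [DecidableEq ι] (A : Matrix ι ι F) (m : ℕ) (hm : (m : F) ≠ 0)
    (hA : A ^ m = 1) (R : F[X]) (hR0 : R ≠ 0)
    (h : ∀ π : F[X], Irreducible π → π ∣ A.charpoly → π ∣ R) : aeval A R = 0 := by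
  classical
  have hsq : Squarefree (X ^ m - 1 : F[X]) := KS2.SSConj.squarefree_pow_sub_one hm
  set Q : F[X] := X ^ m - 1 with hQ
  have hQ0 : Q ≠ 0 := hsq.ne_zero
  set Q1 : F[X] := EuclideanDomain.gcd Q R with hQ1
  obtain ⟨Q2, hQ2⟩ : Q1 ∣ Q := EuclideanDomain.gcd_dvd_left _ _
  have hQ1R : Q1 ∣ R := EuclideanDomain.gcd_dvd_right _ _
  have hcop : IsCoprime Q2 A.charpoly := by
    refine isCoprime_of_irreducible_dvd ?_ ?_
    · rintro ⟨_, h2⟩
      exact (Matrix.charpoly_monic A).ne_zero h2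
    · intro π hπ hπ1 hπ2
      have h3 : π ∣ R := h π hπ hπ2
      have h4 : π ∣ Q := hπ1.trans ⟨Q1, by rw [hQ2]; ring⟩
      have h5 : π ∣ Q1 := EuclideanDomain.dvd_gcd h4 h3
      have h6 : π * π ∣ Q := by
        rw [hQ2]
        exact mul_dvd_mul h5 hπ1
      exact hπ.not_isUnit (hsq π h6)
  obtain ⟨u, v, huv⟩ := hcop
  have h1 := congrArg (aeval A) huv
  rw [map_add, map_mul, map_mul, Matrix.aeval_self_charpoly, mul_zero, add_zero, map_one] at h1
  have h2 : aeval A Q = 0 := by
    rw [hQ]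
    simp [hA]
  rw [hQ2, map_mul] at h2
  have h3 : aeval A Q1 = 0 := by
    calc aeval A Q1 = (aeval A u * aeval A Q2) * aeval A Q1 := by rw [h1, one_mul]
      _ = aeval A u * (aeval A Q1 * aeval A Q2) := by
        rw [mul_assoc, ← map_mul, ← map_mul, ← map_mul, ← map_mul, mul_comm Q2]
      _ = 0 := by rw [h2, mul_zero]
  obtain ⟨s, hs⟩ := hQ1R
  rw [hs, map_mul, h3, zero_mul]

section Final

variable [Fintype F] {p : ℕ} [hpf : Fact p.Prime] [CharP F p]

lemma aeval_pow_sub_one_of_factors {n r : ℕ} (x : GL (Fin n) F) (hr0 : 0 < r) (hx : (orderOf x).Coprime p)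
    (h : ∀ π : F[X], Irreducible π → π ∣ (x : Matrix (Fin n) (Fin n) F).charpoly → π ∣ X ^ r - 1) :
    x ^ r = 1 := by
  have hm : ((orderOf x : ℕ) : F) ≠ 0 := KS2.SSConj.cast_ne_zero_of_coprime (p := p) hx (Or.inr trivial)
  have hA : (x : Matrix (Fin n) (Fin n) F) ^ orderOf x = 1 := by
    rw [← Units.val_pow_eq_pow_val, pow_orderOf_eq_one]
    simp
  have hR0 : (X ^ r - 1 : F[X]) ≠ 0 := (monic_X_pow_sub_C (1 : F) hr0.ne').ne_zero |> fun h => by
    simpa using h
  have h1 := aeval_eq_zero_of_factors _ _ hm hA _ hR0 h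
  apply Units.ext
  rw [Units.val_pow_eq_pow_val]
  simp only [map_sub, map_pow, aeval_X, map_one, sub_eq_zero] at h1
  simpa using h1

/-- Realization of a polynomial as the characteristic polynomial of an element of prime order. -/
theorem exists_of_prime_order {n r : ℕ} (hr : r.Prime) (hrp : r ≠ p) (f : F[X]) (hf : f.Monic)
    (hd : f.natDegree = n) (h : ∀ π : F[X], Irreducible π → π ∣ f → π ∣ X ^ r - 1)
    (hne : f ≠ (X - 1) ^ n) :
    ∃ g : GL (Fin n) F, orderOf g = r ∧ (g : Matrix (Fin n) (Fin n) F).charpoly = f := by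
  have h0 : f.coeff 0 ≠ 0 := by
    intro h0
    have h1 : (X : F[X]) ∣ f := X_dvd_iff.mpr h0
    have h2 := h X irreducible_X h1
    have h3 : (X : F[X]) ∣ 1 := by
      have h4 : (X : F[X]) ∣ X ^ r := dvd_pow_self _ hr.ne_zero
      have := (dvd_sub h4 h2)
      simpa using this
    exact not_isUnit_X (isUnit_of_dvd_one h3)
  obtain ⟨x, hx, hc⟩ := KS2.SSConj.exists_matrix (p := p) f hf hd h0
  refine ⟨x, ?_, hc⟩
  have h1 : x ^ r = 1 := aeval_pow_sub_one_of_factors (p := p) x hr.pos hx (by rw [hc]; exact h)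
  haveI : Fact r.Prime := ⟨hr⟩
  refine orderOf_eq_prime h1 ?_
  rintro rfl
  apply hne
  rw [← hc]
  simp [Matrix.charpoly_one]

/-- Elements of prime order: the characteristic polynomial. -/
theorem charpoly_of_prime_order {n r : ℕ} (hr : r.Prime) (hrp : r ≠ p) (g : GL (Fin n) F)
    (hg : orderOf g = r) :
    (∀ π : F[X], Irreducible π → π ∣ (g : Matrix (Fin n) (Fin n) F).charpoly → π ∣ X ^ r - 1) ∧
      (g : Matrix (Fin n) (Fin n) F).charpoly ≠ (X - 1) ^ n := by
  constructor
  · intro π hπ hd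
    apply irr_dvd_of_aeval_eq_zero _ _ _ hπ hd
    have hA : (g : Matrix (Fin n) (Fin n) F) ^ r = 1 := by
      rw [← hg, ← Units.val_pow_eq_pow_val, pow_orderOf_eq_one]
      simp
    simp [hA]
  · intro hc
    have hcop : (orderOf g).Coprime p := by
      rw [hg]
      exact (Nat.coprime_primes hr Fact.out).2 hrp
    have h1 : IsConj g 1 := KS2.SSConj.gl_isConj (p := p) g 1 hcop (by simp) (by
      rw [hc]
      simp [Matrix.charpoly_one])
    have h2 : g = 1 := by simpa using h1
    rw [h2, orderOf_one] at hg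
    exact hr.one_lt.ne hg

/-- The surjectivity of the block parametrization for a finset of monic irreducibles. -/
lemma exists_blk (L : Finset F[X]) (d n : ℕ) (hL : ∀ π ∈ L, π.Monic ∧ π.natDegree = d)
    (hX : (X - 1 : F[X]) ∉ L) (f : F[X]) (hf : f.Monic) (hd : f.natDegree = n)
    (h : ∀ π : F[X], Irreducible π → π.Monic → π ∣ f → π = X - 1 ∨ π ∈ L) :
    ∃ a : L → ℕ, d * ∑ b, a b ≤ n ∧ blk (fun b : L => (b : F[X])) n d a = f := by
  classical
  set M := normalizedFactors f with hM
  have hprod : M.prod = f := by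
    have := Polynomial.Monic.normalize_eq_self hf
    rw [hM, prod_normalizedFactors_eq hf.ne_zero, this]
  have hsub : M.toFinset ⊆ insert (X - 1) L := by
    intro π hπ
    have hπ' : π ∈ normalizedFactors f := Multiset.mem_toFinset.mp hπ
    have h1 := (mem_normalizedFactors_iff' hf.ne_zero).1 hπ'
    have hmon : π.Monic := by
      have := h1.2.1
      rw [← this]
      exact Polynomial.monic_normalize h1.1.ne_zero
    rcases h π h1.1 hmon h1.2.2 with h2 | h2
    · rw [h2]
      exact Finset.mem_insert_self _ _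
    · exact Finset.mem_insert_of_mem h2
  have h1 := Finset.prod_multiset_count_of_subset M _ hsub
  rw [hprod, Finset.prod_insert hX] at h1
  let a : L → ℕ := fun b => M.count b.1
  have h2 : ∏ π ∈ L, π ^ M.count π = ∏ b : L, (b : F[X]) ^ a b :=
    (Finset.prod_coe_sort L (fun π => π ^ M.count π)).symm
  rw [h2] at h1
  have h3 : n = M.count (X - 1) + d * ∑ b, a b := by
    have hm : ∀ b : L, ((b : F[X]) ^ a b).Monic := fun b => ((hL b.1 b.2).1).pow _
    rw [← hd, h1, (monic_X1.pow _).natDegree_mul (monic_prod_of_monic _ _ fun b _ => hm b),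
      (monic_X1).natDegree_pow, natDegree_X1, natDegree_prod_of_monic _ _ fun b _ => hm b, mul_one]
    congr 1
    rw [Finset.mul_sum]
    refine Finset.sum_congr rfl fun b _ => ?_
    rw [((hL b.1 b.2).1).natDegree_pow, (hL b.1 b.2).2, mul_comm]
  refine ⟨a, by omega, ?_⟩
  unfold blk
  have h4 : n - d * ∑ b, a b = M.count (X - 1) := by omega
  rw [h4, h1]

/-- The parameter set for classes of prime order in `GL_n(q)`. -/
theorem card_prime_order_polys (q : ℕ) (hF : Fintype.card F = q) (n r i t : ℕ) (hr : r.Prime) (hrp : r ≠ p)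
    (hi : i = orderOf (q : ZMod r)) (ht : t * i = r - 1) :
    Nat.card {f : F[X] | f.Monic ∧ f.natDegree = n ∧ (∀ π : F[X], Irreducible π → π ∣ f → π ∣ X ^ r - 1) ∧
      f ≠ (X - 1) ^ n} = Nat.choose (n / i + t) t - 1 := by
  classical
  haveI : Fact r.Prime := ⟨hr⟩
  obtain ⟨k, hpp, hk⟩ := FiniteField.card F p
  have hp' : p.Prime := Fact.out
  have hcop : p.Coprime r := (Nat.coprime_primes hp' hr).2 hrp.symm
  have hK : Fintype.card F = p ^ (k : ℕ) := hk
  have hqc : q.Coprime r := by
    rw [← hF, hK]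
    exact hcop.pow_left _
  have hipos : 0 < i := by
    have h1 : i = orderOf (ZMod.unitOfCoprime _ (hcop.pow_left (k : ℕ))) := by
      rw [hi, ← orderOf_units, ZMod.coe_unitOfCoprime, ← hF, hK]
    rw [h1]
    exact orderOf_pos _
  have hi' : orderOf (ZMod.unitOfCoprime _ (hcop.pow_left (k : ℕ))) = i := by
    rw [hi, ← orderOf_units, ZMod.coe_unitOfCoprime, ← hF, hK]
  set L := (normalizedFactors (cyclotomic r F)).toFinset with hL
  have hLcard : Fintype.card L = t := by
    rw [Fintype.card_coe, hL, normalizedFactors_cyclotomic_card hK hcop, hi', Nat.totient_prime hr, ← ht]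
    exact Nat.mul_div_cancel _ hipos
  have hcyc0 : cyclotomic r F ≠ 0 := cyclotomic_ne_zero r F
  have hmem : ∀ π, π ∈ L ↔ Irreducible π ∧ normalize π = π ∧ π ∣ cyclotomic r F := by
    intro π
    rw [hL, Multiset.mem_toFinset, mem_normalizedFactors_iff' hcyc0]
  have hLm : ∀ π ∈ L, π.Monic ∧ π.natDegree = i := by
    intro π hπ
    have h1 := (hmem π).1 hπ
    refine ⟨?_, ?_⟩
    · rw [← h1.2.1]
      exact Polynomial.monic_normalize h1.1.ne_zero
    · rw [← hi']
      exact natDegree_of_dvd_cyclotomic_of_irreducible hK hcop h1.2.2 h1.1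
  have hrF : (r : F) ≠ 0 := by
    intro h0
    have := (CharP.cast_eq_zero_iff F p r).mp h0
    exact hrp ((Nat.prime_dvd_prime_iff_eq hp' hr).1 this).symm
  have hX1 : ¬ (X - 1 : F[X]) ∣ cyclotomic r F := by
    intro hd
    have h1 : (cyclotomic r F).IsRoot 1 := by
      have h2 : (X - C (1 : F)) ∣ cyclotomic r F := by simpa using hd
      exact dvd_iff_isRoot.mp h2
    rw [IsRoot, eval_one_cyclotomic_prime] at h1
    exact hrF h1
  have hX : (X - 1 : F[X]) ∉ L := fun h => hX1 ((hmem _).1 h).2.2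
  have hirrX : Irreducible (X - 1 : F[X]) := by simpa using irreducible_X_sub_C (1 : F)
  have hXrfac : (X ^ r - 1 : F[X]) = cyclotomic r F * (X - 1) := by
    rw [cyclotomic_prime_mul_X_sub_one]
  rw [← hLcard]
  refine card_of_blk (fun b : L => (b : F[X])) n i (fun b => (hLm b.1 b.2).1) (fun b => (hLm b.1 b.2).2) hipos ?_ ?_ _ ?_
  · intro b c hbc
    exact coprime_of_monic_irr ((hmem _).1 b.2).1 ((hmem _).1 c.2).1 (hLm b.1 b.2).1 (hLm c.1 c.2).1
      (fun h => hbc (Subtype.ext h))
  · intro b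
    exact coprime_of_monic_irr ((hmem _).1 b.2).1 hirrX (hLm b.1 b.2).1 monic_X1
      (fun h => hX (h ▸ b.2))
  · intro f
    constructor
    · rintro ⟨hm, hd, hfac, hne⟩
      obtain ⟨a, ha, hblk⟩ := exists_blk L i n hLm hX f hm hd (by
        intro π hπ hπm hπf
        have h1 := hfac π hπ hπf
        rw [hXrfac] at h1
        rcases hπ.prime.dvd_or_dvd h1 with h2 | h2
        · right
          rw [hmem]
          exact ⟨hπ, hπm.normalize_eq_self, h2⟩
        · left
          exact eq_of_monic_of_associated hπm monic_X1 ((hπ.dvd_irreducible_iff_associated hirrX).1 h2))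
      refine ⟨a, ha, ?_, hblk⟩
      rintro rfl
      apply hne
      rw [← hblk, blk_zero]
    · rintro ⟨a, ha, ha0, rfl⟩
      have hmb : ∀ b : L, ((b : F[X])).Monic := fun b => (hLm b.1 b.2).1
      refine ⟨blk_monic _ _ _ hmb a, blk_natDegree _ _ _ hmb (fun b => (hLm b.1 b.2).2) a ha, ?_, ?_⟩
      · intro π hπ hd
        unfold blk at hd
        rw [hXrfac]
        rcases hπ.prime.dvd_or_dvd hd with h2 | h2
        · exact (hπ.prime.dvd_of_dvd_pow h2).trans (Dvd.intro_left _ rfl)
        · obtain ⟨b, _, hb⟩ := (Prime.dvd_finset_prod_iff hπ.prime _).1 h2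
          have h3 := hπ.prime.dvd_of_dvd_pow hb
          exact (h3.trans ((hmem _).1 b.2).2.2).trans (Dvd.intro _ rfl)
      · intro hc
        apply ha0
        exact (blk_eq_X1_iff (fun b : L => (b : F[X])) n i (fun b => (hLm b.1 b.2).1) (fun b => (hLm b.1 b.2).2) hipos
          (fun b c hbc => coprime_of_monic_irr ((hmem _).1 b.2).1 ((hmem _).1 c.2).1 (hLm b.1 b.2).1 (hLm c.1 c.2).1
            (fun h => hbc (Subtype.ext h)))
          (fun b => coprime_of_monic_irr ((hmem _).1 b.2).1 hirrX (hLm b.1 b.2).1 monic_X1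
            (fun h => hX (h ▸ b.2))) a).1 hc

/-- The number of classes of elements of prime order `r ≠ p` in `GL_n(q)`. -/
theorem card_classes_prime_order (q : ℕ) (hF : Fintype.card F = q) (n r i t : ℕ) (hr : r.Prime) (hrp : r ≠ p)
    (hi : i = orderOf (q : ZMod r)) (ht : t * i = r - 1) :
    Nat.card {C : ConjClasses (GL (Fin n) F) // ∃ g : GL (Fin n) F, ConjClasses.mk g = C ∧ orderOf g = r}
      = Nat.choose (n / i + t) t - 1 := by
  rw [← card_prime_order_polys (p := p) q hF n r i t hr hrp hi ht]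
  apply KS2.IsoCl.card_classes_eq (fun g : GL (Fin n) F => orderOf g = r)
    (fun g : GL (Fin n) F => (g : Matrix (Fin n) (Fin n) F).charpoly)
  · intro g h hgh
    obtain ⟨c, rfl⟩ := isConj_iff.1 hgh
    have h1 := Matrix.charpoly_units_conj c (g : Matrix (Fin n) (Fin n) F)
    show (g : Matrix (Fin n) (Fin n) F).charpoly = ((c * g * c⁻¹ : GL (Fin n) F) : Matrix (Fin n) (Fin n) F).charpoly
    rw [Units.val_mul, Units.val_mul, Matrix.coe_units_inv, h1]
  · intro g h hg hh hc
    have hco : r.Coprime p := (Nat.coprime_primes hr Fact.out).2 hrp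
    exact KS2.SSConj.gl_isConj (p := p) g h (by rw [hg]; exact hco) (by rw [hh]; exact hco) hc
  · intro g hg
    obtain ⟨h1, h2⟩ := charpoly_of_prime_order (p := p) hr hrp g hg
    exact ⟨Matrix.charpoly_monic _, by simp [Matrix.charpoly_natDegree_eq_dim], h1, h2⟩
  · rintro f ⟨h1, h2, h3, h4⟩
    exact exists_of_prime_order (p := p) hr hrp f h1 h2 h3 h4

end Final

end Cfsg.Agent.Lib.PrimeCl
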