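import Mathlib

/-!
Elementary facts on multiplicative orders modulo an odd prime.
-/

set_option autoImplicit false
set_option linter.unusedSimpArgs false
set_option linter.unusedVariables false
set_option linter.deprecated false

namespace Cfsg.Agent.Lib.PrimeCl

variable {r : ℕ}

lemma order_pos_zmod (hr : r.Prime) {q : ℕ} (hq : q.Coprime r) : 0 < orderOf (q : ZMod r) := by
  haveI : Fact r.Prime := ⟨hr⟩
  rw [← ZMod.coe_unitOfCoprime q hq, orderOf_units]
  exact orderOf_pos _

lemma neg_one_ne_one_zmod (hr : r.Prime) (hr2 : r ≠ 2) : (-1 : ZMod r) ≠ 1 := by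
  haveI : Fact r.Prime := ⟨hr⟩
  haveI : Fact (2 < r) := ⟨by have := hr.two_le; omega⟩
  exact ZMod.neg_one_ne_one

/-- When the order is `2c`, the power `q^c` is `-1`. -/
lemma pow_half_eq_neg_one (hr : r.Prime) {q c : ℕ} (hq : q.Coprime r)
    (hi : orderOf (q : ZMod r) = 2 * c) : (q : ZMod r) ^ c = -1 := by
  haveI : Fact r.Prime := ⟨hr⟩
  have hpos := order_pos_zmod hr hq
  have h1 : (q : ZMod r) ^ (2 * c) = 1 := by
    rw [← hi]
    exact pow_orderOf_eq_one _
  have h2 : ((q : ZMod r) ^ c - 1) * ((q : ZMod r) ^ c + 1) = 0 := by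
    have : ((q : ZMod r) ^ c - 1) * ((q : ZMod r) ^ c + 1) = (q : ZMod r) ^ (2 * c) - 1 := by ring
    rw [this, h1, sub_self]
  rcases mul_eq_zero.mp h2 with h3 | h3
  · exfalso
    have h4 : orderOf (q : ZMod r) ∣ c := orderOf_dvd_of_pow_eq_one (sub_eq_zero.mp h3)
    rw [hi] at h4
    have := Nat.le_of_dvd (by omega) h4
    omega
  · exact eq_neg_of_add_eq_zero_left h3

/-- The criterion for the symplectic case. -/
theorem exists_pow_add_one_iff (hr : r.Prime) (hr2 : r ≠ 2) {q : ℕ} (hq : q.Coprime r) :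
    (∃ j : ℕ, r ∣ q ^ j + 1) ↔ Even (orderOf (q : ZMod r)) := by
  haveI : Fact r.Prime := ⟨hr⟩
  constructor
  · rintro ⟨j, hj⟩
    by_contra hodd
    have hodd' : Odd (orderOf (q : ZMod r)) := Nat.not_even_iff_odd.1 hodd
    have h1 : (q : ZMod r) ^ j = -1 := by
      have := (ZMod.natCast_eq_zero_iff _ _).2 hj
      push_cast at this
      exact eq_neg_of_add_eq_zero_left this
    have h2 : (q : ZMod r) ^ (2 * j) = 1 := by
      rw [mul_comm, pow_mul, h1]
      ring
    have h3 : orderOf (q : ZMod r) ∣ 2 * j := orderOf_dvd_of_pow_eq_one h2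
    have h4 : orderOf (q : ZMod r) ∣ j := (Nat.Coprime.dvd_mul_left hodd'.coprime_two_right).1 h3 
    have h5 : (q : ZMod r) ^ j = 1 := orderOf_dvd_iff_pow_eq_one.1 h4
    exact neg_one_ne_one_zmod hr hr2 (h1.symm.trans h5)
  · intro h
    obtain ⟨c, hc⟩ := h.exists_two_nsmul
    have h1 := pow_half_eq_neg_one hr hq (c := c) (by simpa using hc)
    refine ⟨c, ?_⟩
    rw [← ZMod.natCast_eq_zero_iff]
    push_cast
    rw [h1]
    ring

/-- The criterion for the unitary case. -/
theorem exists_pow_add_self_iff (hr : r.Prime) (hr2 : r ≠ 2) {q : ℕ} (hq : q.Coprime r) :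
    (∃ j : ℕ, r ∣ (q ^ 2) ^ j + q) ↔ orderOf (q : ZMod r) % 4 = 2 := by
  haveI : Fact r.Prime := ⟨hr⟩
  have hpos := order_pos_zmod hr hq
  set i := orderOf (q : ZMod r) with hi
  have hone : (q : ZMod r) ^ i = 1 := pow_orderOf_eq_one _
  constructor
  · rintro ⟨j, hj⟩
    have h1 : (q : ZMod r) ^ (2 * j) = - (q : ZMod r) := by
      have := (ZMod.natCast_eq_zero_iff _ _).2 hj
      push_cast at this
      rw [← pow_mul] at this
      exact eq_neg_of_add_eq_zero_left this
    set e := 2 * j + (i - 1) with he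
    have h2 : (q : ZMod r) ^ e = -1 := by
      rw [he, pow_add, h1, neg_mul, ← pow_succ']
      have : i - 1 + 1 = i := by omega
      rw [this, hone]
    have h3 : (q : ZMod r) ^ (2 * e) = 1 := by
      rw [mul_comm, pow_mul, h2]
      ring
    have h4 : i ∣ 2 * e := orderOf_dvd_of_pow_eq_one h3
    have h5 : ¬ i ∣ e := by
      intro h
      have h6 : (q : ZMod r) ^ e = 1 := orderOf_dvd_iff_pow_eq_one.1 h
      exact neg_one_ne_one_zmod hr hr2 (h2.symm.trans h6)
    have heven : Even i := by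
      by_contra hodd
      have hodd' : Odd i := Nat.not_even_iff_odd.1 hodd
      exact h5 ((Nat.Coprime.dvd_mul_left hodd'.coprime_two_right).1 h4)
    obtain ⟨c, hc⟩ := heven
    have hc' : i = 2 * c := by omega
    have h6 : c ∣ e := by
      rw [hc'] at h4
      exact Nat.dvd_of_mul_dvd_mul_left (by norm_num) h4
    have heodd : Odd e := by
      rw [he]
      have : i - 1 = 2 * (c - 1) + 1 := by omega
      rw [this]
      exact ⟨j + (c - 1), by ring⟩
    have hcodd : Odd c := by
      exact Odd.of_dvd_nat heodd h6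
    obtain ⟨d, hd⟩ := hcodd
    omega
  · intro h
    have hc : i = 2 * (i / 2) := by omega
    set c := i / 2 with hcdef
    have hcodd : (c + 1) % 2 = 0 := by omega
    have h1 := pow_half_eq_neg_one hr hq (c := c) hc
    refine ⟨(c + 1) / 2, ?_⟩
    rw [← ZMod.natCast_eq_zero_iff]
    push_cast
    rw [← pow_mul]
    have : 2 * ((c + 1) / 2) = c + 1 := by omega
    rw [this, pow_succ, h1]
    ring

/-- The order of `q ^ 2` modulo `r`. -/
lemma orderOf_sq (hr : r.Prime) {q : ℕ} (hq : q.Coprime r) :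
    orderOf (((q ^ 2 : ℕ)) : ZMod r) =
      if Odd (orderOf (q : ZMod r)) then orderOf (q : ZMod r) else orderOf (q : ZMod r) / 2 := by
  push_cast
  rw [orderOf_pow' _ (by norm_num : (2 : ℕ) ≠ 0)]
  split_ifs with h
  · rw [Nat.gcd_comm, Nat.Coprime.gcd_eq_one (h.coprime_two_left), Nat.div_one]
  · have h2 : Even (orderOf (q : ZMod r)) := Nat.not_odd_iff_even.1 h
    rw [Nat.gcd_eq_right h2.two_dvd]

end Cfsg.Agent.Lib.PrimeCl
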