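import Mathlib
import Cfsg.Agent.Lib.PrimeCl.GL
import Cfsg.Agent.Lib.KS2.IsoPoly

/-!
Irreducible factors of cyclotomic polynomials over a finite field, and their stars.
-/

set_option autoImplicit false
set_option linter.unusedSimpArgs false
set_option linter.unusedVariables false
set_option linter.deprecated false
set_option linter.unusedSectionVars false

universe u

namespace Cfsg.Agent.Lib.PrimeCl

open Polynomial UniqueFactorizationMonoid Cfsg.Agent.Lib.KS2.IsoCl

section Cyc

variable (K : Type u) [Field K]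

open Classical in
/-- The monic irreducible factors of the `r`-th cyclotomic polynomial. -/
noncomputable def cycL (r : ℕ) : Finset K[X] := (normalizedFactors (cyclotomic r K)).toFinset

variable {K}

lemma mem_cycL {r : ℕ} {π : K[X]} : π ∈ cycL K r ↔ Irreducible π ∧ π.Monic ∧ π ∣ cyclotomic r K := by
  classical
  unfold cycL
  rw [Multiset.mem_toFinset, mem_normalizedFactors_iff' (cyclotomic_ne_zero r K)]
  constructor
  · rintro ⟨h1, h2, h3⟩
    refine ⟨h1, ?_, h3⟩
    rw [← h2]
    exact Polynomial.monic_normalize h1.ne_zero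
  · rintro ⟨h1, h2, h3⟩
    exact ⟨h1, h2.normalize_eq_self, h3⟩

lemma pstar_X1 (σ : K →+* K) : pstar σ (X - 1 : K[X]) = X - 1 := by
  simpa using pstar_X_pow_sub_one σ (F := K) (m := 1) one_pos

lemma irreducible_X1 : Irreducible (X - 1 : K[X]) := by simpa using irreducible_X_sub_C (1 : K)

/-- `pstar` as a monoid homomorphism. -/
noncomputable def pstarHom (σ : K →+* K) : K[X] →* K[X] where
  toFun := pstar σ
  map_one' := pstar_one σ
  map_mul' := pstar_mul σ

lemma pstar_pow (σ : K →+* K) (f : K[X]) (k : ℕ) : pstar σ (f ^ k) = pstar σ f ^ k :=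
  map_pow (pstarHom σ) f k

lemma pstar_prod {B : Type*} (s : Finset B) (σ : K →+* K) (f : B → K[X]) :
    pstar σ (∏ b ∈ s, f b) = ∏ b ∈ s, pstar σ (f b) :=
  map_prod (pstarHom σ) f s

/-- A star-invariant product of blocks is star invariant. -/
lemma blk_star {B : Type*} [Fintype B] (σ : K →+* K) (P : B → K[X]) (n d : ℕ) (a : B → ℕ)
    (h : ∀ b, pstar σ (P b) = P b) : pstar σ (blk P n d a) = blk P n d a := by
  unfold blk
  rw [pstar_mul, pstar_pow, pstar_X1, pstar_prod]
  congr 1
  refine Finset.prod_congr rfl fun b _ => ?_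
  rw [pstar_pow, h]

lemma coeff_zero_eq_one_of_star (f : K[X]) (hstar : pstar (RingHom.id K) f = f) (h1 : eval 1 f ≠ 0) :
    f.coeff 0 = 1 := by
  have h2 := congrArg (eval 1) hstar
  simp only [pstar, Polynomial.map_id, RingHom.id_apply, eval_mul, eval_C] at h2
  have h3 : eval 1 (reverse f) = eval 1 f := by
    letI : Invertible (1 : K) := invertibleOne
    have := eval₂_reverse_mul_pow (RingHom.id K) (1 : K) f
    simpa [invOf_one, eval₂_id] using this
  rw [h3] at h2
  have h4 : (f.coeff 0)⁻¹ = 1 := by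
    have h5 : ((f.coeff 0)⁻¹ - 1) * eval 1 f = 0 := by
      rw [sub_mul, h2, one_mul, sub_self]
    rcases mul_eq_zero.mp h5 with h | h
    · exact sub_eq_zero.mp h
    · exact absurd h h1
  rwa [inv_eq_one] at h4

/-- The polynomial in `blk` has constant coefficient one, in the symplectic case. -/
lemma blk_coeff_zero {B : Type*} [Fintype B] (P : B → K[X]) (n d : ℕ) (a : B → ℕ)
    (hP : ∀ b, pstar (RingHom.id K) (P b) = P b) (hP1 : ∀ b, IsCoprime (P b) (X - 1))
    (hn : Even n) (hd : Even d) (ha : d * ∑ b, a b ≤ n) : (blk P n d a).coeff 0 = 1 := by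
  classical
  have h0 : ∀ b, (P b).coeff 0 = 1 := by
    intro b
    apply coeff_zero_eq_one_of_star _ (hP b)
    intro h
    have h1 : (X - 1 : K[X]) ∣ P b := by
      have := dvd_iff_isRoot.mpr (show (P b).IsRoot 1 from h)
      simpa using this
    have h2 := hP1 b
    have h3 : IsUnit (X - 1 : K[X]) := h2.isUnit_of_dvd' h1 dvd_rfl
    exact irreducible_X1.not_isUnit h3
  unfold blk
  rw [mul_coeff_zero, coeff_zero_eq_eval_zero, coeff_zero_eq_eval_zero, eval_pow, eval_prod]
  have h1 : eval 0 (X - 1 : K[X]) = -1 := by simp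
  rw [h1]
  have h2 : Even (n - d * ∑ b, a b) := by
    rw [Nat.even_sub ha]
    exact iff_of_true hn (hd.mul_right _)
  rw [h2.neg_one_pow, one_mul]
  apply Finset.prod_eq_one
  intro b _
  rw [eval_pow, ← coeff_zero_eq_eval_zero, h0 b, one_pow]

end Cyc

section Finite

variable {K : Type u} [Field K] [Fintype K] {p : ℕ} [hpf : Fact p.Prime] [CharP K p]

lemma card_pow_coprime {Q r : ℕ} (hQ : Fintype.card K = Q) (hr : r.Prime) (hrp : r ≠ p) :
    ∃ k : ℕ, Q = p ^ k ∧ p.Coprime r := by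
  obtain ⟨k, hpp, hk⟩ := FiniteField.card K p
  have hp' : p.Prime := Fact.out
  exact ⟨k, by rw [← hQ, hk], (Nat.coprime_primes hp' hr).2 hrp.symm⟩

lemma cast_prime_ne_zero {r : ℕ} (hr : r.Prime) (hrp : r ≠ p) : (r : K) ≠ 0 := by
  intro h0
  have := (CharP.cast_eq_zero_iff K p r).mp h0
  exact hrp ((Nat.prime_dvd_prime_iff_eq Fact.out hr).1 this).symm

lemma natDegree_of_mem_cycL {Q r b : ℕ} (hQ : Fintype.card K = Q) (hr : r.Prime) (hrp : r ≠ p)
    (hb : b = orderOf (Q : ZMod r)) {π : K[X]} (hπ : π ∈ cycL K r) : π.natDegree = b := by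
  haveI : Fact r.Prime := ⟨hr⟩
  obtain ⟨k, hk, hcop⟩ := card_pow_coprime (p := p) hQ hr hrp
  have h1 := mem_cycL.1 hπ
  rw [natDegree_of_dvd_cyclotomic_of_irreducible (hQ.trans hk) hcop h1.2.2 h1.1, hb, ← orderOf_units,
    ZMod.coe_unitOfCoprime, hk]

lemma order_pos_of {Q r b : ℕ} (hQ : Fintype.card K = Q) (hr : r.Prime) (hrp : r ≠ p)
    (hb : b = orderOf (Q : ZMod r)) : 0 < b := by
  haveI : Fact r.Prime := ⟨hr⟩
  obtain ⟨k, hk, hcop⟩ := card_pow_coprime (p := p) hQ hr hrp
  have h1 : b = orderOf (ZMod.unitOfCoprime _ (hcop.pow_left k)) := by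
    rw [hb, ← orderOf_units, ZMod.coe_unitOfCoprime, hk]
  rw [h1]
  exact orderOf_pos _

lemma card_cycL {Q r b s : ℕ} (hQ : Fintype.card K = Q) (hr : r.Prime) (hrp : r ≠ p)
    (hb : b = orderOf (Q : ZMod r)) (hs : s * b = r - 1) : (cycL K r).card = s := by
  classical
  haveI : Fact r.Prime := ⟨hr⟩
  obtain ⟨k, hk, hcop⟩ := card_pow_coprime (p := p) hQ hr hrp
  have h1 : orderOf (ZMod.unitOfCoprime _ (hcop.pow_left k)) = b := by
    rw [hb, ← orderOf_units, ZMod.coe_unitOfCoprime, hk]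
  have hb0 := order_pos_of (p := p) hQ hr hrp hb
  have h2 := normalizedFactors_cyclotomic_card (hQ.trans hk) hcop
  rw [h1, Nat.totient_prime hr, ← hs, Nat.mul_div_cancel _ hb0] at h2
  unfold cycL
  convert h2

lemma X1_not_dvd_cyc {r : ℕ} (hr : r.Prime) (hrp : r ≠ p) : ¬ (X - 1 : K[X]) ∣ cyclotomic r K := by
  haveI : Fact r.Prime := ⟨hr⟩
  intro hd
  have h1 : (cyclotomic r K).IsRoot 1 := by
    have h2 : (X - C (1 : K)) ∣ cyclotomic r K := by simpa using hd
    exact dvd_iff_isRoot.mp h2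
  rw [IsRoot, eval_one_cyclotomic_prime] at h1
  exact cast_prime_ne_zero (p := p) hr hrp h1

lemma X1_not_mem_cycL {r : ℕ} (hr : r.Prime) (hrp : r ≠ p) : (X - 1 : K[X]) ∉ cycL K r :=
  fun h => X1_not_dvd_cyc (p := p) hr hrp (mem_cycL.1 h).2.2

lemma X_pow_factor {r : ℕ} (hr : r.Prime) : (X ^ r - 1 : K[X]) = cyclotomic r K * (X - 1) := by
  haveI : Fact r.Prime := ⟨hr⟩
  rw [cyclotomic_prime_mul_X_sub_one]

lemma dvd_X_pow_iff {r : ℕ} (hr : r.Prime) {π : K[X]} (hπ : Irreducible π) (hm : π.Monic)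
    (h : π ∣ X ^ r - 1) : π = X - 1 ∨ π ∈ cycL K r := by
  rw [X_pow_factor hr] at h
  rcases hπ.prime.dvd_or_dvd h with h2 | h2
  · right
    exact mem_cycL.2 ⟨hπ, hm, h2⟩
  · left
    exact eq_of_monic_of_associated hm monic_X1 ((hπ.dvd_irreducible_iff_associated irreducible_X1).1 h2)

lemma mem_cycL_dvd {r : ℕ} (hr : r.Prime) {π : K[X]} (hπ : π ∈ cycL K r) : π ∣ X ^ r - 1 := by
  rw [X_pow_factor hr]
  exact (mem_cycL.1 hπ).2.2.trans (Dvd.intro _ rfl)

lemma coeff_zero_ne_of_mem {r : ℕ} (hr : r.Prime) {π : K[X]} (hπ : π ∈ cycL K r) : π.coeff 0 ≠ 0 :=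
  coeff_zero_of_dvd hr.pos (mem_cycL_dvd hr hπ)

lemma pstar_mem_cycL {r : ℕ} (hr : r.Prime) (hrp : r ≠ p) (σ : K →+* K) (hσ : ∀ a, σ (σ a) = a)
    {π : K[X]} (hπ : π ∈ cycL K r) : pstar σ π ∈ cycL K r := by
  have h1 := mem_cycL.1 hπ
  have h0 := coeff_zero_ne_of_mem hr hπ
  have hirr := pstar_irreducible σ hσ h1.2.1 h0 h1.1
  have hm := pstar_monic σ h0
  rcases dvd_X_pow_iff hr hirr hm (pstar_dvd σ hr.pos (mem_cycL_dvd hr hπ)) with h2 | h2
  · exfalso
    have h3 : π = X - 1 := by
      rw [← pstar_pstar σ hσ h1.2.1 h0, h2, pstar_X1]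
    exact X1_not_mem_cycL (p := p) hr hrp (h3 ▸ hπ)
  · exact h2

/-- The root criterion for self-duality of the factors of a cyclotomic polynomial. -/
theorem pstar_eq_iff {Q r e : ℕ} (hQ : Fintype.card K = Q) (hr : r.Prime) (hrp : r ≠ p) (σ : K →+* K)
    (hσ : ∀ a, σ (σ a) = a) (hσe : ∀ a, σ a = a ^ p ^ e) {π : K[X]} (hπ : π ∈ cycL K r) :
    pstar σ π = π ↔ ∃ j : ℕ, r ∣ Q ^ j + p ^ e := by
  classical
  obtain ⟨hirr, hmon, hdvd⟩ := mem_cycL.1 hπ
  haveI : Fact (Irreducible π) := ⟨hirr⟩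
  let L := AdjoinRoot π
  have hfin : Module.Finite K L := hmon.finite_adjoinRoot
  haveI : Finite L := Module.finite_of_finite K
  haveI : Algebra.IsAlgebraic K L := Algebra.IsAlgebraic.of_finite K L
  let α : L := AdjoinRoot.root π
  have hπα : aeval α π = 0 := AdjoinRoot.aeval_eq π ▸ by simp [α]
  have hminα : π = minpoly K α := minpoly.eq_of_irreducible_of_monic hirr hπα hmon
  have hαr : α ^ r = 1 := by
    have h1 : aeval α (X ^ r - 1 : K[X]) = 0 := by
      obtain ⟨s, hs⟩ := mem_cycL_dvd hr hπ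
      rw [hs, map_mul, hπα, zero_mul]
    simpa [sub_eq_zero] using h1
  have hα1 : α ≠ 1 := by
    intro h
    have h1 : aeval (1 : L) π = 0 := h ▸ hπα
    have h2 : aeval (1 : L) π = algebraMap K L (eval 1 π) := by
      rw [← aeval_algebraMap_apply_eq_algebraMap_eval, map_one]
    rw [h2] at h1
    have h3 : eval 1 π = 0 := by
      have := (map_eq_zero (algebraMap K L)).1 h1
      exact this
    have h4 : (X - 1 : K[X]) ∣ π := by
      have := dvd_iff_isRoot.mpr (show π.IsRoot 1 from h3)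
      simpa using this
    exact X1_not_dvd_cyc (p := p) hr hrp (h4.trans hdvd)
  have hα0 : α ≠ 0 := by
    intro h
    rw [h, zero_pow hr.ne_zero] at hαr
    exact zero_ne_one hαr
  haveI : Fact r.Prime := ⟨hr⟩
  have hord : orderOf α = r := orderOf_eq_prime hαr hα1
  haveI : CharP L p := charP_of_injective_algebraMap (algebraMap K L).injective p
  haveI : ExpChar L p := ExpChar.prime Fact.out
  let φ : L →+* L := iterateFrobenius L p e
  have hφ : ∀ x, φ x = x ^ p ^ e := fun x => iterateFrobenius_def p e x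
  have hφσ : ∀ c : K, φ (algebraMap K L c) = algebraMap K L (σ c) := by
    intro c
    rw [hφ, hσe, map_pow]
  set x : L := α ^ p ^ e with hx
  have hx0 : x ≠ 0 := pow_ne_zero _ hα0
  -- the root of the star
  have hstar : aeval x⁻¹ (pstar σ π) = 0 := by
    have h1 : eval₂ (algebraMap K L) x (π.map σ) = 0 := by
      rw [eval₂_map]
      have h2 : (algebraMap K L).comp σ = φ.comp (algebraMap K L) := by
        ext c
        simp only [RingHom.comp_apply, hφσ]
      rw [h2]
      have h3 : eval₂ (φ.comp (algebraMap K L)) (φ α) π = φ (eval₂ (algebraMap K L) α π) := by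
        rw [hom_eval₂]
      have h4 : x = φ α := (hφ α).symm
      rw [h4, h3]
      have h5 : eval₂ (algebraMap K L) α π = 0 := hπα
      rw [h5, map_zero]
    letI : Invertible x := invertibleOfNonzero hx0
    have h2 := (eval₂_reverse_eq_zero_iff (algebraMap K L) x (π.map σ)).2 h1
    rw [invOf_eq_inv] at h2
    unfold pstar
    rw [map_mul, aeval_def, aeval_def, h2, mul_zero]
  have hsm : (pstar σ π).Monic := pstar_monic σ (coeff_zero_ne_of_mem hr hπ)
  have hsi : Irreducible (pstar σ π) := pstar_irreducible σ hσ hmon (coeff_zero_ne_of_mem hr hπ) hirr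
  have hminy : pstar σ π = minpoly K x⁻¹ := minpoly.eq_of_irreducible_of_monic hsi hstar hsm
  -- Frobenius powers
  have hfr : ∀ j : ℕ, ((FiniteField.frobeniusAlgEquivOfAlgebraic K L) ^ j) α = α ^ Q ^ j := by
    intro j
    simp only [AlgEquiv.coe_pow, FiniteField.coe_frobeniusAlgEquivOfAlgebraic, pow_iterate, hQ]
  constructor
  · intro h
    have h1 : aeval x⁻¹ π = 0 := by
      rw [h] at hstar
      exact hstar
    have h2 : aeval x⁻¹ (minpoly K α) = 0 := hminα ▸ h1
    have hαalg : IsAlgebraic K α := Algebra.IsAlgebraic.isAlgebraic α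
    obtain ⟨g, hg⟩ := minpoly.exists_algEquiv_of_root' hαalg h2
    obtain ⟨j, hj⟩ := (FiniteField.bijective_frobeniusAlgEquivOfAlgebraic_pow K L).2 g
    refine ⟨j.1, ?_⟩
    have h3 : α ^ Q ^ j.1 = x⁻¹ := by
      rw [← hfr, ← hg, ← hj]
    have h4 : α ^ (Q ^ j.1 + p ^ e) = 1 := by
      rw [pow_add, h3, inv_mul_cancel₀ hx0]
    rw [← hord]
    exact orderOf_dvd_of_pow_eq_one h4
  · rintro ⟨j, hj⟩
    have h1 : α ^ (Q ^ j + p ^ e) = 1 := by
      obtain ⟨c, hc⟩ := hj
      rw [hc, pow_mul, hαr, one_pow]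
    have h2 : α ^ Q ^ j = x⁻¹ := by
      rw [pow_add] at h1
      exact eq_inv_of_mul_eq_one_left h1
    have h3 : aeval x⁻¹ π = 0 := by
      rw [← h2, ← hfr, aeval_algHom_apply, hπα, map_zero]
    have h4 : π = minpoly K x⁻¹ := minpoly.eq_of_irreducible_of_monic hirr h3 hmon
    rw [hminy, ← h4]

end Finite

/-- Representatives of the orbits of a fixed point free involution on a finite set. -/
lemma exists_reps {α : Type*} [DecidableEq α] (τ : α → α) : ∀ (k : ℕ) (L : Finset α), L.card = k →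
    (∀ x ∈ L, τ x ∈ L) → (∀ x ∈ L, τ (τ x) = x) → (∀ x ∈ L, τ x ≠ x) →
    ∃ L₁ : Finset α, L₁ ⊆ L ∧ Disjoint L₁ (L₁.image τ) ∧ L₁ ∪ L₁.image τ = L := by
  intro k
  induction k using Nat.strong_induction_on with
  | _ k ih =>
    intro L hk h1 h2 h3
    rcases L.eq_empty_or_nonempty with rfl | ⟨x, hx⟩
    · exact ⟨∅, by simp, by simp, by simp⟩
    have hτx := h1 x hx
    have hne := h3 x hx
    set L' := (L.erase x).erase (τ x) with hL'
    have hcard : L'.card < k := by
      rw [← hk]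
      calc L'.card ≤ (L.erase x).card := Finset.card_le_card (Finset.erase_subset _ _)
        _ < L.card := Finset.card_lt_card (Finset.erase_ssubset hx)
    have hmem : ∀ y, y ∈ L' ↔ y ∈ L ∧ y ≠ x ∧ y ≠ τ x := by
      intro y
      simp only [hL', Finset.mem_erase]
      tauto
    obtain ⟨L₁, h4, h5, h6⟩ := ih _ hcard L' rfl (by
      intro y hy
      obtain ⟨a, b, c⟩ := (hmem y).1 hy
      refine (hmem _).2 ⟨h1 y a, ?_, ?_⟩
      · intro h
        apply c
        rw [← h, h2 y a]
      · intro h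
        apply b
        rw [← h2 y a, h, h2 x hx]) (fun y hy => h2 y ((hmem y).1 hy).1) (fun y hy => h3 y ((hmem y).1 hy).1)
    refine ⟨insert x L₁, ?_, ?_, ?_⟩
    · intro y hy
      rcases Finset.mem_insert.1 hy with rfl | hy
      · exact hx
      · exact ((hmem y).1 (h4 hy)).1
    · rw [Finset.disjoint_left]
      intro y hy hy'
      rw [Finset.image_insert] at hy'
      rcases Finset.mem_insert.1 hy with rfl | hy
      · rcases Finset.mem_insert.1 hy' with h7 | h7
        · exact hne h7.symm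
        · obtain ⟨z, hz, hzy⟩ := Finset.mem_image.1 h7
          have hz' := (hmem z).1 (h4 hz)
          apply hz'.2.2
          rw [← hzy, h2 z hz'.1]
      · rcases Finset.mem_insert.1 hy' with h7 | h7
        · exact ((hmem y).1 (h4 hy)).2.2 h7
        · exact (Finset.disjoint_left.1 h5) hy h7
    · rw [Finset.image_insert]
      ext y
      simp only [Finset.mem_union, Finset.mem_insert]
      constructor
      · rintro ((h7 | h7) | h7 | h7)
        · rw [h7]
          exact hx
        · exact ((hmem y).1 (h4 h7)).1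
        · rw [h7]
          exact hτx
        · have : y ∈ L₁ ∪ L₁.image τ := Finset.mem_union_right _ h7
          rw [h6] at this
          exact ((hmem y).1 this).1
      · intro hy
        by_cases hyx : y = x
        · exact Or.inl (Or.inl hyx)
        by_cases hyτ : y = τ x
        · exact Or.inr (Or.inl hyτ)
        have : y ∈ L₁ ∪ L₁.image τ := by
          rw [h6]
          exact (hmem y).2 ⟨hy, hyx, hyτ⟩
        rcases Finset.mem_union.1 this with h8 | h8
        · exact Or.inl (Or.inr h8)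
        · exact Or.inr (Or.inr h8)

end Cfsg.Agent.Lib.PrimeCl
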