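import Mathlib
import Cfsg.Agent.Lib.PrimeCl.Star

/-!
Counting star-invariant polynomials all of whose factors divide `X ^ r - 1`.
-/

set_option autoImplicit false
set_option linter.unusedSimpArgs false
set_option linter.unusedVariables false
set_option linter.deprecated false
set_option linter.unusedSectionVars false

universe u

namespace Cfsg.Agent.Lib.PrimeCl

open Polynomial UniqueFactorizationMonoid Cfsg.Agent.Lib.KS2.IsoCl

/-- Star-invariant monic polynomials of degree `n`, with all irreducible factors dividing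
`X ^ r - 1`, other than the power of `X - 1`. -/
def starSet {K : Type u} [Field K] (σ : K →+* K) (r n : ℕ) : Set K[X] :=
  {f | f.Monic ∧ f.natDegree = n ∧ pstar σ f = f ∧ (∀ π : K[X], Irreducible π → π ∣ f → π ∣ X ^ r - 1) ∧
    f ≠ (X - 1) ^ n}

lemma X1_dvd_pow {K : Type u} [Field K] [Fintype K] {r : ℕ} (hr : r.Prime) : (X - 1 : K[X]) ∣ X ^ r - 1 := by
  rw [X_pow_factor hr]
  exact Dvd.intro_left _ rfl

lemma blk_factors {K : Type u} [Field K] [Fintype K] {B : Type*} [Fintype B] (P : B → K[X]) (n d r : ℕ) (hr : r.Prime)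
    (hP : ∀ b, ∀ π : K[X], Irreducible π → π ∣ P b → π ∣ X ^ r - 1) (a : B → ℕ) (π : K[X])
    (hπ : Irreducible π) (hd : π ∣ blk P n d a) : π ∣ X ^ r - 1 := by
  unfold blk at hd
  rcases hπ.prime.dvd_or_dvd hd with h2 | h2
  · exact (hπ.prime.dvd_of_dvd_pow h2).trans (X1_dvd_pow hr)
  · obtain ⟨b, _, hb⟩ := (Prime.dvd_finset_prod_iff hπ.prime _).1 h2
    exact hP b π hπ (hπ.prime.dvd_of_dvd_pow hb)

lemma prod_reps {α M : Type*} [DecidableEq α] [CommMonoid M] (L L₁ : Finset α) (τ : α → α)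
    (hd : Disjoint L₁ (L₁.image τ)) (hu : L₁ ∪ L₁.image τ = L) (hinj : Set.InjOn τ L₁) (φ : α → M) :
    ∏ x ∈ L, φ x = ∏ x ∈ L₁, (φ x * φ (τ x)) := by
  rw [← hu, Finset.prod_union hd, Finset.prod_image hinj, Finset.prod_mul_distrib]

lemma sum_reps {α : Type*} [DecidableEq α] (L L₁ : Finset α) (τ : α → α)
    (hd : Disjoint L₁ (L₁.image τ)) (hu : L₁ ∪ L₁.image τ = L) (hinj : Set.InjOn τ L₁) (φ : α → ℕ) :
    ∑ x ∈ L, φ x = ∑ x ∈ L₁, (φ x + φ (τ x)) := by
  rw [← hu, Finset.sum_union hd, Finset.sum_image hinj, Finset.sum_add_distrib]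

variable {K : Type u} [Field K] [Fintype K] {p : ℕ} [hpf : Fact p.Prime] [CharP K p]

section Common

variable {Q r b s : ℕ} (hQ : Fintype.card K = Q) (hr : r.Prime) (hrp : r ≠ p)
  (hb : b = orderOf (Q : ZMod r))

include hQ hr hrp hb in
lemma cycL_monic_deg : ∀ π ∈ cycL K r, π.Monic ∧ π.natDegree = b := fun _ hπ =>
  ⟨(mem_cycL.1 hπ).2.1, natDegree_of_mem_cycL (p := p) hQ hr hrp hb hπ⟩

include hr hrp in
lemma cycL_coprime {π π' : K[X]} (hπ : π ∈ cycL K r) (hπ' : π' ∈ cycL K r) (hne : π ≠ π') : IsCoprime π π' :=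
  coprime_of_monic_irr (mem_cycL.1 hπ).1 (mem_cycL.1 hπ').1 (mem_cycL.1 hπ).2.1 (mem_cycL.1 hπ').2.1 hne

include hr hrp in
lemma cycL_coprime_X1 {π : K[X]} (hπ : π ∈ cycL K r) : IsCoprime π (X - 1) :=
  coprime_of_monic_irr (mem_cycL.1 hπ).1 irreducible_X1 (mem_cycL.1 hπ).2.1 monic_X1
    (fun h => X1_not_mem_cycL (p := p) hr hrp (h ▸ hπ))

end Common

section A

variable {Q r b s : ℕ} (hQ : Fintype.card K = Q) (hr : r.Prime) (hrp : r ≠ p)
  (hb : b = orderOf (Q : ZMod r)) (σ : K →+* K) (hA : ∀ π ∈ cycL K r, pstar σ π = π)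

include hQ hr hrp hb hA in
/-- The description when all factors are self-dual. -/
theorem mem_starSet_A (n : ℕ) (f : K[X]) :
    f ∈ starSet σ r n ↔ ∃ a : cycL K r → ℕ, b * ∑ c, a c ≤ n ∧ a ≠ (fun _ => 0) ∧
      blk (fun c : cycL K r => (c : K[X])) n b a = f := by
  classical
  have hLm := cycL_monic_deg (p := p) hQ hr hrp hb
  have hb0 := order_pos_of (p := p) hQ hr hrp hb
  have hmc : ∀ c : cycL K r, (c : K[X]).Monic := fun c => (hLm c.1 c.2).1
  have hdc : ∀ c : cycL K r, (c : K[X]).natDegree = b := fun c => (hLm c.1 c.2).2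
  constructor
  · rintro ⟨hm, hd, hst, hfac, hne⟩
    obtain ⟨a, ha, hblk⟩ := exists_blk (cycL K r) b n hLm (X1_not_mem_cycL (p := p) hr hrp) f hm hd
      (fun π hπ hπm hπf => dvd_X_pow_iff hr hπ hπm (hfac π hπ hπf))
    refine ⟨a, ha, ?_, hblk⟩
    rintro rfl
    apply hne
    rw [← hblk, blk_zero]
  · rintro ⟨a, ha, ha0, rfl⟩
    refine ⟨blk_monic _ _ _ hmc a, blk_natDegree _ _ _ hmc hdc a ha, ?_, ?_, ?_⟩
    · exact blk_star σ _ n b a fun c => hA c.1 c.2
    · exact blk_factors _ n b r hr (fun c π hπ h => h.trans (mem_cycL_dvd hr c.2)) a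
    · intro hc
      apply ha0
      exact (blk_eq_X1_iff (fun c : cycL K r => (c : K[X])) n b hmc hdc hb0
        (fun c c' hcc => cycL_coprime (p := p) hr hrp c.2 c'.2 (fun h => hcc (Subtype.ext h)))
        (fun c => cycL_coprime_X1 (p := p) hr hrp c.2) a).1 hc

include hQ hr hrp hb hA in
theorem card_starSet_A (hs : s * b = r - 1) (n : ℕ) :
    Nat.card (starSet σ r n) = Nat.choose (n / b + s) s - 1 := by
  classical
  have hLm := cycL_monic_deg (p := p) hQ hr hrp hb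
  have hb0 := order_pos_of (p := p) hQ hr hrp hb
  have hcard : Fintype.card (cycL K r) = s := by
    rw [Fintype.card_coe]
    exact card_cycL (p := p) hQ hr hrp hb hs
  rw [← hcard]
  exact card_of_blk (fun c : cycL K r => (c : K[X])) n b (fun c => (hLm c.1 c.2).1) (fun c => (hLm c.1 c.2).2) hb0
    (fun c c' hcc => cycL_coprime (p := p) hr hrp c.2 c'.2 (fun h => hcc (Subtype.ext h)))
    (fun c => cycL_coprime_X1 (p := p) hr hrp c.2) _ (mem_starSet_A (p := p) hQ hr hrp hb σ hA n)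

include hQ hr hrp hb hA in
/-- Constant coefficients in the self-dual symplectic case. -/
theorem starSet_coeff_A (hσ : σ = RingHom.id K) (hbe : Even b) (n : ℕ) (hn : Even n) (f : K[X]) (hf : f ∈ starSet σ r n) :
    f.coeff 0 = 1 := by
  obtain ⟨a, ha, _, rfl⟩ := (mem_starSet_A (p := p) hQ hr hrp hb σ hA n f).1 hf
  subst hσ
  exact blk_coeff_zero _ n b a (fun c => hA c.1 c.2) (fun c => cycL_coprime_X1 (p := p) hr hrp c.2) hn hbe ha

end A

section B

open scoped Classical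

variable {Q r b s : ℕ} (hQ : Fintype.card K = Q) (hr : r.Prime) (hrp : r ≠ p)
  (hb : b = orderOf (Q : ZMod r)) (σ : K →+* K) (hσ : ∀ a, σ (σ a) = a)
  (hB : ∀ π ∈ cycL K r, pstar σ π ≠ π)

include hr hrp hσ hB in
lemma exists_L1 : ∃ L₁ : Finset K[X], L₁ ⊆ cycL K r ∧ Disjoint L₁ (L₁.image (pstar σ)) ∧
    L₁ ∪ L₁.image (pstar σ) = cycL K r := by
  classical
  exact exists_reps (pstar σ) _ (cycL K r) rfl (fun π hπ => pstar_mem_cycL (p := p) hr hrp σ hσ hπ)
    (fun π hπ => pstar_pstar σ hσ (mem_cycL.1 hπ).2.1 (coeff_zero_ne_of_mem hr hπ)) hB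

/-- The blocks in the dual-pair case. -/
noncomputable def pairP (L₁ : Finset K[X]) (σ : K →+* K) (c : L₁) : K[X] := (c : K[X]) * pstar σ c

section
variable {L₁ : Finset K[X]} (hL1 : L₁ ⊆ cycL K r) (hdis : Disjoint L₁ (L₁.image (pstar σ)))

include hQ hr hrp hb hσ hL1 in
lemma pairP_monic_deg (c : L₁) : (pairP L₁ σ c).Monic ∧ (pairP L₁ σ c).natDegree = 2 * b := by
  have h1 := hL1 c.2
  have h2 := pstar_mem_cycL (p := p) hr hrp σ hσ h1
  have hm1 := (cycL_monic_deg (p := p) hQ hr hrp hb _ h1)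
  have hm2 := (cycL_monic_deg (p := p) hQ hr hrp hb _ h2)
  refine ⟨hm1.1.mul hm2.1, ?_⟩
  unfold pairP
  rw [hm1.1.natDegree_mul hm2.1, hm1.2, hm2.2]
  ring

include hr hrp hσ hL1 in
lemma pairP_star (c : L₁) : pstar σ (pairP L₁ σ c) = pairP L₁ σ c := by
  have h1 := hL1 c.2
  unfold pairP
  rw [pstar_mul, pstar_pstar σ hσ (mem_cycL.1 h1).2.1 (coeff_zero_ne_of_mem hr h1), mul_comm]

include hr hrp hσ hL1 in
lemma pairP_factors (c : L₁) (π : K[X]) (hπ : Irreducible π) (h : π ∣ pairP L₁ σ c) : π ∣ X ^ r - 1 := by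
  have h1 := hL1 c.2
  unfold pairP at h
  rcases hπ.prime.dvd_or_dvd h with h2 | h2
  · exact h2.trans (mem_cycL_dvd hr h1)
  · exact h2.trans (mem_cycL_dvd hr (pstar_mem_cycL (p := p) hr hrp σ hσ h1))

include hr hrp hσ hL1 in
lemma pairP_X1 (c : L₁) : IsCoprime (pairP L₁ σ c) (X - 1) := by
  have h1 := hL1 c.2
  exact IsCoprime.mul_left (cycL_coprime_X1 (p := p) hr hrp h1)
    (cycL_coprime_X1 (p := p) hr hrp (pstar_mem_cycL (p := p) hr hrp σ hσ h1))

include hr hrp hσ hL1 hdis in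
lemma pairP_coprime (c c' : L₁) (hcc : c ≠ c') : IsCoprime (pairP L₁ σ c) (pairP L₁ σ c') := by
  classical
  have h1 := hL1 c.2
  have h1' := hL1 c'.2
  have h2 := pstar_mem_cycL (p := p) hr hrp σ hσ h1
  have h2' := pstar_mem_cycL (p := p) hr hrp σ hσ h1'
  have hne : (c : K[X]) ≠ c' := fun h => hcc (Subtype.ext h)
  have hd : ∀ x ∈ L₁, ∀ y ∈ L₁, x ≠ pstar σ y := by
    intro x hx y hy h
    exact Finset.disjoint_left.1 hdis hx (Finset.mem_image.2 ⟨y, hy, h.symm⟩)
  unfold pairP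
  refine IsCoprime.mul_left (IsCoprime.mul_right ?_ ?_) (IsCoprime.mul_right ?_ ?_)
  · exact cycL_coprime (p := p) hr hrp h1 h1' hne
  · exact cycL_coprime (p := p) hr hrp h1 h2' (hd _ c.2 _ c'.2)
  · exact cycL_coprime (p := p) hr hrp h2 h1' (fun h => hd _ c'.2 _ c.2 h.symm)
  · refine cycL_coprime (p := p) hr hrp h2 h2' (fun h => hne ?_)
    rw [← pstar_pstar σ hσ (mem_cycL.1 h1).2.1 (coeff_zero_ne_of_mem hr h1), h,
      pstar_pstar σ hσ (mem_cycL.1 h1').2.1 (coeff_zero_ne_of_mem hr h1')]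

end

include hQ hr hrp hb hσ hB in
/-- The description when no factor is self-dual. -/
theorem mem_starSet_B {L₁ : Finset K[X]} (hL1 : L₁ ⊆ cycL K r) (hdis : Disjoint L₁ (L₁.image (pstar σ)))
    (hun : L₁ ∪ L₁.image (pstar σ) = cycL K r) (n : ℕ) (f : K[X]) :
    f ∈ starSet σ r n ↔ ∃ a : L₁ → ℕ, (2 * b) * ∑ c, a c ≤ n ∧ a ≠ (fun _ => 0) ∧
      blk (pairP L₁ σ) n (2 * b) a = f := by
  classical
  have hLm := cycL_monic_deg (p := p) hQ hr hrp hb
  have hb0 := order_pos_of (p := p) hQ hr hrp hb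
  have hmc : ∀ c : cycL K r, (c : K[X]).Monic := fun c => (hLm c.1 c.2).1
  have hdc : ∀ c : cycL K r, (c : K[X]).natDegree = b := fun c => (hLm c.1 c.2).2
  have hτ2 : ∀ π ∈ cycL K r, pstar σ (pstar σ π) = π := fun π hπ =>
    pstar_pstar σ hσ (mem_cycL.1 hπ).2.1 (coeff_zero_ne_of_mem hr hπ)
  have hinj : Set.InjOn (pstar σ) (L₁ : Set K[X]) := by
    intro x hx y hy h
    rw [← hτ2 x (hL1 hx), h, hτ2 y (hL1 hy)]
  constructor
  · rintro ⟨hm, hd, hst, hfac, hne⟩
    obtain ⟨ā, ha, hblk⟩ := exists_blk (cycL K r) b n hLm (X1_not_mem_cycL (p := p) hr hrp) f hm hd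
      (fun π hπ hπm hπf => dvd_X_pow_iff hr hπ hπm (hfac π hπ hπf))
    -- the involution on the index set
    let τ : cycL K r → cycL K r := fun c => ⟨pstar σ c.1, pstar_mem_cycL (p := p) hr hrp σ hσ c.2⟩
    have hττ : ∀ c, τ (τ c) = c := fun c => Subtype.ext (hτ2 c.1 c.2)
    let τe : cycL K r ≃ cycL K r := ⟨τ, τ, hττ, hττ⟩
    have hsum : ∑ c, ā (τ c) = ∑ c, ā c := Equiv.sum_comp τe ā
    -- the star of the block polynomial
    have h1 : pstar σ (blk (fun c : cycL K r => (c : K[X])) n b ā) =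
        blk (fun c : cycL K r => (c : K[X])) n b (fun c => ā (τ c)) := by
      unfold blk
      rw [pstar_mul, pstar_pow, pstar_X1, pstar_prod, hsum]
      congr 1
      simp only [pstar_pow]
      rw [← Equiv.prod_comp τe (fun c => pstar σ (c : K[X]) ^ ā c)]
      refine Finset.prod_congr rfl fun c _ => ?_
      show pstar σ (pstar σ (c : K[X])) ^ ā (τ c) = _
      rw [hτ2 c.1 c.2]
    have h2 : ∀ c, ā (τ c) = ā c := by
      intro c
      have h3 := blk_inj (fun c : cycL K r => (c : K[X])) n b hmc hdc hb0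
        (fun c c' hcc => cycL_coprime (p := p) hr hrp c.2 c'.2 (fun h => hcc (Subtype.ext h)))
        (fun c => cycL_coprime_X1 (p := p) hr hrp c.2) (fun c => ā (τ c)) ā (by
          rw [← h1, hblk, hst])
      exact congrFun h3 c
    -- an extension by zero of the multiplicities
    let g : K[X] → ℕ := fun π => if h : π ∈ cycL K r then ā ⟨π, h⟩ else 0
    have hg : ∀ c : cycL K r, g c.1 = ā c := by
      intro c
      simp only [g, dif_pos c.2]
    have hgτ : ∀ π ∈ cycL K r, g (pstar σ π) = g π := by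
      intro π hπ
      have := h2 ⟨π, hπ⟩
      rw [← hg ⟨π, hπ⟩, ← hg (τ ⟨π, hπ⟩)] at this
      exact this
    let a : L₁ → ℕ := fun c => g c.1
    have hsum2 : ∑ c, ā c = 2 * ∑ c, a c := by
      have h3 : ∑ c, ā c = ∑ π ∈ cycL K r, g π := by
        rw [← Finset.sum_coe_sort (cycL K r) g]
        exact Finset.sum_congr rfl fun c _ => (hg c).symm
      rw [h3, sum_reps (cycL K r) L₁ (pstar σ) hdis hun hinj g, ← Finset.sum_coe_sort L₁, Finset.mul_sum]
      refine Finset.sum_congr rfl fun c _ => ?_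
      rw [hgτ _ (hL1 c.2)]
      ring
    have hprod : ∏ c : cycL K r, (c : K[X]) ^ ā c = ∏ c : L₁, pairP L₁ σ c ^ a c := by
      have h3 : ∏ c : cycL K r, (c : K[X]) ^ ā c = ∏ π ∈ cycL K r, π ^ g π := by
        rw [← Finset.prod_coe_sort (cycL K r)]
        refine Finset.prod_congr rfl fun c _ => ?_
        rw [hg c]
      rw [h3, prod_reps (cycL K r) L₁ (pstar σ) hdis hun hinj, ← Finset.prod_coe_sort L₁]
      refine Finset.prod_congr rfl fun c _ => ?_
      rw [hgτ _ (hL1 c.2)]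
      unfold pairP
      rw [mul_pow]
    have hsum3 : (2 * b) * ∑ c, a c = b * ∑ c, ā c := by
      rw [hsum2]
      ring
    refine ⟨a, by rw [hsum3]; exact ha, ?_, ?_⟩
    · intro h0
      apply hne
      have h3 : ∑ c, ā c = 0 := by
        rw [hsum2, h0]
        simp
      have h4 : ā = fun _ => 0 := by
        funext c
        exact Finset.sum_eq_zero_iff.1 h3 c (Finset.mem_univ c)
      rw [← hblk, h4, blk_zero]
    · rw [← hblk]
      unfold blk
      rw [hsum3, hprod]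
  · rintro ⟨a, ha, ha0, rfl⟩
    have hmP := pairP_monic_deg (p := p) hQ hr hrp hb σ hσ hL1
    refine ⟨blk_monic _ _ _ (fun c => (hmP c).1) a, blk_natDegree _ _ _ (fun c => (hmP c).1) (fun c => (hmP c).2) a ha, ?_, ?_, ?_⟩
    · exact blk_star σ _ n _ a (pairP_star (p := p) hr hrp σ hσ hL1)
    · exact blk_factors _ n _ r hr (pairP_factors (p := p) hr hrp σ hσ hL1) a
    · intro hc
      apply ha0
      exact (blk_eq_X1_iff (pairP L₁ σ) n (2 * b) (fun c => (hmP c).1) (fun c => (hmP c).2) (by omega)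
        (pairP_coprime (p := p) hr hrp σ hσ hL1 hdis)
        (pairP_X1 (p := p) hr hrp σ hσ hL1) a).1 hc

include hQ hr hrp hb hσ hB in
theorem card_starSet_B (hs : s * b = r - 1) (n : ℕ) :
    Nat.card (starSet σ r n) = Nat.choose (n / (2 * b) + s / 2) (s / 2) - 1 := by
  classical
  obtain ⟨L₁, hL1, hdis, hun⟩ := exists_L1 (p := p) hr hrp σ hσ hB
  have hb0 := order_pos_of (p := p) hQ hr hrp hb
  have hτ2 : ∀ π ∈ cycL K r, pstar σ (pstar σ π) = π := fun π hπ =>
    pstar_pstar σ hσ (mem_cycL.1 hπ).2.1 (coeff_zero_ne_of_mem hr hπ)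
  have hinj : Set.InjOn (pstar σ) (L₁ : Set K[X]) := by
    intro x hx y hy h
    rw [← hτ2 x (hL1 hx), h, hτ2 y (hL1 hy)]
  have hcard : Fintype.card L₁ = s / 2 := by
    have h1 := card_cycL (p := p) hQ hr hrp hb hs
    rw [← hun, Finset.card_union_of_disjoint hdis, Finset.card_image_of_injOn hinj] at h1
    rw [Fintype.card_coe]
    omega
  have hmP := pairP_monic_deg (p := p) hQ hr hrp hb σ hσ hL1
  rw [← hcard]
  exact card_of_blk (pairP L₁ σ) n (2 * b) (fun c => (hmP c).1) (fun c => (hmP c).2) (by omega)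
    (pairP_coprime (p := p) hr hrp σ hσ hL1 hdis) (pairP_X1 (p := p) hr hrp σ hσ hL1) _
    (mem_starSet_B (p := p) hQ hr hrp hb σ hσ hB hL1 hdis hun n)

include hQ hr hrp hb hσ hB in
/-- Constant coefficients in the dual-pair symplectic case. -/
theorem starSet_coeff_B (hσ' : σ = RingHom.id K) (n : ℕ) (hn : Even n) (f : K[X]) (hf : f ∈ starSet σ r n) :
    f.coeff 0 = 1 := by
  classical
  obtain ⟨L₁, hL1, hdis, hun⟩ := exists_L1 (p := p) hr hrp σ hσ hB
  obtain ⟨a, ha, _, rfl⟩ := (mem_starSet_B (p := p) hQ hr hrp hb σ hσ hB hL1 hdis hun n f).1 hf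
  subst hσ'
  exact blk_coeff_zero _ n (2 * b) a (pairP_star (p := p) hr hrp _ hσ hL1)
    (pairP_X1 (p := p) hr hrp _ hσ hL1) hn (even_two_mul b) ha

end B

end Cfsg.Agent.Lib.PrimeCl
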