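import Mathlib
import Cfsg.Agent.Lib.PrimeCl.TCount
import Cfsg.Agent.Lib.PrimeCl.NT
import Cfsg.Agent.Lib.KS2.IsoGroup

/-!
Classes of odd prime order in `Sp_{2m}(q)`.
-/

set_option autoImplicit false
set_option linter.unusedSimpArgs false
set_option linter.unusedVariables false
set_option linter.deprecated false
set_option linter.unusedSectionVars false

universe u

namespace Cfsg.Agent.Lib.PrimeCl

open Polynomial UniqueFactorizationMonoid Cfsg.Agent.Lib.KS2.IsoCl

variable {F : Type u} [Field F] [Fintype F] {p : ℕ} [hpf : Fact p.Prime] [CharP F p]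

/-- The self-duality dichotomy for `σ = id`. -/
lemma star_id_iff {q r : ℕ} (hF : Fintype.card F = q) (hr : r.Prime) (hr2 : r ≠ 2) (hrp : r ≠ p)
    {π : F[X]} (hπ : π ∈ cycL F r) :
    pstar (RingHom.id F) π = π ↔ Even (orderOf (q : ZMod r)) := by
  obtain ⟨k, hk, hcop⟩ := card_pow_coprime (p := p) hF hr hrp
  have hq : q.Coprime r := by
    rw [hk]
    exact hcop.pow_left _
  rw [pstar_eq_iff (p := p) (e := 0) hF hr hrp (RingHom.id F) (fun _ => rfl) (by simp) hπ, pow_zero]
  exact exists_pow_add_one_iff hr hr2 hq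

/-- The number of classes of elements of odd prime order in `Sp`. -/
theorem card_classes_sp_prime {q : ℕ} (hF : Fintype.card F = q) (m r i t : ℕ) (hr : r.Prime) (hr2 : r ≠ 2)
    (hrp : r ≠ p) (hi : i = orderOf (q : ZMod r)) (ht : t * i = r - 1) :
    Nat.card {C : ConjClasses ↥(Matrix.symplecticGroup (Fin m) F) //
      ∃ g : Matrix.symplecticGroup (Fin m) F, ConjClasses.mk g = C ∧ orderOf g = r} =
    if Odd i then Nat.choose (m / i + t / 2) (t / 2) - 1 else Nat.choose (2 * m / i + t) t - 1 := by
  classical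
  haveI : Fact r.Prime := ⟨hr⟩
  have hcop : r.Coprime p := (Nat.coprime_primes hr Fact.out).2 hrp
  have hi0 : 0 < i := order_pos_of (p := p) hF hr hrp hi
  -- coefficient condition
  have hcoef : ∀ f ∈ starSet (RingHom.id F) r (2 * m), f.coeff 0 = 1 := by
    intro f hf
    by_cases he : Even i
    · exact starSet_coeff_A (p := p) hF hr hrp hi (RingHom.id F)
        (fun π hπ => (star_id_iff (p := p) hF hr hr2 hrp hπ).2 (hi ▸ he)) rfl he (2 * m) (even_two_mul m) f hf
    · refine starSet_coeff_B (p := p) hF hr hrp hi (RingHom.id F) (fun _ => rfl)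
        (fun π hπ h => he ?_) rfl (2 * m) (even_two_mul m) f hf
      exact hi ▸ (star_id_iff (p := p) hF hr hr2 hrp hπ).1 h
  have hcount : Nat.card {C : ConjClasses ↥(Matrix.symplecticGroup (Fin m) F) //
      ∃ g : Matrix.symplecticGroup (Fin m) F, ConjClasses.mk g = C ∧ orderOf g = r} =
      Nat.card (starSet (RingHom.id F) r (2 * m)) := by
    apply card_classes_eq (fun g : Matrix.symplecticGroup (Fin m) F => orderOf g = r)
      (fun g => (g : Matrix (Fin m ⊕ Fin m) (Fin m ⊕ Fin m) F).charpoly)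
    · exact sp_conj_charpoly
    · intro g h hg hh hc
      exact sp_conj p m g h (by rw [hg]; exact hcop) (by rw [hh]; exact hcop) hc
    · intro g hg
      obtain ⟨h1, h2, h3, h4⟩ := sp_forward g
      refine ⟨h1, h2, h4, ?_, ?_⟩
      · intro π hπ hd
        apply irr_dvd_of_aeval_eq_zero _ _ _ hπ hd
        have hA : (g : Matrix (Fin m ⊕ Fin m) (Fin m ⊕ Fin m) F) ^ r = 1 := by
          have h5 : g ^ r = 1 := by rw [← hg]; exact pow_orderOf_eq_one g
          have h6 := congrArg Subtype.val h5
          simpa using h6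
        simp [hA]
      · intro hc
        have h5 : IsConj g 1 := by
          refine sp_conj p m g 1 (by rw [hg]; exact hcop) (by simp) ?_
          show _ = ((1 : Matrix (Fin m ⊕ Fin m) (Fin m ⊕ Fin m) F)).charpoly
          rw [hc, Matrix.charpoly_one, Fintype.card_sum, Fintype.card_fin, two_mul]
        have h6 : g = 1 := by simpa using h5
        rw [h6, orderOf_one] at hg
        exact hr.one_lt.ne hg
    · rintro f hf
      obtain ⟨h1, h2, h3, h4, h5⟩ := id hf
      have hrl := rlz_of_star p (sys_sp (F := F)) (fun _ => rfl) (2 * m) f h2 h1 h3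
        (fun _ => ⟨even_two_mul m, hcoef f hf⟩)
      obtain ⟨g, hgo, hgc⟩ := sp_real p hrl h2
      refine ⟨g, ?_, hgc⟩
      have hm : ((orderOf g : ℕ) : F) ≠ 0 :=
        KS2.SSConj.cast_ne_zero_of_coprime (p := p) hgo (Or.inr trivial)
      have hA : (g : Matrix (Fin m ⊕ Fin m) (Fin m ⊕ Fin m) F) ^ orderOf g = 1 := by
        rw [← SubmonoidClass.coe_pow, pow_orderOf_eq_one]
        rfl
      have hR0 : (X ^ r - 1 : F[X]) ≠ 0 := by
        have := (monic_X_pow_sub_C (1 : F) hr.ne_zero).ne_zero
        simpa using this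
      have h7 := aeval_eq_zero_of_factors _ _ hm hA _ hR0 (by rw [hgc]; exact h4)
      simp only [map_sub, map_pow, aeval_X, map_one, sub_eq_zero] at h7
      refine orderOf_eq_prime ?_ ?_
      · apply Subtype.ext
        simpa using h7
      · rintro rfl
        apply h5
        rw [← hgc]
        show ((1 : Matrix (Fin m ⊕ Fin m) (Fin m ⊕ Fin m) F)).charpoly = _
        rw [Matrix.charpoly_one, Fintype.card_sum, Fintype.card_fin, two_mul]
  rw [hcount]
  split_ifs with ho
  · have h1 := card_starSet_B (p := p) (s := t) hF hr hrp hi (RingHom.id F) (fun _ => rfl)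
      (fun π hπ h => (Nat.not_even_iff_odd.2 ho) (hi ▸ (star_id_iff (p := p) hF hr hr2 hrp hπ).1 h)) ht (2 * m)
    rw [h1, Nat.mul_div_mul_left _ _ (by norm_num : 0 < 2)]
  · exact card_starSet_A (p := p) (s := t) hF hr hrp hi (RingHom.id F)
      (fun π hπ => (star_id_iff (p := p) hF hr hr2 hrp hπ).2 (hi ▸ Nat.not_odd_iff_even.1 ho)) ht (2 * m)

end Cfsg.Agent.Lib.PrimeCl
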