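import Mathlib
import Cfsg.Agent.Lib.PrimeCl.Sp
import Cfsg.Agent.S2587
import Cfsg.Agent.S2588

/-!
Classes of odd prime order in `GU_n(q)`.
-/

set_option autoImplicit false
set_option linter.unusedSimpArgs false
set_option linter.unusedVariables false
set_option linter.deprecated false
set_option linter.unusedSectionVars false

universe u

namespace Cfsg.Agent.Lib.PrimeCl

open Polynomial UniqueFactorizationMonoid Cfsg.Agent.Lib.KS2.IsoCl Cfsg.Agent.Lib.Classical Matrix

variable {K : Type u} [Field K] [Fintype K] {p q n : ℕ} [hpf : Fact p.Prime] [CharP K p]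

/-- The order of an element of `GU` is that of its image in `GL`. -/
lemma orderOf_GU (g : ↥(Cfsg.GU n K q)) : orderOf (g : GL (Fin n) K) = orderOf g :=
  Subgroup.orderOf_coe g

/-- The characteristic polynomial of an element of `GU` is star invariant. -/
lemma gu_forward (hF : Fintype.card K = q ^ 2) (g : ↥(Cfsg.GU n K q)) :
    pstar (conjQ hF) ((g : GL (Fin n) K) : Matrix (Fin n) (Fin n) K).charpoly =
      ((g : GL (Fin n) K) : Matrix (Fin n) (Fin n) K).charpoly := by
  classical
  set A := ((g : GL (Fin n) K) : Matrix (Fin n) (Fin n) K) with hA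
  have hB : ∀ u v, Cfsg.hermForm n K q (A *ᵥ u) (A *ᵥ v) = Cfsg.hermForm n K q u v := g.2
  have hadj : hAdj hF A * A = 1 := hAdj_mul_self hF A hB
  have hinv : A⁻¹ = hAdj hF A := Matrix.inv_eq_left_inv hadj
  have hdet0 : A.det ≠ 0 := ((Matrix.isUnit_iff_isUnit_det _).mp (g : GL (Fin n) K).isUnit).ne_zero
  have h1 := charpoly_inv' A hdet0
  have h2 : (A⁻¹).charpoly = A.charpoly.map (conjQ hF) := by
    rw [hinv, hAdj, Matrix.charpoly_transpose]
    exact Matrix.charpoly_map A (conjQ hF)
  rw [h2] at h1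
  have h3 := congrArg (Polynomial.map (conjQ hF)) h1
  have hm : (A.charpoly.map (conjQ hF)).map (conjQ hF) = A.charpoly := by
    rw [Polynomial.map_map]
    have : (conjQ hF).comp (conjQ hF) = RingHom.id K := RingHom.ext (conjQ_conjQ hF)
    rw [this, Polynomial.map_id]
  rw [hm, Polynomial.map_mul, Polynomial.map_C, map_inv₀, ← reverse_map'] at h3
  rw [pstar]
  exact h3.symm

/-- The charpoly of the inverse adjoint is the star. -/
lemma charpoly_inv_adj (hF : Fintype.card K = q ^ 2) (A : Matrix (Fin n) (Fin n) K) (hA : A.det ≠ 0) :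
    ((hAdj hF A)⁻¹).charpoly = pstar (conjQ hF) A.charpoly := by
  classical
  have hAs : (hAdj hF A).det ≠ 0 := by
    rw [det_hAdj]
    intro h0
    apply hA
    have h1 := congrArg (conjQ hF) h0
    rwa [conjQ_conjQ, map_zero] at h1
  rw [charpoly_inv' _ hAs]
  have h2 : (hAdj hF A).charpoly = A.charpoly.map (conjQ hF) := by
    rw [hAdj, Matrix.charpoly_transpose]
    exact Matrix.charpoly_map A (conjQ hF)
  rw [h2, pstar, coeff_zero_map]

lemma exists_q_pow (hF : Fintype.card K = q ^ 2) : ∃ e : ℕ, q = p ^ e := by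
  obtain ⟨k, hpp, hk⟩ := FiniteField.card K p
  have h1 : q ∣ p ^ (k : ℕ) := by
    rw [← hk, hF]
    exact dvd_pow_self _ (by norm_num)
  obtain ⟨e, _, he⟩ := (Nat.dvd_prime_pow (Fact.out : p.Prime)).1 h1
  exact ⟨e, he⟩

/-- The self-duality dichotomy for the unitary star. -/
lemma star_conj_iff (hF : Fintype.card K = q ^ 2) {r : ℕ} (hr : r.Prime) (hr2 : r ≠ 2) (hrp : r ≠ p)
    {π : K[X]} (hπ : π ∈ cycL K r) :
    pstar (conjQ hF) π = π ↔ orderOf (q : ZMod r) % 4 = 2 := by
  obtain ⟨e, he⟩ := exists_q_pow (p := p) hF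
  have hcop : p.Coprime r := (Nat.coprime_primes Fact.out hr).2 hrp.symm
  have hq : q.Coprime r := by
    rw [he]
    exact hcop.pow_left _
  rw [pstar_eq_iff (p := p) (e := e) hF hr hrp (conjQ hF) (conjQ_conjQ hF) (fun a => by rw [← he]; exact conjQ_apply hF a) hπ,
    ← he]
  exact exists_pow_add_self_iff hr hr2 hq

/-- The number of classes of elements of odd prime order in `GU`. -/
theorem card_classes_gu_prime (hK : Fintype.card K = q ^ 2) {r i b s : ℕ} (hr : r.Prime) (hr2 : r ≠ 2) (hrp : r ≠ p)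
    (hi : i = orderOf (q : ZMod r)) (hb : b = if Odd i then i else i / 2) (hs : s * b = r - 1) :
    Nat.card {C : ConjClasses ↥(Cfsg.GU n K q) // ∃ g : ↥(Cfsg.GU n K q), ConjClasses.mk g = C ∧ orderOf g = r} =
      if i % 4 = 2 then Nat.choose (2 * n / i + s) s - 1 else Nat.choose (n / (2 * b) + s / 2) (s / 2) - 1 := by
  classical
  haveI : Fact r.Prime := ⟨hr⟩
  have hcop : r.Coprime p := (Nat.coprime_primes hr Fact.out).2 hrp
  obtain ⟨e, he⟩ := exists_q_pow (p := p) hK
  have hq : q.Coprime r := by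
    rw [he]
    exact ((Nat.coprime_primes Fact.out hr).2 hrp.symm).pow_left _
  have hb' : b = orderOf (((q ^ 2 : ℕ)) : ZMod r) := by
    rw [orderOf_sq hr hq, ← hi, hb]
  have hi0 : 0 < i := by
    rw [hi]
    exact order_pos_zmod hr hq
  have hcount : Nat.card {C : ConjClasses ↥(Cfsg.GU n K q) // ∃ g : ↥(Cfsg.GU n K q), ConjClasses.mk g = C ∧ orderOf g = r} =
      Nat.card (starSet (conjQ hK) r n) := by
    apply card_classes_eq (fun g : ↥(Cfsg.GU n K q) => orderOf g = r)
      (fun g => ((g : GL (Fin n) K) : Matrix (Fin n) (Fin n) K).charpoly)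
    · intro g h hgh
      have h1 := (Cfsg.Agent.S2587.result hK g h).1 hgh
      obtain ⟨c, hc⟩ := isConj_iff.1 h1
      show ((g : GL (Fin n) K) : Matrix (Fin n) (Fin n) K).charpoly = ((h : GL (Fin n) K) : Matrix (Fin n) (Fin n) K).charpoly
      rw [← hc, Units.val_mul, Units.val_mul, Matrix.coe_units_inv, Matrix.charpoly_units_conj]
    · intro g h hg hh hc
      rw [Cfsg.Agent.S2587.result hK]
      exact KS2.SSConj.gl_isConj (p := p) _ _ (by rw [orderOf_GU, hg]; exact hcop) (by rw [orderOf_GU, hh]; exact hcop) hc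
    · intro g hg
      refine ⟨Matrix.charpoly_monic _, by simp [Matrix.charpoly_natDegree_eq_dim], gu_forward hK g, ?_⟩
      have hg' : orderOf (g : GL (Fin n) K) = r := by rw [orderOf_GU, hg]
      exact charpoly_of_prime_order (p := p) hr hrp _ hg'
    · rintro f ⟨h1, h2, h3, h4, h5⟩
      have h0 : f.coeff 0 ≠ 0 := coeff_zero_of_star h1.ne_zero h3
      obtain ⟨x, hx, hc⟩ := KS2.SSConj.exists_matrix (p := p) f h1 h2 h0
      have hc'' := hc
      have hxr : x ^ r = 1 := aeval_pow_sub_one_of_factors (p := p) x hr.pos hx (by rw [hc]; exact h4)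
      have hxo : orderOf x = r := by
        refine orderOf_eq_prime hxr ?_
        rintro rfl
        apply h5
        rw [← hc]
        simp [Matrix.charpoly_one]
      set A : Matrix (Fin n) (Fin n) K := (x : Matrix (Fin n) (Fin n) K) with hA
      have hAdet : A.det ≠ 0 := ((Matrix.isUnit_iff_isUnit_det _).mp x.isUnit).ne_zero
      have hAr : A ^ r = 1 := by
        rw [hA, ← Units.val_pow_eq_pow_val, hxr]
        simp
      have hrK : (r : K) ≠ 0 := cast_prime_ne_zero (p := p) hr hrp
      have hy : ((hAdj hK A)⁻¹) ^ r = 1 := by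
        rw [Matrix.inv_pow', ← Cfsg.Agent.Lib.UConj.hAdj_pow, hAr, Cfsg.Agent.Lib.UConj.hAdj_one]
        simp
      have hyc : A.charpoly = ((hAdj hK A)⁻¹).charpoly := by
        rw [charpoly_inv_adj hK A hAdet, hc, h3]
      obtain ⟨c, hc'⟩ := KS2.SSConj.gl_conj hrK A _ hAr hy hyc
      have hconj : IsConj A (hAdj hK A)⁻¹ := ⟨c, hc'⟩
      have hB := (Cfsg.Agent.S2588.result hK x).2 hconj
      obtain ⟨B, hB⟩ := hB
      refine ⟨B, ?_, ?_⟩
      · rw [← orderOf_GU]
        obtain ⟨c, hc⟩ := isConj_iff.1 hB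
        rw [← hc, ← hxo]
        exact (MulAut.conj c).orderOf_eq x
      · obtain ⟨c, hc⟩ := isConj_iff.1 hB
        show ((B : GL (Fin n) K) : Matrix (Fin n) (Fin n) K).charpoly = f
        rw [← hc, Units.val_mul, Units.val_mul, Matrix.coe_units_inv, Matrix.charpoly_units_conj]
        exact hc'' 
  rw [hcount]
  split_ifs with hcase
  · have hi4 : i % 4 = 2 := hcase
    have hbi : i = 2 * b := by
      have hev : ¬ Odd i := by
        rw [Nat.odd_iff]
        omega
      rw [hb, if_neg hev]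
      omega
    have h1 := card_starSet_A (p := p) (s := s) hK hr hrp hb' (conjQ hK)
      (fun π hπ => (star_conj_iff (p := p) hK hr hr2 hrp hπ).2 (hi ▸ hi4)) hs n
    rw [h1, hbi, Nat.mul_div_mul_left _ _ (by norm_num : 0 < 2)]
  · exact card_starSet_B (p := p) (s := s) hK hr hrp hb' (conjQ hK) (conjQ_conjQ hK)
      (fun π hπ h => hcase (hi ▸ (star_conj_iff (p := p) hK hr hr2 hrp hπ).1 h)) hs n

end Cfsg.Agent.Lib.PrimeCl
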