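import Mathlib
import Cfsg.Agent.Lib.Classical.WittQuad
import Cfsg.Agent.Lib.KS2.IsoThm
import Cfsg.Agent.Lib.KS2.IsoSp

/-!
Semisimple isometries of odd order of quadratic forms with the same characteristic
polynomial part are conjugate: the alternating form `P(x, (T - T⁻¹) y)` reduces the
statement to the symplectic classification, and Witt's theorem gives the extension.
-/

set_option autoImplicit false
set_option linter.unusedSimpArgs false
set_option linter.unusedVariables false
set_option linter.deprecated false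
set_option linter.unusedSectionVars false

universe u

namespace Cfsg.Agent.Lib.PrimeCl

open Polynomial Cfsg.Agent.Lib.KS2.IsoCl

variable {F : Type u} [Field F] {V : Type u} [AddCommGroup V] [Module F V]

local notation "P" => QuadraticMap.polarBilin

/-- Witt's theorem for quadratic forms with non-degenerate polar form. -/
theorem witt_quad [FiniteDimensional F V] (Q : QuadraticForm F V) (hQ : (P Q).Nondegenerate)
    (X Y : Submodule F V) (φ : X ≃ₗ[F] Y) (hφ : ∀ a : X, Q (φ a) = Q a) :
    ∃ g : V ≃ₗ[F] V, (∀ v, Q (g v) = Q v) ∧ ∀ x : X, g x = φ x := by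
  obtain ⟨g, hg, hg2⟩ := Cfsg.Agent.Lib.Classical.Witt.extend_of_core (fun u _ => Q u)
    (fun X₀ x y hx hy hyp => by
      obtain ⟨g, h1, h2, h3⟩ := Cfsg.Agent.Lib.Classical.Witt.core_quad Q hQ X₀ x y hx hy
        (fun a ha s => hyp a a ha ha s s)
      exact ⟨g, fun u _ => h1 u, h2, h3⟩) X Y φ (fun a _ => hφ a)
  exact ⟨g, fun v => hg v v, hg2⟩

section
variable (Q : QuadraticForm F V) (T : V →ₗ[F] V)

lemma polar_pres (hT : ∀ v, Q (T v) = Q v) (x y : V) : P Q (T x) (T y) = P Q x y := by
  show QuadraticMap.polar (⇑Q) _ _ = QuadraticMap.polar (⇑Q) _ _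
  simp only [QuadraticMap.polar, ← map_add, hT]

end

section Semi

variable (T : V →ₗ[F] V) (m : ℕ) (hm : (m : F) ≠ 0) (hTm : T ^ m = 1)

include hm hTm in
lemma fix_inter {x : V} (h1 : T x = x) (h2 : x ∈ LinearMap.range (T - 1)) : x = 0 := by
  obtain ⟨y, rfl⟩ := h2
  have h3 : (∑ i ∈ Finset.range m, T ^ i) * (T - 1) = T ^ m - 1 := geom_sum_mul T m
  rw [hTm, sub_self] at h3
  have h4 : (∑ i ∈ Finset.range m, T ^ i) ((T - 1) y) = 0 := by
    have := congrArg (fun f => f y) h3
    simpa using this
  have h5 : ∀ k : ℕ, (T ^ k) ((T - 1) y) = (T - 1) y := by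
    intro k
    induction k with
    | zero => simp
    | succ k ih => rw [pow_succ', Module.End.mul_apply, ih, h1]
  rw [LinearMap.sum_apply] at h4
  simp only [h5, Finset.sum_const, Finset.card_range] at h4
  rw [← Nat.cast_smul_eq_nsmul F] at h4
  exact (smul_eq_zero.1 h4).resolve_left hm

include hm hTm in
lemma fix_sup [FiniteDimensional F V] : LinearMap.ker (T - 1) ⊔ LinearMap.range (T - 1) = ⊤ := by
  apply Submodule.eq_top_of_finrank_eq
  have h1 := Submodule.finrank_sup_add_finrank_inf_eq (LinearMap.ker (T - 1)) (LinearMap.range (T - 1))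
  have h2 : LinearMap.ker (T - 1) ⊓ LinearMap.range (T - 1) = ⊥ := by
    rw [Submodule.eq_bot_iff]
    rintro x ⟨hx1, hx2⟩
    apply fix_inter T m hm hTm _ hx2
    have : (T - 1) x = 0 := hx1
    simpa [sub_eq_zero] using this
  rw [h2, finrank_bot, add_zero] at h1
  have h3 := LinearMap.finrank_range_add_finrank_ker (T - 1)
  omega

lemma range_stable {x : V} (hx : x ∈ LinearMap.range (T - 1)) : T x ∈ LinearMap.range (T - 1) := by
  obtain ⟨y, rfl⟩ := hx
  refine ⟨T y, ?_⟩
  simp

end Semi

section Main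

variable (Q : QuadraticForm F V) (T : V →ₗ[F] V) (m : ℕ)

/-- The inverse of `T`, as a power. -/
noncomputable abbrev Sinv : V →ₗ[F] V := T ^ (m - 1)

/-- The difference. -/
noncomputable abbrev Dif : V →ₗ[F] V := T - Sinv T m

variable {T m}
variable (hm0 : 0 < m) (hTm : T ^ m = 1)

include hm0 hTm in
lemma T_Sinv (x : V) : T (Sinv T m x) = x := by
  have h1 : T * T ^ (m - 1) = 1 := by
    rw [← pow_succ', Nat.sub_add_cancel hm0, hTm]
  have := congrArg (fun f => f x) h1
  simpa using this

include hm0 hTm in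
lemma Sinv_T (x : V) : Sinv T m (T x) = x := by
  have h1 : T ^ (m - 1) * T = 1 := by
    rw [← pow_succ, Nat.sub_add_cancel hm0, hTm]
  have := congrArg (fun f => f x) h1
  simpa using this

variable (hT : ∀ v, Q (T v) = Q v)

include hm0 hTm hT in
lemma Sinv_pres (v : V) : Q (Sinv T m v) = Q v := by
  conv_rhs => rw [← T_Sinv hm0 hTm v]
  rw [hT]

include hm0 hTm hT in
lemma form_symm (x y : V) : P Q y (Dif T m x) = - P Q x (Dif T m y) := by
  have h1 : P Q y (T x) = P Q x (Sinv T m y) := by
    have := polar_pres Q (Sinv T m) (Sinv_pres Q hm0 hTm hT) y (T x)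
    rw [Sinv_T hm0 hTm] at this
    rw [← this, Cfsg.Agent.Lib.Classical.Witt.pol_comm]
  have h2 : P Q y (Sinv T m x) = P Q x (T y) := by
    have := polar_pres Q T hT y (Sinv T m x)
    rw [T_Sinv hm0 hTm] at this
    rw [← this, Cfsg.Agent.Lib.Classical.Witt.pol_comm]
  simp only [Dif, LinearMap.sub_apply, map_sub, h1, h2]
  ring

include hm0 hTm hT in
lemma form_alt (x : V) : P Q x (Dif T m x) = 0 := by
  have h2 : P Q x (Sinv T m x) = P Q x (T x) := by
    have := polar_pres Q T hT x (Sinv T m x)
    rw [T_Sinv hm0 hTm] at this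
    rw [← this, Cfsg.Agent.Lib.Classical.Witt.pol_comm]
  simp only [Dif, LinearMap.sub_apply, map_sub, h2, sub_self]

lemma Dif_comm (x : V) : Dif T m (T x) = T (Dif T m x) := by
  simp only [Dif, LinearMap.sub_apply, map_sub, Sinv]
  congr 1
  rw [← Module.End.mul_apply, ← Module.End.mul_apply, ← pow_succ, ← pow_succ']

include hm0 hTm hT in
lemma form_inv (x y : V) : P Q (T x) (Dif T m (T y)) = P Q x (Dif T m y) := by
  rw [Dif_comm, polar_pres Q T hT]

include hTm in
/-- The perpendicular of the commutator space. -/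
lemma fix_of_perp (hm0 : 0 < m) (hQ : (P Q).Nondegenerate) (hT : ∀ v, Q (T v) = Q v) (x : V)
    (h : ∀ z ∈ LinearMap.range (T - 1), P Q x z = 0) : T x = x := by
  have h1 : ∀ y, P Q (Sinv T m x - x) y = 0 := by
    intro y
    have h2 := h _ ⟨y, rfl⟩
    simp only [LinearMap.sub_apply, Module.End.one_apply, map_sub] at h2
    have h3 : P Q x (T y) = P Q (Sinv T m x) y := by
      have := polar_pres Q (Sinv T m) (Sinv_pres Q hm0 hTm hT) x (T y)
      rw [Sinv_T hm0 hTm] at this
      exact this.symm
    rw [h3] at h2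
    simpa using h2
  have h4 := hQ.1 _ h1
  have h5 : Sinv T m x = x := sub_eq_zero.1 h4
  calc T x = T (Sinv T m x) := by rw [h5]
    _ = x := T_Sinv hm0 hTm x

lemma perp_of_fix (hT : ∀ v, Q (T v) = Q v) (x : V) (h : T x = x) :
    ∀ z ∈ LinearMap.range (T - 1), P Q x z = 0 := by
  rintro _ ⟨y, rfl⟩
  simp only [LinearMap.sub_apply, Module.End.one_apply, map_sub]
  have := polar_pres Q T hT x y
  rw [h] at this
  rw [this, sub_self]

include hTm in
lemma fix_of_Dif (hodd : Odd m) {x : V} (h : Dif T m x = 0) : T x = x := by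
  have hm0 : 0 < m := hodd.pos
  have h1 : T x = Sinv T m x := sub_eq_zero.1 h
  have h2 : T (T x) = x := by
    rw [h1, T_Sinv hm0 hTm]
  obtain ⟨k, hk⟩ := hodd
  have h3 : ∀ j : ℕ, (T ^ (2 * j)) x = x := by
    intro j
    induction j with
    | zero => simp
    | succ j ih =>
      rw [show 2 * (j + 1) = 2 * j + 2 by ring, pow_add, Module.End.mul_apply]
      have : (T ^ 2) x = x := by
        rw [pow_two, Module.End.mul_apply, h2]
      rw [this, ih]
  have h4 : T x = (T ^ (2 * (k + 1))) x := by
    have : 2 * (k + 1) = m + 1 := by omega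
    rw [this, pow_succ, Module.End.mul_apply, hTm]
    rfl
  rw [h4, h3]

end Main

section Key

variable [FiniteDimensional F V] [Finite F] (Q : QuadraticForm F V) (hQ : (P Q).Nondegenerate)

include hQ in
/-- The main classification step. -/
theorem quad_conj (T T' : V →ₗ[F] V) (hT : ∀ v, Q (T v) = Q v) (hT' : ∀ v, Q (T' v) = Q v)
    (m : ℕ) (hm : (m : F) ≠ 0) (hodd : Odd m) (hTm : T ^ m = 1) (hTm' : T' ^ m = 1)
    (c : V ≃ₗ[F] V) (hc : ∀ v, c (T v) = T' (c v)) :
    ∃ g : V ≃ₗ[F] V, (∀ v, Q (g v) = Q v) ∧ ∀ v, g (T v) = T' (g v) := by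
  classical
  have hm0 : 0 < m := hodd.pos
  set W := LinearMap.range (T - 1) with hW
  set W' := LinearMap.range (T' - 1) with hW'
  have hstab : ∀ x ∈ W, T x ∈ W := fun x hx => range_stable T hx
  have hstab' : ∀ x ∈ W', T' x ∈ W' := fun x hx => range_stable T' hx
  let TW : Module.End F W := T.restrict hstab
  let TW' : Module.End F W' := T'.restrict hstab'
  have hTWv : ∀ x : W, ((TW x : W) : V) = T x := fun _ => rfl
  have hTWv' : ∀ x : W', ((TW' x : W') : V) = T' x := fun _ => rfl
  have hpow : ∀ (k : ℕ) (x : W), (((TW ^ k) x : W) : V) = (T ^ k) x := by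
    intro k x
    induction k with
    | zero => simp
    | succ k ih => rw [pow_succ', Module.End.mul_apply, hTWv, ih, pow_succ', Module.End.mul_apply]
  have hpow' : ∀ (k : ℕ) (x : W'), (((TW' ^ k) x : W') : V) = (T' ^ k) x := by
    intro k x
    induction k with
    | zero => simp
    | succ k ih => rw [pow_succ', Module.End.mul_apply, hTWv', ih, pow_succ', Module.End.mul_apply]
  have hTWm : TW ^ m = 1 := by
    ext x
    rw [hpow, hTm]
    simp
  have hTWm' : TW' ^ m = 1 := by
    ext x
    rw [hpow', hTm']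
    simp
  -- the forms
  have hDW : ∀ x ∈ W, Dif T m x ∈ W := by
    intro x hx
    exact Submodule.sub_mem _ (hstab x hx) (by
      have : ∀ k : ℕ, (T ^ k) x ∈ W := by
        intro k
        induction k with
        | zero => simpa using hx
        | succ k ih =>
          rw [pow_succ', Module.End.mul_apply]
          exact hstab _ ih
      exact this _)
  have hDW' : ∀ x ∈ W', Dif T' m x ∈ W' := by
    intro x hx
    exact Submodule.sub_mem _ (hstab' x hx) (by
      have : ∀ k : ℕ, (T' ^ k) x ∈ W' := by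
        intro k
        induction k with
        | zero => simpa using hx
        | succ k ih =>
          rw [pow_succ', Module.End.mul_apply]
          exact hstab' _ ih
      exact this _)
  let DW : Module.End F W := (Dif T m).restrict hDW
  let DW' : Module.End F W' := (Dif T' m).restrict hDW'
  have hDinj : Function.Injective DW := by
    rw [injective_iff_map_eq_zero]
    intro x hx
    have h1 : Dif T m (x : V) = 0 := congrArg Subtype.val hx
    have h2 := fix_of_Dif hTm hodd h1
    exact Subtype.ext (fix_inter T m hm hTm h2 x.2)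
  have hDinj' : Function.Injective DW' := by
    rw [injective_iff_map_eq_zero]
    intro x hx
    have h1 : Dif T' m (x : V) = 0 := congrArg Subtype.val hx
    have h2 := fix_of_Dif hTm' hodd h1
    exact Subtype.ext (fix_inter T' m hm hTm' h2 x.2)
  have hDsurj : Function.Surjective DW := LinearMap.injective_iff_surjective.1 hDinj
  have hDsurj' : Function.Surjective DW' := LinearMap.injective_iff_surjective.1 hDinj'
  let B : W → W → F := fun x y => P Q x (Dif T m y)
  let B' : W' → W' → F := fun x y => P Q x (Dif T' m y)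
  have hB : IsForm (RingHom.id F) (-1 : F) B := by
    refine ⟨?_, ?_, ?_, ?_, ?_⟩
    · intro x y z
      simp [B]
      ring
    · intro a x y
      simp [B]
      ring
    · intro x y
      simp only [B, RingHom.id_apply]
      rw [form_symm Q hm0 hTm hT]
      ring
    · intro x h
      apply Subtype.ext
      have h1 : ∀ z ∈ W, P Q (x : V) z = 0 := by
        intro z hz
        obtain ⟨y, hy⟩ := hDsurj ⟨z, hz⟩
        have := h y
        have h2 : Dif T m (y : V) = z := congrArg Subtype.val hy
        simp only [B] at this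
        rwa [h2] at this
      have h2 := fix_of_perp Q hTm hm0 hQ hT _ h1
      exact fix_inter T m hm hTm h2 x.2
    · intro _ x
      exact form_alt Q hm0 hTm hT _
  have hB' : IsForm (RingHom.id F) (-1 : F) B' := by
    refine ⟨?_, ?_, ?_, ?_, ?_⟩
    · intro x y z
      simp [B']
      ring
    · intro a x y
      simp [B']
      ring
    · intro x y
      simp only [B', RingHom.id_apply]
      rw [form_symm Q hm0 hTm' hT']
      ring
    · intro x h
      apply Subtype.ext
      have h1 : ∀ z ∈ W', P Q (x : V) z = 0 := by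
        intro z hz
        obtain ⟨y, hy⟩ := hDsurj' ⟨z, hz⟩
        have := h y
        have h2 : Dif T' m (y : V) = z := congrArg Subtype.val hy
        simp only [B'] at this
        rwa [h2] at this
      have h2 := fix_of_perp Q hTm' hm0 hQ hT' _ h1
      exact fix_inter T' m hm hTm' h2 x.2
    · intro _ x
      exact form_alt Q hm0 hTm' hT' _
  have hBT : ∀ x y, B (TW x) (TW y) = B x y := fun x y => form_inv Q hm0 hTm hT _ _
  have hBT' : ∀ x y, B' (TW' x) (TW' y) = B' x y := fun x y => form_inv Q hm0 hTm' hT' _ _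
  -- the charpolys
  have hmap : W.map (c : V →ₗ[F] V) = W' := by
    ext v
    constructor
    · rintro ⟨_, ⟨y, rfl⟩, rfl⟩
      refine ⟨c y, ?_⟩
      simp [hc]
    · rintro ⟨y, rfl⟩
      refine ⟨(T - 1) (c.symm y), ⟨_, rfl⟩, ?_⟩
      have h1 : c (T (c.symm y)) = T' y := by rw [hc, c.apply_symm_apply]
      simp [h1]
  let c₀ : W ≃ₗ[F] W' := LinearEquiv.ofSubmodules c W W' hmap
  have hc₀ : ∀ x : W, ((c₀ x : W') : V) = c x := fun _ => rfl
  have hconj : c₀.conj TW = TW' := by
    ext x
    rw [LinearEquiv.conj_apply_apply]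
    show ((c₀ (TW (c₀.symm x)) : W') : V) = _
    rw [hc₀, hTWv, hc, ← hc₀, LinearEquiv.apply_symm_apply]
    rfl
  have hchar : TW.charpoly = TW'.charpoly := by
    rw [← hconj, LinearEquiv.charpoly_conj]
  have hfin : Module.finrank F W = Module.finrank F W' := c₀.finrank_eq
  obtain ⟨φ, hφB, hφT⟩ := iso_exists (sys_sp (F := F)) hm _ W W' B B' TW TW' rfl hB hB' hBT hBT' hTWm hTWm' hchar
  have hφinj : Function.Injective φ := by
    rw [injective_iff_map_eq_zero]
    intro x hx
    apply hB.nondeg
    intro y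
    rw [← hφB, hx]
    show P Q ((0 : W') : V) _ = 0
    simp
  let φe : W ≃ₗ[F] W' := LinearEquiv.ofInjectiveOfFinrankEq φ hφinj hfin
  have hφe : ∀ x : W, φe x = φ x := fun _ => rfl
  -- the polar form
  have hφD : ∀ y : W, ((φ (DW y) : W') : V) = Dif T' m (φ y : V) := by
    intro y
    have hpw : ∀ (k : ℕ) (x : W), φ ((TW ^ k) x) = (TW' ^ k) (φ x) := by
      intro k x
      induction k with
      | zero => simp
      | succ k ih =>
        rw [pow_succ', pow_succ', Module.End.mul_apply, Module.End.mul_apply, hφT, ih]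
    have h1 : DW y = TW y - (TW ^ (m - 1)) y := by
      apply Subtype.ext
      show Dif T m (y : V) = _
      rw [Submodule.coe_sub, hpow]
      rfl
    rw [h1, map_sub, hφT, hpw, Submodule.coe_sub, hpow']
    rfl
  have hφP : ∀ x z : W, P Q (φ x : V) (φ z : V) = P Q (x : V) (z : V) := by
    intro x z
    obtain ⟨y, rfl⟩ := hDsurj z
    rw [hφD]
    exact hφB x y
  -- the quadratic form
  have hadd : ∀ x y : W, Q (φ (x + y) : V) - Q ((x + y : W) : V) =
      (Q (φ x : V) - Q (x : V)) + (Q (φ y : V) - Q (y : V)) := by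
    intro x y
    rw [map_add, Submodule.coe_add, Submodule.coe_add, Cfsg.Agent.Lib.Classical.Witt.Q_add,
      Cfsg.Agent.Lib.Classical.Witt.Q_add Q (x : V), hφP]
    ring
  have hTinj : Function.Injective ((T - 1).restrict (fun x (_ : x ∈ W) => (⟨x, rfl⟩ : (T - 1) x ∈ W)) : W →ₗ[F] W) := by
    rw [injective_iff_map_eq_zero]
    intro x hx
    have h1 : (T - 1) (x : V) = 0 := congrArg Subtype.val hx
    have h2 : T (x : V) = x := by simpa [sub_eq_zero] using h1
    exact Subtype.ext (fix_inter T m hm hTm h2 x.2)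
  have hTsurj := LinearMap.injective_iff_surjective.1 hTinj
  have hφQ : ∀ x : W, Q (φ x : V) = Q (x : V) := by
    intro x
    obtain ⟨y, hy⟩ := hTsurj x
    have h1 : x + y = TW y := by
      apply Subtype.ext
      have h2 : (T - 1) (y : V) = x := congrArg Subtype.val hy
      show (x : V) + y = T y
      rw [← h2]
      simp
    have h3 := hadd x y
    rw [h1, hφT, hTWv', hTWv, hT, hT'] at h3
    have h4 : Q (φ x : V) - Q (x : V) = 0 := by linear_combination -h3
    exact sub_eq_zero.1 h4
  -- Witt
  obtain ⟨g, hg1, hg2⟩ := witt_quad Q hQ W W' φe hφQ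
  refine ⟨g, hg1, ?_⟩
  have hgP : ∀ x y, P Q (g x) (g y) = P Q x y := fun x y => polar_pres Q g hg1 x y
  have hmem : ∀ v, v ∈ LinearMap.ker (T - 1) ⊔ W := by
    intro v
    rw [fix_sup T m hm hTm]
    trivial
  intro v
  obtain ⟨a, ha, b, hb, rfl⟩ := Submodule.mem_sup.1 (hmem v)
  have ha1 : T a = a := by
    have : (T - 1) a = 0 := ha
    simpa [sub_eq_zero] using this
  -- the fixed part
  have hga : T' (g a) = g a := by
    apply fix_of_perp Q hTm' hm0 hQ hT'
    intro z hz
    have hz' : ((φe.symm ⟨z, hz⟩ : W) : V) ∈ W := (φe.symm ⟨z, hz⟩).2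
    have h1 : g ((φe.symm ⟨z, hz⟩ : W) : V) = z := by
      rw [hg2, LinearEquiv.apply_symm_apply]
    rw [← h1, hgP]
    exact perp_of_fix Q hT a ha1 _ hz'
  -- the moved part
  have hgb : g (T b) = T' (g b) := by
    have h1 : g b = φ ⟨b, hb⟩ := hg2 ⟨b, hb⟩
    have h2 : g (T b) = φ (TW ⟨b, hb⟩) := hg2 (TW ⟨b, hb⟩)
    rw [h2, h1, hφT, hTWv']
  simp only [map_add, ha1, hga, hgb]

end Key

end Cfsg.Agent.Lib.PrimeCl
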