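import Mathlib
import Cfsg.Agent.Lib.PrimeCl.OrthConj
import Cfsg.Agent.Lib.PrimeCl.TCount
import Cfsg.Agent.Lib.KS2.IsoGroup

/-!
Isometries of odd prime order of quadratic forms: conjugacy, star-invariance, the quadratic form
attached to an alternating form, and orthogonal extension by the identity.
-/

set_option autoImplicit false
set_option linter.unusedSimpArgs false
set_option linter.unusedVariables false
set_option linter.deprecated false
set_option linter.unusedSectionVars false

universe u

namespace Cfsg.Agent.Lib.PrimeCl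

open Polynomial Cfsg.Agent.Lib.KS2.IsoCl

variable {F : Type u} [Field F] {V : Type u} [AddCommGroup V] [Module F V]

local notation "P" => QuadraticMap.polarBilin

/-- Isometries with the same characteristic polynomial are conjugate. -/
theorem quad_conj_charpoly [FiniteDimensional F V] [Finite F] (Q : QuadraticForm F V) (hQ : (P Q).Nondegenerate)
    (T T' : V →ₗ[F] V) (hT : ∀ v, Q (T v) = Q v) (hT' : ∀ v, Q (T' v) = Q v)
    (m : ℕ) (hm : (m : F) ≠ 0) (hodd : Odd m) (hTm : T ^ m = 1) (hTm' : T' ^ m = 1)
    (hc : T.charpoly = T'.charpoly) :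
    ∃ g : V ≃ₗ[F] V, (∀ v, Q (g v) = Q v) ∧ ∀ v, g (T v) = T' (g v) := by
  obtain ⟨c, hc'⟩ := KS2.SSConj.conj_of_charpoly hm _ V V T T' rfl hTm hTm' hc
  exact quad_conj Q hQ T T' hT hT' m hm hodd hTm hTm' c hc'

/-- The characteristic polynomial of an isometry is star invariant. -/
theorem isometry_star [FiniteDimensional F V] (Q : QuadraticForm F V) (hQ : (P Q).Nondegenerate)
    (T : V →ₗ[F] V) (hT : ∀ v, Q (T v) = Q v) (m : ℕ) (hm0 : 0 < m) (hTm : T ^ m = 1) :
    pstar (RingHom.id F) T.charpoly = T.charpoly := by
  classical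
  let b := Module.finBasis F V
  set M := LinearMap.toMatrix b b T with hM
  set G := LinearMap.BilinForm.toMatrix b (P Q) with hG
  have hGdet : G.det ≠ 0 := (LinearMap.BilinForm.nondegenerate_iff_det_ne_zero b).1 hQ
  have h1 : M.transpose * G * M = G := by
    have h2 := LinearMap.BilinForm.toMatrix_comp b b (P Q) T T
    have h3 : LinearMap.BilinForm.comp (P Q) T T = P Q := by
      ext x y
      exact polar_pres Q T hT x y
    rw [h3] at h2
    exact h2.symm
  have hMdet : M.det ≠ 0 := by
    intro h0
    have h2 := congrArg Matrix.det h1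
    rw [Matrix.det_mul, Matrix.det_mul, Matrix.det_transpose, h0] at h2
    simp at h2
    exact hGdet h2.symm
  have hGu : IsUnit G := (Matrix.isUnit_iff_isUnit_det _).2 (IsUnit.mk0 _ hGdet)
  obtain ⟨U, hU⟩ := hGu
  have h2 : M⁻¹ = U⁻¹.val * M.transpose * U.val := by
    apply Matrix.inv_eq_left_inv
    rw [Matrix.mul_assoc, Matrix.mul_assoc, hU, ← Matrix.mul_assoc M.transpose, h1, ← hU]
    exact U.inv_val
  have h3 : (M⁻¹).charpoly = M.charpoly := by
    rw [h2]
    have h4 : (U⁻¹.val * M.transpose * U.val).charpoly = M.transpose.charpoly := by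
      have h5 := Matrix.charpoly_units_conj U⁻¹ M.transpose
      have h6 : (U⁻¹.val)⁻¹ = U.val := by
        apply Matrix.inv_eq_left_inv
        exact U.val_inv
      rwa [h6] at h5
    rw [h4, Matrix.charpoly_transpose]
  have h4 := charpoly_inv' M hMdet
  rw [h3] at h4
  have h5 : T.charpoly = M.charpoly := (LinearMap.charpoly_toMatrix T b).symm
  rw [h5]
  simp only [pstar, Polynomial.map_id, RingHom.id_apply]
  exact h4.symm

/-- The number of zeros of a form with a fixed-point-free isometry of prime order. -/
theorem card_zeros_modEq [Finite F] [FiniteDimensional F V] (Q : QuadraticForm F V) (T : V →ₗ[F] V) (hT : ∀ v, Q (T v) = Q v)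
    (r : ℕ) [Fact r.Prime] (hTr : T ^ r = 1) (hfree : ∀ v, T v = v → v = 0) :
    Nat.card {v : V // Q v = 0} ≡ 1 [MOD r] := by
  classical
  haveI : Finite V := Module.finite_of_finite F
  haveI : Fintype V := Fintype.ofFinite V
  haveI : Fintype {v : V // Q v = 0} := Fintype.ofFinite _
  let f : Function.End {v : V // Q v = 0} := fun v => ⟨T v.1, by rw [hT]; exact v.2⟩
  have hpow : ∀ k : ℕ, ∀ v, ((f ^ k) v).1 = (T ^ k) v.1 := by
    intro k v
    induction k generalizing v with
    | zero => rfl
    | succ k ih =>
      rw [pow_succ, pow_succ]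
      show ((f ^ k) (f v)).1 = (T ^ k) (T v.1)
      rw [ih]
  have hf : f ^ (r ^ 1) = 1 := by
    funext v
    apply Subtype.ext
    rw [pow_one, hpow, hTr]
    rfl
  have h1 := Equiv.Perm.card_fixedPoints_modEq (f := f) hf
  have hfix : Fintype.card (Function.fixedPoints f) = 1 := by
    rw [Fintype.card_eq_one_iff]
    refine ⟨⟨⟨0, map_zero Q⟩, ?_⟩, ?_⟩
    · apply Subtype.ext
      exact map_zero T
    · rintro ⟨⟨v, hv⟩, hv2⟩
      apply Subtype.ext
      apply Subtype.ext
      have : T v = v := congrArg Subtype.val hv2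
      exact hfree v this
  rw [hfix] at h1
  rw [Nat.card_eq_fintype_card]
  exact h1

section Cayley

variable [FiniteDimensional F V] (B : V → V → F) (hB : IsForm (RingHom.id F) (-1 : F) B)
  (T : V →ₗ[F] V) (hBT : ∀ x y, B (T x) (T y) = B x y)

include hB in
lemma alt_anti (x y : V) : B y x = - B x y := by
  have := hB.symm x y
  simpa using this

include hB hBT in
/-- The form attached to an isometry of an alternating form, when `T - 1` is invertible. -/
theorem exists_quad_of_alt (m : ℕ) (hodd : Odd m) (hTm : T ^ m = 1) (hinj : ∀ x, T x = x → x = 0) :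
    ∃ Q : QuadraticForm F V, (P Q).Nondegenerate ∧ ∀ v, Q (T v) = Q v := by
  classical
  have hadd_right : ∀ x y z, B x (y + z) = B x y + B x z := fun x y z => hB.add_right x y z
  have hsmul_right : ∀ (a : F) x y, B x (a • y) = a * B x y := by
    intro a x y
    have := hB.smul_right a x y
    simpa using this
  have hanti := alt_anti B hB
  -- the inverse of `1 - T`
  have hinj1 : Function.Injective (1 - T : V →ₗ[F] V) := by
    rw [injective_iff_map_eq_zero]
    intro x hx
    apply hinj
    have : x - T x = 0 := hx
    exact (sub_eq_zero.1 this).symm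
  let e : V ≃ₗ[F] V := LinearEquiv.ofInjectiveEndo _ hinj1
  have he : ∀ x, e x = x - T x := fun _ => rfl
  let S : V →ₗ[F] V := e.symm
  have hS1 : ∀ x, S x - T (S x) = x := by
    intro x
    have := he (S x)
    rw [← this]
    exact e.apply_symm_apply x
  have hS2 : ∀ x, S (x - T x) = x := by
    intro x
    have h1 : x - T x = e x := rfl
    rw [h1]
    exact e.symm_apply_apply x
  have hST : ∀ x, S (T x) = T (S x) := by
    intro x
    have h1 := hS1 x
    have h2 : T x = T (S x) - T (T (S x)) := by
      rw [← map_sub, h1]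
    rw [h2, hS2]
  let q : V → F := fun x => B x (S x)
  -- the polar of q
  let R : V →ₗ[F] V := (1 + T) ∘ₗ S
  have hR : ∀ x, R x = S x + T (S x) := fun _ => rfl
  have hpol : ∀ x y, q (x + y) - q x - q y = B x (R y) := by
    intro x y
    have h1 : q (x + y) - q x - q y = B x (S y) + B y (S x) := by
      simp only [q, map_add, hB.add_left, hadd_right]
      ring
    rw [h1, hR, hadd_right]
    set w := S x with hw
    set z := S y with hz
    have hx : x = w - T w := (hS1 x).symm
    have hy : y = z - T z := (hS1 y).symm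
    have hsub : ∀ a b c : V, B (a - b) c = B a c - B b c := by
      intro a b c
      rw [sub_eq_add_neg, hB.add_left]
      have : B (-b) c = - B b c := by
        have := hB.smul_left (-1 : F) b c
        simpa using this
      rw [this]
      ring
    rw [hx, hy, hsub, hsub, hsub]
    have h3 : B (T w) (T z) = B w z := hBT w z
    have h4 : B z w = - B w z := hanti w z
    have h5 : B w (T z) = - B (T z) w := hanti (T z) w
    rw [h3, h4, h5]
    ring
  have hq_smul : ∀ (a : F) x, q (a • x) = (a * a) • q x := by
    intro a x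
    simp only [q, map_smul, hB.smul_left, hsmul_right, smul_eq_mul]
    ring
  have hpolar : ∀ x y, QuadraticMap.polar q x y = B x (R y) := fun x y => hpol x y
  let Q : QuadraticForm F V := QuadraticMap.ofPolar q hq_smul
    (by
      intro x x' y
      rw [hpolar, hpolar, hpolar, hB.add_left])
    (by
      intro a x y
      rw [hpolar, hpolar, hB.smul_left]
      rfl)
  have hQq : ∀ x, Q x = q x := fun _ => rfl
  have hPQ : ∀ x y, P Q x y = B x (R y) := fun x y => hpolar x y
  have hRsurj : Function.Surjective R := by
    have hinjR : Function.Injective R := by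
      rw [injective_iff_map_eq_zero]
      intro x hx
      have h1 : S x + T (S x) = 0 := hx
      have h2 : T (S x) = - S x := eq_neg_of_add_eq_zero_right h1
      have h3 : T (T (S x)) = S x := by
        rw [h2, map_neg, h2, neg_neg]
      have h4 : ∀ j : ℕ, (T ^ (2 * j)) (S x) = S x := by
        intro j
        induction j with
        | zero => simp
        | succ j ih =>
          rw [show 2 * (j + 1) = 2 * j + 2 by ring, pow_add, Module.End.mul_apply]
          have : (T ^ 2) (S x) = S x := by
            rw [pow_two, Module.End.mul_apply, h3]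
          rw [this, ih]
      obtain ⟨k, hk⟩ := hodd
      have h5 : T (S x) = (T ^ (2 * (k + 1))) (S x) := by
        have : 2 * (k + 1) = m + 1 := by omega
        rw [this, pow_succ, Module.End.mul_apply, hTm]
        rfl
      have h6 : T (S x) = S x := by
        rw [h5, h4]
      have h7 := hinj _ h6
      have h8 := hS1 x
      rw [h7, map_zero, sub_zero] at h8
      exact h8.symm
    exact LinearMap.injective_iff_surjective.1 hinjR
  have hleft : ∀ x, (∀ y, P Q x y = 0) → x = 0 := by
    intro x h
    apply hB.nondeg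
    intro z
    obtain ⟨y, rfl⟩ := hRsurj z
    rw [← hPQ]
    exact h y
  refine ⟨Q, ⟨hleft, ?_⟩, ?_⟩
  · intro y h
    apply hleft
    intro x
    rw [Cfsg.Agent.Lib.Classical.Witt.pol_comm]
    exact h x
  · intro v
    rw [hQq, hQq]
    show B (T v) (S (T v)) = B v (S v)
    rw [hST, hBT]

end Cayley

section Extend

variable {W : Type u} [AddCommGroup W] [Module F W] [FiniteDimensional F W] [FiniteDimensional F V]

/-- Extension by the identity from a non-degenerate subspace. -/
theorem exists_extension (QV : QuadraticForm F V) (QW : QuadraticForm F W) (hQW : (P QW).Nondegenerate)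
    (ι : W →ₗ[F] V) (hι : ∀ x, QV (ι x) = QW x) (T : W →ₗ[F] W) (hT : ∀ v, QW (T v) = QW v) (r : ℕ) (hTr : T ^ r = 1) :
    ∃ A : V →ₗ[F] V, (∀ v, QV (A v) = QV v) ∧ A ^ r = 1 ∧
      A.charpoly = (X - 1) ^ (Module.finrank F V - Module.finrank F W) * T.charpoly := by
  classical
  have hPι : ∀ x y, P QV (ι x) (ι y) = P QW x y := by
    intro x y
    show QuadraticMap.polar (⇑QV) _ _ = QuadraticMap.polar (⇑QW) _ _
    simp only [QuadraticMap.polar, ← map_add, hι]
  -- the orthogonal projection
  let φ : W ≃ₗ[F] Module.Dual F W := LinearMap.BilinForm.toDual (P QW) hQW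
  let ψ : V →ₗ[F] Module.Dual F W := ((P QV).flip.compl₂ ι |>.flip) |> fun _ =>
    LinearMap.flip ((P QV).flip ∘ₗ ι)
  let pr : V →ₗ[F] W := φ.symm.toLinearMap ∘ₗ ψ
  have hpr : ∀ v x, P QW (pr v) x = P QV v (ι x) := by
    intro v x
    have h1 : P QW (pr v) x = φ (pr v) x := (LinearMap.BilinForm.toDual_def hQW).symm
    rw [h1]
    show φ (φ.symm (ψ v)) x = _
    rw [LinearEquiv.apply_symm_apply]
    rfl
  have hprι : ∀ x, pr (ι x) = x := by
    intro x
    have h1 : ∀ y, P QW (pr (ι x) - x) y = 0 := by
      intro y
      rw [map_sub, LinearMap.sub_apply, hpr, hPι, sub_self]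
    exact sub_eq_zero.1 (hQW.1 _ h1)
  -- the extension
  let A : V →ₗ[F] V := LinearMap.id + ι ∘ₗ (T - 1) ∘ₗ pr
  have hA : ∀ v, A v = v + ι (T (pr v) - pr v) := fun _ => rfl
  have hprA : ∀ v, pr (A v) = T (pr v) := by
    intro v
    rw [hA, map_add, hprι]
    abel
  have hQdec : ∀ (x : W) (k : V), pr k = 0 → QV (ι x + k) = QW x + QV k := by
    intro x k hk
    rw [Cfsg.Agent.Lib.Classical.Witt.Q_add, hι, Cfsg.Agent.Lib.Classical.Witt.pol_comm, ← hpr, hk]
    simp
  have hdecomp : ∀ v, v = ι (pr v) + (v - ι (pr v)) := fun v => by abel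
  have hkpr : ∀ v, pr (v - ι (pr v)) = 0 := by
    intro v
    rw [map_sub, hprι, sub_self]
  have hAdec : ∀ v, A v = ι (T (pr v)) + (v - ι (pr v)) := by
    intro v
    rw [hA, map_sub]
    abel
  have hQA : ∀ v, QV (A v) = QV v := by
    intro v
    rw [hAdec, hQdec _ _ (hkpr v), hT]
    conv_rhs => rw [hdecomp v]
    rw [hQdec _ _ (hkpr v)]
  have hApow : ∀ (j : ℕ) v, (A ^ j) v = ι ((T ^ j) (pr v)) + (v - ι (pr v)) := by
    intro j v
    induction j generalizing v with
    | zero => simp
    | succ j ih =>
      rw [pow_succ, Module.End.mul_apply, ih, hprA, hAdec]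
      rw [pow_succ, Module.End.mul_apply]
      abel
  refine ⟨A, hQA, ?_, ?_⟩
  · ext1 v
    rw [hApow, hTr]
    simp
  -- the characteristic polynomial
  let K := LinearMap.ker pr
  let θ : V ≃ₗ[F] (W × K) :=
    { toFun := fun v => (pr v, ⟨v - ι (pr v), hkpr v⟩)
      invFun := fun p => ι p.1 + p.2
      map_add' := by
        intro x y
        ext <;> simp
        abel
      map_smul' := by
        intro c x
        ext <;> simp [smul_sub]
      left_inv := by
        intro v
        simp
      right_inv := by
        rintro ⟨x, k⟩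
        have hk : pr (k : V) = 0 := k.2
        ext <;> simp [hk, hprι] }
  have hconj : A.charpoly = (T.prodMap (1 : K →ₗ[F] K)).charpoly := by
    rw [← LinearEquiv.charpoly_conj θ A]
    congr 1
    apply LinearMap.ext
    rintro ⟨x, k⟩
    have hk : pr (k : V) = 0 := k.2
    have h1 : θ.symm (x, k) = ι x + (k : V) := rfl
    rw [LinearEquiv.conj_apply_apply, h1, LinearMap.prodMap_apply]
    have h2 : pr (ι x + (k : V)) = x := by
      rw [map_add, hprι, hk, add_zero]
    have h3 : A (ι x + (k : V)) = ι (T x) + (k : V) := by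
      rw [hAdec, h2]
      abel
    rw [h3]
    apply Prod.ext
    · show pr (ι (T x) + (k : V)) = T x
      rw [map_add, hprι, hk, add_zero]
    · apply Subtype.ext
      show (ι (T x) + (k : V)) - ι (pr (ι (T x) + (k : V))) = (k : V)
      rw [map_add pr, hprι, hk, add_zero]
      abel
  have hdim : Module.finrank F V = Module.finrank F W + Module.finrank F K := by
    rw [θ.finrank_eq, Module.finrank_prod]
  rw [hconj, LinearMap.charpoly_prodMap, LinearMap.charpoly_one, mul_comm]
  congr 2
  omega

end Extend

end Cfsg.Agent.Lib.PrimeCl
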