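import Mathlib
import Cfsg.Agent.Lib.PrimeCl.Orth1
import Cfsg.Agent.Lib.PrimeCl.NT
import Cfsg.Agent.Lib.KS2.IsoReal
import Cfsg.Agent.Lib.KS2.IsoSp
import Cfsg.Agent.Lib.Known3.QuadIso
import Cfsg.Agent.Lib.Known3.Witt
import Cfsg.Agent.Lib.Classical.OrderForms
import Cfsg.Agent.Lib.Classical.OrderMinus

/-!
Isometries of odd prime order: models, zero counts, and totally singular splittings.
-/

set_option autoImplicit false
set_option linter.unusedSimpArgs false
set_option linter.unusedVariables false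
set_option linter.deprecated false
set_option linter.unusedSectionVars false

universe u

namespace Cfsg.Agent.Lib.PrimeCl

open Polynomial Cfsg.Agent.Lib.KS2.IsoCl

variable {F : Type u} [Field F] {V : Type u} [AddCommGroup V] [Module F V]

local notation "P" => QuadraticMap.polarBilin

/-- Linear version of the annihilation lemma for semisimple maps. -/
lemma lin_aeval_of_factors [FiniteDimensional F V] (T : V →ₗ[F] V) (m : ℕ) (hm : (m : F) ≠ 0) (hT : T ^ m = 1) (R : F[X])
    (hR0 : R ≠ 0) (h : ∀ π : F[X], Irreducible π → π ∣ T.charpoly → π ∣ R) : aeval T R = 0 := by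
  classical
  let b := Module.finBasis F V
  let e := LinearMap.toMatrixAlgEquiv b
  have h1 : (e T) ^ m = 1 := by
    rw [← map_pow, hT, map_one]
  have h2 : (e T).charpoly = T.charpoly := LinearMap.charpoly_toMatrix T b
  have h3 := aeval_eq_zero_of_factors (e T) m hm h1 R hR0 (by rw [h2]; exact h)
  rw [aeval_algHom_apply] at h3
  exact e.injective (by rw [h3, map_zero])

/-- A map with characteristic polynomial prime to `X - 1` has no fixed points. -/
lemma free_of_coprime [FiniteDimensional F V] (T : V →ₗ[F] V) (h : IsCoprime T.charpoly (X - 1)) (v : V) (hv : T v = v) :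
    v = 0 := by
  by_contra h0
  have h1 : Module.End.HasEigenvalue T 1 :=
    Module.End.hasEigenvalue_of_hasEigenvector (x := v) ⟨Module.End.mem_eigenspace_iff.2 (by simpa using hv), h0⟩
  have h2 : T.charpoly.IsRoot 1 := (Module.End.hasEigenvalue_iff_isRoot_charpoly T 1).1 h1
  have h3 : (X - C 1 : F[X]) ∣ T.charpoly := dvd_iff_isRoot.2 h2
  rw [map_one] at h3
  have h4 : IsUnit (X - 1 : F[X]) := h.symm.isUnit_of_dvd' dvd_rfl h3
  have h5 := natDegree_eq_zero_of_isUnit h4
  rw [natDegree_X1] at h5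
  exact one_ne_zero h5

section Model

variable [Fintype F] {p : ℕ} [hpf : Fact p.Prime] [CharP F p]

/-- The model: a star-invariant polynomial is the characteristic polynomial of an isometry of a
nondegenerate quadratic form. -/
theorem exists_model (r : ℕ) (hr : r.Prime) (hr2 : r ≠ 2) (hrp : r ≠ p) (g : F[X]) (hm : g.Monic)
    (hd : Even g.natDegree) (hc : g.coeff 0 = 1) (hstar : pstar (RingHom.id F) g = g)
    (hfac : ∀ π : F[X], Irreducible π → π ∣ g → π ∣ X ^ r - 1) (hco : IsCoprime g (X - 1)) :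
    ∃ (W : Type u) (_ : AddCommGroup W) (_ : Module F W) (_ : FiniteDimensional F W)
      (QW : QuadraticForm F W) (T : W →ₗ[F] W), (P QW).Nondegenerate ∧ (∀ v, QW (T v) = QW v) ∧ T ^ r = 1 ∧
        T.charpoly = g := by
  obtain ⟨W, i1, i2, i3, B, T, m', hm', hB, hT, hTm, hχ⟩ :=
    rlz_of_star p (sys_sp (F := F)) (fun _ => rfl) _ g rfl hm hstar (fun _ => ⟨hd, hc⟩)
  have hR0 : (X ^ r - 1 : F[X]) ≠ 0 := by
    have := (monic_X_pow_sub_C (1 : F) hr.ne_zero).ne_zero
    simpa using this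
  have h1 := lin_aeval_of_factors T m' hm' hTm _ hR0 (by rw [hχ]; exact hfac)
  have h2 : T ^ r = 1 := by
    simp only [map_sub, map_pow, aeval_X, map_one, sub_eq_zero] at h1
    exact h1
  have hodd : Odd r := hr.odd_of_ne_two hr2
  obtain ⟨Q, hQ, hQT⟩ := exists_quad_of_alt B hB T hT r hodd h2 (free_of_coprime T (by rw [hχ]; exact hco))
  exact ⟨W, i1, i2, i3, Q, T, hQ, hQT, h2, hχ⟩

end Model

section Zeros

variable [Fintype F] [FiniteDimensional F V]

lemma card_zeros_congr {W : Type*} [AddCommGroup W] [Module F W] (Q : QuadraticForm F V) (Q' : W → F) (θ : V ≃ₗ[F] W)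
    (hθ : ∀ v, Q' (θ v) = Q v) : Nat.card {v : V // Q v = 0} = Nat.card {v : W // Q' v = 0} := by
  apply Nat.card_congr
  exact θ.toEquiv.subtypeEquiv (fun v => by
    show Q v = 0 ↔ Q' (θ v) = 0
    rw [hθ])

/-- A fixed-point-free isometry of prime order on a plus space. -/
theorem zeros_plus (r : ℕ) [Fact r.Prime] (Q : QuadraticForm F V) (w : ℕ) (θ : V ≃ₗ[F] (Fin (w + 1) ⊕ Fin (w + 1) → F))
    (hθ : ∀ v, Cfsg.quadFormPlus (w + 1) F (θ v) = Q v) (T : V →ₗ[F] V) (hT : ∀ v, Q (T v) = Q v) (hTr : T ^ r = 1)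
    (hfree : ∀ v, T v = v → v = 0) :
    (((Fintype.card F : ℕ) : ZMod r) ^ (w + 1) - 1) * (((Fintype.card F : ℕ) : ZMod r) ^ w + 1) = 0 := by
  have h1 := card_zeros_modEq Q T hT r hTr hfree
  have h2 := card_zeros_congr Q (Cfsg.quadFormPlus (w + 1) F) θ hθ
  have h3 := Classical.Abs.Qplus_zeros (F := F) w
  have h4 : Nat.card {v : Fin (w + 1) ⊕ Fin (w + 1) → F // Classical.Abs.Qplus (w + 1) F v = 0} =
      Nat.card {v : Fin (w + 1) ⊕ Fin (w + 1) → F // Cfsg.quadFormPlus (w + 1) F v = 0} := by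
    apply Nat.card_congr
    exact Equiv.subtypeEquivRight (fun v => by rw [Classical.Abs.Qplus_apply])
  rw [h4, ← h2] at h3
  have h5 := (ZMod.natCast_eq_natCast_iff _ _ _).2 h1
  have h6 := congrArg (Nat.cast : ℕ → ZMod r) h3
  push_cast at h5 h6
  rw [h5] at h6
  linear_combination (-1 : ZMod r) * h6 + 0 * h5

/-- A fixed-point-free isometry of prime order on a minus space. -/
theorem zeros_minus (r : ℕ) [Fact r.Prime] (Q : QuadraticForm F V) (w : ℕ) (a c : F)
    (hab : ∀ z₁ z₂ : F, z₁ ^ 2 + a * z₁ * z₂ + c * z₂ ^ 2 = 0 → z₁ = 0 ∧ z₂ = 0)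
    (θ : V ≃ₗ[F] ((Fin w ⊕ Fin w) ⊕ Fin 2 → F))
    (hθ : ∀ v, Cfsg.quadFormMinus w F a c (θ v) = Q v) (T : V →ₗ[F] V) (hT : ∀ v, Q (T v) = Q v) (hTr : T ^ r = 1)
    (hfree : ∀ v, T v = v → v = 0) :
    (((Fintype.card F : ℕ) : ZMod r) ^ (w + 1) + 1) * (((Fintype.card F : ℕ) : ZMod r) ^ w - 1) = 0 := by
  have h1 := card_zeros_modEq Q T hT r hTr hfree
  have h2 := card_zeros_congr Q (Cfsg.quadFormMinus w F a c) θ hθ
  have h3 := Classical.Abs.Qminus_zeros (F := F) hab w
  have h4 : Nat.card {v : (Fin w ⊕ Fin w) ⊕ Fin 2 → F // Classical.Abs.Qminus w F a c v = 0} =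
      Nat.card {v : (Fin w ⊕ Fin w) ⊕ Fin 2 → F // Cfsg.quadFormMinus w F a c v = 0} := by
    apply Nat.card_congr
    exact Equiv.subtypeEquivRight (fun v => by rw [Classical.Abs.Qminus_apply])
  rw [h4, ← h2] at h3
  have h5 := (ZMod.natCast_eq_natCast_iff _ _ _).2 h1
  have h6 := congrArg (Nat.cast : ℕ → ZMod r) h3
  push_cast at h5 h6
  rw [h5] at h6
  linear_combination (-1 : ZMod r) * h6 + 0 * h5

/-- Elements of a field cancel. -/
lemma one_of_pow_eq {K : Type*} [Field K] (x : K) (hx : x ≠ 0) (w : ℕ) (a : K) (ha : a ≠ 0) (h1 : x ^ (w + 1) = a)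
    (h2 : x ^ w = a) : x = 1 := by
  have h3 : x ^ w * x = x ^ w * 1 := by
    rw [← pow_succ, h1, h2, mul_one]
  exact mul_left_cancel₀ (by rw [h2]; exact ha) h3

/-- The parity of the number of elliptic blocks on a plus space. -/
theorem parity_plus (r : ℕ) (hr : r.Prime) (hr2 : r ≠ 2) (k : ℕ) (hcop : (Fintype.card F).Coprime r)
    (hk : orderOf ((Fintype.card F : ℕ) : ZMod r) = 2 * k) (hk0 : 0 < k)
    (Q : QuadraticForm F V) (s w : ℕ) (hw : w + 1 = k * s) (θ : V ≃ₗ[F] (Fin (w + 1) ⊕ Fin (w + 1) → F))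
    (hθ : ∀ v, Cfsg.quadFormPlus (w + 1) F (θ v) = Q v) (T : V →ₗ[F] V) (hT : ∀ v, Q (T v) = Q v) (hTr : T ^ r = 1)
    (hfree : ∀ v, T v = v → v = 0) : Even s := by
  haveI : Fact r.Prime := ⟨hr⟩
  have h1 := zeros_plus r Q w θ hθ T hT hTr hfree
  have h2 := pow_half_eq_neg_one hr hcop hk
  set x := ((Fintype.card F : ℕ) : ZMod r) with hx
  by_contra hodd
  have hodd' : Odd s := Nat.not_even_iff_odd.1 hodd
  have h3 : x ^ (w + 1) = -1 := by
    rw [hw, pow_mul, h2, hodd'.neg_one_pow]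
  have hne : (-1 : ZMod r) ≠ 1 := neg_one_ne_one_zmod hr hr2
  have h2' : (-1 - 1 : ZMod r) ≠ 0 := by
    intro h
    exact hne (sub_eq_zero.1 h)
  rw [h3] at h1
  have h4 : x ^ w + 1 = 0 := (mul_eq_zero.1 h1).resolve_left h2'
  have hx0 : x ≠ 0 := by
    intro h0
    rw [h0, zero_pow (by omega)] at h2
    exact one_ne_zero (neg_eq_zero.1 h2.symm)
  have h5 := one_of_pow_eq x hx0 w (-1) (by simp) h3 (eq_neg_of_add_eq_zero_left h4)
  have h6 : orderOf x = 1 := by rw [h5]; exact orderOf_one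
  rw [h6] at hk
  omega

/-- The parity of the number of elliptic blocks on a minus space. -/
theorem parity_minus (r : ℕ) (hr : r.Prime) (hr2 : r ≠ 2) (k : ℕ) (hcop : (Fintype.card F).Coprime r)
    (hk : orderOf ((Fintype.card F : ℕ) : ZMod r) = 2 * k) (hk0 : 0 < k)
    (Q : QuadraticForm F V) (s w : ℕ) (hw : w + 1 = k * s) (a c : F)
    (hab : ∀ z₁ z₂ : F, z₁ ^ 2 + a * z₁ * z₂ + c * z₂ ^ 2 = 0 → z₁ = 0 ∧ z₂ = 0)
    (θ : V ≃ₗ[F] ((Fin w ⊕ Fin w) ⊕ Fin 2 → F))
    (hθ : ∀ v, Cfsg.quadFormMinus w F a c (θ v) = Q v) (T : V →ₗ[F] V) (hT : ∀ v, Q (T v) = Q v) (hTr : T ^ r = 1)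
    (hfree : ∀ v, T v = v → v = 0) : Odd s := by
  haveI : Fact r.Prime := ⟨hr⟩
  have h1 := zeros_minus r Q w a c hab θ hθ T hT hTr hfree
  have h2 := pow_half_eq_neg_one hr hcop hk
  set x := ((Fintype.card F : ℕ) : ZMod r) with hx
  by_contra heven
  have heven' : Even s := Nat.not_odd_iff_even.1 heven
  have h3 : x ^ (w + 1) = 1 := by
    rw [hw, pow_mul, h2, heven'.neg_one_pow]
  have hne : (-1 : ZMod r) ≠ 1 := neg_one_ne_one_zmod hr hr2
  have h2' : (1 + 1 : ZMod r) ≠ 0 := by
    intro h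
    exact hne (eq_neg_of_add_eq_zero_left h).symm
  rw [h3] at h1
  have h4 : x ^ w - 1 = 0 := (mul_eq_zero.1 h1).resolve_left h2'
  have hx0 : x ≠ 0 := by
    intro h0
    rw [h0, zero_pow (by omega)] at h2
    exact one_ne_zero (neg_eq_zero.1 h2.symm)
  have h5 := one_of_pow_eq x hx0 w 1 one_ne_zero h3 (sub_eq_zero.1 h4)
  have h6 : orderOf x = 1 := by rw [h5]; exact orderOf_one
  rw [h6] at hk
  omega

end Zeros

section Split

variable [FiniteDimensional F V] (Q : QuadraticForm F V) (T : V →ₗ[F] V) (hT : ∀ v, Q (T v) = Q v)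

include hT in
lemma polar_pow (j : ℕ) (x y : V) : P Q ((T ^ j) x) ((T ^ j) y) = P Q x y := by
  induction j generalizing x y with
  | zero => simp
  | succ j ih =>
    rw [pow_succ, Module.End.mul_apply, Module.End.mul_apply, ih]
    exact polar_pres Q T hT x y

include hT in
/-- The adjoint of a polynomial in `T` is the reciprocal polynomial. -/
lemma polar_aeval_reflect (n : ℕ) (f : F[X]) (hf : f.natDegree ≤ n) (x y : V) :
    P Q (aeval T f x) ((T ^ n) y) = P Q x (aeval T (reflect n f) y) := by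
  classical
  have hf' : f = ∑ j ∈ Finset.range (n + 1), monomial j (f.coeff j) :=
    as_sum_range' f (n + 1) (by omega)
  have hstep : ∀ j ∈ Finset.range (n + 1), ∀ a : F,
      P Q (aeval T (monomial j a) x) ((T ^ n) y) = P Q x (aeval T (reflect n (monomial j a)) y) := by
    intro j hj a
    have hj' : j ≤ n := by
      have := Finset.mem_range.1 hj
      omega
    have h1 : reflect n (monomial j a) = monomial (n - j) a := by
      rw [← C_mul_X_pow_eq_monomial, ← C_mul_X_pow_eq_monomial, reflect_C_mul_X_pow]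
      congr 2
      exact Polynomial.revAt_le hj'
    rw [h1, aeval_monomial, aeval_monomial]
    simp only [Module.algebraMap_end_apply, Module.End.mul_apply]
    have h2 : (T ^ n) y = (T ^ j) ((T ^ (n - j)) y) := by
      rw [← Module.End.mul_apply, ← pow_add]
      congr 2
      omega
    rw [h2, map_smul, LinearMap.smul_apply, polar_pow Q T hT, map_smul]
  have key : ∀ S : Finset ℕ, S ⊆ Finset.range (n + 1) →
      P Q (aeval T (∑ j ∈ S, monomial j (f.coeff j)) x) ((T ^ n) y) =
        P Q x (aeval T (reflect n (∑ j ∈ S, monomial j (f.coeff j))) y) := by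
    intro S
    induction S using Finset.induction_on with
    | empty =>
      intro _
      simp
    | insert j S hj ih =>
      intro hS
      rw [Finset.sum_insert hj, map_add, reflect_add, map_add, LinearMap.add_apply, map_add, LinearMap.add_apply,
        LinearMap.add_apply, map_add, hstep j (hS (Finset.mem_insert_self j S)),
        ih ((Finset.subset_insert j S).trans hS)]
  rw [hf']
  exact key (Finset.range (n + 1)) subset_rfl

include hT in
/-- On the kernel of `f₁` the polar form vanishes. -/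
lemma polar_ker (f₁ : F[X]) (hco : IsCoprime f₁ (pstar (RingHom.id F) f₁)) (x y : V) (hx : aeval T f₁ x = 0)
    (hy : aeval T f₁ y = 0) : P Q x y = 0 := by
  obtain ⟨a, b, hab⟩ := hco
  have h1 : y = aeval T (pstar (RingHom.id F) f₁) (aeval T b y) := by
    have h3 : aeval T (b * pstar (RingHom.id F) f₁) y = aeval T (pstar (RingHom.id F) f₁ * b) y := by
      rw [mul_comm]
    simp only [map_mul, Module.End.mul_apply] at h3
    have h2 := congrArg (fun f => aeval T f y) hab
    simp only [map_add, map_mul, map_one, LinearMap.add_apply, Module.End.mul_apply, Module.End.one_apply] at h2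
    rw [hy, map_zero, zero_add, h3] at h2
    exact h2.symm
  rw [h1]
  simp only [pstar, Polynomial.map_id, RingHom.id_apply, map_mul, aeval_C, Module.End.mul_apply,
    Module.algebraMap_end_apply, map_smul]
  have h4 := polar_aeval_reflect Q T hT f₁.natDegree f₁ le_rfl x (aeval T b y)
  rw [hx, map_zero, LinearMap.zero_apply] at h4
  have h5 : P Q x (aeval T (reverse f₁) (aeval T b y)) = 0 := h4.symm
  rw [h5, smul_zero]

include hT in
/-- The kernel of `f₁` is totally singular. -/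
lemma singular_ker (f₁ : F[X]) (hco : IsCoprime f₁ (pstar (RingHom.id F) f₁)) (hcox : IsCoprime f₁ (X - 1)) (x : V)
    (hx : aeval T f₁ x = 0) : Q x = 0 := by
  obtain ⟨a, b, hab⟩ := hcox
  set y := aeval T b x with hy
  have hcomm : ∀ (u v : F[X]) (z : V), aeval T u (aeval T v z) = aeval T v (aeval T u z) := by
    intro u v z
    have h3 : aeval T (u * v) z = aeval T (v * u) z := by
      rw [mul_comm]
    simpa only [map_mul, Module.End.mul_apply] using h3
  have h1 : x = T y - y := by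
    have h2 := congrArg (fun f => aeval T f x) hab
    simp only [map_add, map_mul, map_one, LinearMap.add_apply, Module.End.mul_apply, Module.End.one_apply] at h2
    rw [hx, map_zero, zero_add, hcomm b, ← hy] at h2
    rw [← h2]
    simp
  have hyker : aeval T f₁ y = 0 := by
    rw [hy, hcomm, hx, map_zero]
  have hTyker : aeval T f₁ (T y) = 0 := by
    have := hcomm f₁ X y
    simp only [aeval_X] at this
    rw [this, hyker, map_zero]
  have hxx : P Q x x = 0 := polar_ker Q T hT f₁ hco x x hx hx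
  by_cases h2 : (2 : F) = 0
  · have h3 : Q x = Q (T y) + Q (-y) + P Q (T y) (-y) := by
      rw [h1, sub_eq_add_neg]
      exact Cfsg.Agent.Lib.Classical.Witt.Q_add Q _ _
    rw [QuadraticMap.map_neg, hT, map_neg, polar_ker Q T hT f₁ hco _ _ hTyker hyker, neg_zero, add_zero, ← two_mul, h2,
      zero_mul] at h3
    exact h3
  · rw [Cfsg.Agent.Lib.Classical.Witt.pol_self] at hxx
    exact (mul_eq_zero.1 hxx).resolve_left h2

/-- There is no fixed-point-free dual pair on a minus space. -/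
theorem not_minus_of_pair (f₁ : F[X]) (hm : f₁.Monic) (h0 : f₁.coeff 0 ≠ 0) (hχ : T.charpoly = f₁ * pstar (RingHom.id F) f₁)
    (hco : IsCoprime f₁ (pstar (RingHom.id F) f₁)) (hcox : IsCoprime f₁ (X - 1))
    (hcox' : IsCoprime (pstar (RingHom.id F) f₁) (X - 1))
    (hT : ∀ v, Q (T v) = Q v)
    (w : ℕ) (a c : F) (hab : ∀ z₁ z₂ : F, z₁ ^ 2 + a * z₁ * z₂ + c * z₂ ^ 2 = 0 → z₁ = 0 ∧ z₂ = 0)
    (θ : V ≃ₗ[F] ((Fin w ⊕ Fin w) ⊕ Fin 2 → F)) (hθ : ∀ v, Cfsg.quadFormMinus w F a c (θ v) = Q v) : False := by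
  classical
  have hsup : LinearMap.ker (aeval T f₁) ⊔ LinearMap.ker (aeval T (pstar (RingHom.id F) f₁)) = ⊤ := by
    rw [sup_ker_aeval_eq_ker_aeval_mul_of_coprime T hco, ← hχ, LinearMap.aeval_self_charpoly, LinearMap.ker_zero]
  have hpp : pstar (RingHom.id F) (pstar (RingHom.id F) f₁) = f₁ := pstar_pstar _ (fun _ => rfl) hm h0
  have hd : ∀ U : Submodule F V, (∀ u ∈ U, Q u = 0) → Module.finrank F U ≤ w := by
    intro U hU
    have h1 := Cfsg.Agent.Lib.Known3.Witt.finrank_le_of_singular_minus w a c hab (U.map (θ : V →ₗ[F] _)) (by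
      rintro _ ⟨u, hu, rfl⟩
      change Cfsg.quadFormMinus w F a c (θ u) = 0
      rw [hθ, hU u hu])
    rwa [LinearEquiv.finrank_map_eq] at h1
  have h1 := hd _ (fun u hu => singular_ker Q T hT f₁ hco hcox u (LinearMap.mem_ker.1 hu))
  have h2 := hd _ (fun u hu => singular_ker Q T hT (pstar (RingHom.id F) f₁) (by rw [hpp]; exact hco.symm) hcox' u
    (LinearMap.mem_ker.1 hu))
  have h3 := Submodule.finrank_add_le_finrank_add_finrank (LinearMap.ker (aeval T f₁))
    (LinearMap.ker (aeval T (pstar (RingHom.id F) f₁)))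
  rw [hsup, finrank_top, θ.finrank_eq] at h3
  simp only [Module.finrank_fintype_fun_eq_card, Fintype.card_sum, Fintype.card_fin] at h3
  omega

end Split

end Cfsg.Agent.Lib.PrimeCl
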