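import Mathlib
import Cfsg.Agent.Lib.Classical.QuadConcrete
import Cfsg.Agent.Lib.AutPO.LangPlus

/-!
Isometric embeddings between the concrete quadratic spaces.
-/

set_option autoImplicit false
set_option linter.unusedSimpArgs false
set_option linter.unusedVariables false
set_option linter.deprecated false
set_option linter.unusedSectionVars false

universe u

namespace Cfsg.Agent.Lib.PrimeCl

open Cfsg.Agent.Lib.Classical.Abs

variable {F : Type u} [Field F]

/-- Isometric embedding. -/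
def QEmb {V W : Type*} [AddCommGroup V] [Module F V] [AddCommGroup W] [Module F W] (Q₁ : V → F) (Q₂ : W → F) : Prop :=
  ∃ ι : V →ₗ[F] W, ∀ x, Q₂ (ι x) = Q₁ x

variable {V : Type*} [AddCommGroup V] [Module F V] (Q : V → F)

lemma QEmb.plus_step {m : ℕ} (h : QEmb Q (Qplus m F)) : QEmb Q (Qplus (m + 1) F) := by
  obtain ⟨ι, hι⟩ := h
  refine ⟨(Eplus m F).toLinearMap ∘ₗ (LinearMap.inr F (F × F) _) ∘ₗ ι, fun x => ?_⟩
  show Qplus (m + 1) F (Eplus m F ((0, 0), ι x)) = _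
  rw [Qplus_E, hι]
  simp

lemma QEmb.odd_step {m : ℕ} (h : QEmb Q (Qodd m F)) : QEmb Q (Qodd (m + 1) F) := by
  obtain ⟨ι, hι⟩ := h
  refine ⟨(Eodd m F).toLinearMap ∘ₗ (LinearMap.inr F (F × F) _) ∘ₗ ι, fun x => ?_⟩
  show Qodd (m + 1) F (Eodd m F ((0, 0), ι x)) = _
  rw [Qodd_E, hι]
  simp

lemma QEmb.minus_step {m : ℕ} {c d : F} (h : QEmb Q (Qminus m F c d)) : QEmb Q (Qminus (m + 1) F c d) := by
  obtain ⟨ι, hι⟩ := h
  refine ⟨(Eminus m F).toLinearMap ∘ₗ (LinearMap.inr F (F × F) _) ∘ₗ ι, fun x => ?_⟩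
  show Qminus (m + 1) F c d (Eminus m F ((0, 0), ι x)) = _
  rw [Qminus_E, hι]
  simp

lemma QEmb.plus_le {w m : ℕ} (h : QEmb Q (Qplus w F)) (hw : w ≤ m) : QEmb Q (Qplus m F) := by
  induction m, hw using Nat.le_induction with
  | base => exact h
  | succ m _ ih => exact ih.plus_step

lemma QEmb.odd_le {w m : ℕ} (h : QEmb Q (Qodd w F)) (hw : w ≤ m) : QEmb Q (Qodd m F) := by
  induction m, hw using Nat.le_induction with
  | base => exact h
  | succ m _ ih => exact ih.odd_step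

lemma QEmb.minus_le {w m : ℕ} {c d : F} (h : QEmb Q (Qminus w F c d)) (hw : w ≤ m) : QEmb Q (Qminus m F c d) := by
  induction m, hw using Nat.le_induction with
  | base => exact h
  | succ m _ ih => exact ih.minus_step

/-- Plus into plus. -/
lemma emb_plus_plus {w m : ℕ} (hw : w ≤ m) : QEmb (Qplus w F) (Qplus m F) :=
  QEmb.plus_le (F := F) _ ⟨LinearMap.id, fun _ => rfl⟩ hw

/-- Plus into minus. -/
lemma emb_plus_minus {w m : ℕ} (hw : w ≤ m) (c d : F) : QEmb (Qplus w F) (Qminus m F c d) := by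
  refine QEmb.minus_le (F := F) _ (w := w) ?_ hw
  refine ⟨{ toFun := fun x => Sum.elim x 0, map_add' := ?_, map_smul' := ?_ }, fun x => ?_⟩
  · intro a b
    funext i
    rcases i with i | i <;> simp
  · intro c a
    funext i
    rcases i with i | i <;> simp
  · rw [Qminus_apply, Qplus_apply]
    simp [Cfsg.quadFormMinus, Cfsg.quadFormPlus]

/-- Plus into odd. -/
lemma emb_plus_odd {w m : ℕ} (hw : w ≤ m) : QEmb (Qplus w F) (Qodd m F) := by
  refine QEmb.odd_le (F := F) _ (w := w) ?_ hw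
  refine ⟨{ toFun := fun x => Sum.elim 0 x, map_add' := ?_, map_smul' := ?_ }, fun x => ?_⟩
  · intro a b
    funext i
    rcases i with i | i <;> simp
  · intro c a
    funext i
    rcases i with i | i <;> simp
  · rw [Qodd_apply, Qplus_apply]
    simp [Cfsg.quadFormOdd, Cfsg.quadFormPlus]

/-- Minus into odd. -/
lemma emb_minus_odd {w m : ℕ} (hw : w + 1 ≤ m) (c d : F) : QEmb (Qminus w F c d) (Qodd m F) := by
  refine QEmb.odd_le (F := F) _ (w := w + 1) ?_ hw
  let φ : ((Fin w ⊕ Fin w) ⊕ Fin 2 → F) →ₗ[F] ((F × F) × (Unit ⊕ (Fin w ⊕ Fin w) → F)) :=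
    { toFun := fun x => ((x (Sum.inr 1), c * x (Sum.inr 0) + d * x (Sum.inr 1)),
        Sum.elim (fun _ => x (Sum.inr 0)) (fun j => x (Sum.inl j)))
      map_add' := by
        intro a b
        ext i
        · simp
        · simp
          ring
        · rcases i with i | i <;> simp
      map_smul' := by
        intro e a
        ext i
        · simp
        · simp
          ring
        · rcases i with i | i <;> simp }
  refine ⟨(Eodd w F).toLinearMap ∘ₗ φ, fun x => ?_⟩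
  show Qodd (w + 1) F (Eodd w F (φ x)) = _
  have h1 : φ x = ((x (Sum.inr 1), c * x (Sum.inr 0) + d * x (Sum.inr 1)),
        Sum.elim (fun _ => x (Sum.inr 0)) (fun j => x (Sum.inl j))) := rfl
  rw [h1, Qodd_E, Qodd_apply, Qminus_apply]
  simp [Cfsg.quadFormOdd, Cfsg.quadFormMinus]
  ring

/-- Minus into plus. -/
lemma emb_minus_plus {w m : ℕ} (hw : w + 2 ≤ m) (c d : F) : QEmb (Qminus w F c d) (Qplus m F) := by
  refine QEmb.plus_le (F := F) _ (w := w + 2) ?_ hw
  let φ : ((Fin w ⊕ Fin w) ⊕ Fin 2 → F) →ₗ[F] (F × F) × (Fin (w + 1) ⊕ Fin (w + 1) → F) :=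
    ((LinearMap.prod ((LinearMap.proj (Sum.inr 0)).prod (LinearMap.proj (Sum.inr 0) + c • LinearMap.proj (Sum.inr 1)))
      ((Eplus w F).toLinearMap ∘ₗ
        (LinearMap.prod ((LinearMap.proj (Sum.inr 1)).prod (d • LinearMap.proj (Sum.inr 1)))
          (LinearMap.funLeft F F Sum.inl)))))
  refine ⟨(Eplus (w + 1) F).toLinearMap ∘ₗ φ, fun x => ?_⟩
  show Qplus (w + 1 + 1) F (Eplus (w + 1) F (φ x)) = _
  have h1 : φ x = ((x (Sum.inr 0), x (Sum.inr 0) + c * x (Sum.inr 1)),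
      Eplus w F ((x (Sum.inr 1), d * x (Sum.inr 1)), fun j => x (Sum.inl j))) := rfl
  rw [h1, Qplus_E, Qplus_E, Qplus_apply, Qminus_apply]
  simp [Cfsg.quadFormPlus, Cfsg.quadFormMinus]
  ring

/-- Minus into minus. -/
lemma emb_minus_minus [Fintype F] {w m : ℕ} (hw : w ≤ m) (c d a b : F)
    (hcd : ∀ z₁ z₂ : F, z₁ ^ 2 + c * z₁ * z₂ + d * z₂ ^ 2 = 0 → z₁ = 0 ∧ z₂ = 0)
    (hab : ∀ z₁ z₂ : F, z₁ ^ 2 + a * z₁ * z₂ + b * z₂ ^ 2 = 0 → z₁ = 0 ∧ z₂ = 0) :
    QEmb (Qminus w F c d) (Qminus m F a b) := by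
  refine QEmb.minus_le (F := F) _ (w := w) ?_ hw
  obtain ⟨e, he⟩ := Cfsg.Agent.Lib.AutPO.minus_isometric w c d a b hcd hab
  refine ⟨e.toLinearMap, fun x => ?_⟩
  show Qminus w F a b (e x) = _
  rw [Qminus_apply, Qminus_apply, he]

end Cfsg.Agent.Lib.PrimeCl
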