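import Mathlib
import Cfsg.Agent.Lib.PrimeCl.Orth2
import Cfsg.Agent.Lib.PrimeCl.Orth3
import Cfsg.Agent.Lib.KS2.IsoCount

/-!
Classes of odd prime order in an isometry group of a quadratic form: reduction to the set of
realized characteristic polynomials.
-/

set_option autoImplicit false
set_option linter.unusedSimpArgs false
set_option linter.unusedVariables false
set_option linter.deprecated false
set_option linter.unusedSectionVars false

universe u

namespace Cfsg.Agent.Lib.PrimeCl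

open Polynomial Cfsg.Agent.Lib.KS2.IsoCl

variable {F : Type u} [Field F] [Fintype F] {p : ℕ} [hpf : Fact p.Prime] [CharP F p]

local notation "P" => QuadraticMap.polarBilin

section Wrap

variable {ι₀ : Type} [Fintype ι₀] [DecidableEq ι₀]

/-- The realized characteristic polynomials. -/
def rzSet (Q : QuadraticForm F (ι₀ → F)) (r : ℕ) : Set F[X] :=
  {f | ∃ A : (ι₀ → F) →ₗ[F] (ι₀ → F), (∀ v, Q (A v) = Q v) ∧ A ^ r = 1 ∧ A ≠ 1 ∧ A.charpoly = f}

include p in
theorem card_classes_rz (Q : QuadraticForm F (ι₀ → F)) (hQ : (P Q).Nondegenerate) (r : ℕ) (hr : r.Prime) (hr2 : r ≠ 2)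
    (hrp : r ≠ p) :
    Nat.card {C : ConjClasses ↥(Cfsg.isometryGroup F ⇑Q) //
      ∃ g : ↥(Cfsg.isometryGroup F ⇑Q), ConjClasses.mk g = C ∧ orderOf g = r} = Nat.card (rzSet Q r) := by
  classical
  haveI : Fact r.Prime := ⟨hr⟩
  have hodd : Odd r := hr.odd_of_ne_two hr2
  have hcop : r.Coprime p := (Nat.coprime_primes hr Fact.out).2 hrp
  have hrF : (r : F) ≠ 0 := KS2.SSConj.cast_ne_zero_of_coprime (p := p) hcop (Or.inr trivial)
  have hmem : ∀ g : ↥(Cfsg.isometryGroup F ⇑Q), ∀ u, Q (Matrix.toLin' g.1.1 u) = Q u := by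
    intro g u
    rw [Matrix.toLin'_apply]
    exact g.2 u u
  have hpow : ∀ g : ↥(Cfsg.isometryGroup F ⇑Q), orderOf g = r → (Matrix.toLin' g.1.1) ^ r = 1 := by
    intro g hg
    rw [← Matrix.toLin'_pow]
    have h5 : g ^ r = 1 := by rw [← hg]; exact pow_orderOf_eq_one g
    have h6 : (g.1.1 : Matrix ι₀ ι₀ F) ^ r = 1 := by
      have := congrArg (fun x : ↥(Cfsg.isometryGroup F ⇑Q) => (x.1.1 : Matrix ι₀ ι₀ F)) h5
      simpa using this
    rw [h6, Matrix.toLin'_one]
    rfl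
  apply card_classes_eq (fun g : ↥(Cfsg.isometryGroup F ⇑Q) => orderOf g = r)
      (fun g => (g.1.1 : Matrix ι₀ ι₀ F).charpoly)
  · intro g h hgh
    obtain ⟨c, hc⟩ := isConj_iff.1 hgh
    rw [← hc]
    show _ = ((c * g * c⁻¹).1.1 : Matrix ι₀ ι₀ F).charpoly
    have h1 : ((c * g * c⁻¹).1.1 : Matrix ι₀ ι₀ F) = (c.1.1 * g.1.1) * (c⁻¹).1.1 := rfl
    have h2 : ((c⁻¹).1.1 : Matrix ι₀ ι₀ F) * c.1.1 = 1 := by
      have := congrArg (fun x : ↥(Cfsg.isometryGroup F ⇑Q) => (x.1.1 : Matrix ι₀ ι₀ F)) (inv_mul_cancel c)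
      simpa using this
    rw [h1, Matrix.charpoly_mul_comm, ← mul_assoc, h2, one_mul]
  · intro g h hg hh hc
    obtain ⟨e, he1, he2⟩ := quad_conj_charpoly Q hQ (Matrix.toLin' g.1.1) (Matrix.toLin' h.1.1) (hmem g) (hmem h) r hrF hodd
      (hpow g hg) (hpow h hh) (by rw [Matrix.charpoly_toLin', Matrix.charpoly_toLin']; exact hc)
    let φ := LinearMap.toMatrixAlgEquiv' (R := F) (n := ι₀)
    let M : Matrix.GeneralLinearGroup ι₀ F :=
      ⟨φ e.toLinearMap, φ e.symm.toLinearMap, by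
        rw [← map_mul, ← map_one φ]
        congr 1
        ext v
        simp, by
        rw [← map_mul, ← map_one φ]
        congr 1
        ext v
        simp⟩
    have hMv : ∀ v, (M.1 : Matrix ι₀ ι₀ F).mulVec v = e v := fun v => LinearMap.toMatrix'_mulVec _ v
    have hMmem : M ∈ Cfsg.isometryGroup F ⇑Q := by
      intro u v
      show Q ((M.1 : Matrix ι₀ ι₀ F).mulVec u) = Q u
      rw [hMv, he1]
    refine isConj_iff.2 ⟨⟨M, hMmem⟩, ?_⟩
    apply mul_inv_eq_iff_eq_mul.2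
    apply Subtype.ext
    apply Units.ext
    apply Matrix.toLin'.injective
    refine LinearMap.ext fun v => ?_
    show Matrix.toLin' ((M.1 : Matrix ι₀ ι₀ F) * g.1.1) v = Matrix.toLin' ((h.1.1 : Matrix ι₀ ι₀ F) * M.1) v
    rw [Matrix.toLin'_mul, Matrix.toLin'_mul, LinearMap.comp_apply, LinearMap.comp_apply]
    rw [Matrix.toLin'_apply (M.1 : Matrix ι₀ ι₀ F), Matrix.toLin'_apply (M.1 : Matrix ι₀ ι₀ F), hMv, hMv, he2]
  · intro g hg
    refine ⟨Matrix.toLin' g.1.1, hmem g, hpow g hg, ?_, Matrix.charpoly_toLin' _⟩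
    intro h1
    have h2 : (g.1.1 : Matrix ι₀ ι₀ F) = 1 := by
      apply Matrix.toLin'.injective
      rw [h1, Matrix.toLin'_one]
      rfl
    have h3 : g = 1 := by
      apply Subtype.ext
      apply Units.ext
      exact h2
    rw [h3, orderOf_one] at hg
    exact hr.one_lt.ne hg
  · rintro f ⟨A, hA1, hA2, hA3, rfl⟩
    let φ := LinearMap.toMatrixAlgEquiv' (R := F) (n := ι₀)
    have hA4 : A * A ^ (r - 1) = 1 := by
      rw [← pow_succ', Nat.sub_add_cancel hr.one_lt.le, hA2]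
    have hA5 : A ^ (r - 1) * A = 1 := by
      rw [← pow_succ, Nat.sub_add_cancel hr.one_lt.le, hA2]
    let M : Matrix.GeneralLinearGroup ι₀ F :=
      ⟨φ A, φ (A ^ (r - 1)), by rw [← map_mul, hA4, map_one], by rw [← map_mul, hA5, map_one]⟩
    have hMv : ∀ v, (M.1 : Matrix ι₀ ι₀ F).mulVec v = A v := fun v => LinearMap.toMatrix'_mulVec _ v
    have hMmem : M ∈ Cfsg.isometryGroup F ⇑Q := by
      intro u v
      show Q ((M.1 : Matrix ι₀ ι₀ F).mulVec u) = Q u
      rw [hMv, hA1]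
    have hlin : Matrix.toLin' (M.1 : Matrix ι₀ ι₀ F) = A := Matrix.toLin'_toMatrix' A
    refine ⟨⟨M, hMmem⟩, ?_, ?_⟩
    · refine orderOf_eq_prime ?_ ?_
      · apply Subtype.ext
        apply Units.ext
        apply Matrix.toLin'.injective
        show Matrix.toLin' ((M.1 : Matrix ι₀ ι₀ F) ^ r) = Matrix.toLin' 1
        rw [Matrix.toLin'_pow, hlin, hA2, Matrix.toLin'_one]
        rfl
      · intro h0
        apply hA3
        rw [← hlin]
        have h1 : (M.1 : Matrix ι₀ ι₀ F) = 1 := by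
          have := congrArg (fun x : ↥(Cfsg.isometryGroup F ⇑Q) => (x.1.1 : Matrix ι₀ ι₀ F)) h0
          simpa using this
        rw [h1, Matrix.toLin'_one]
        rfl
    · show (M.1 : Matrix ι₀ ι₀ F).charpoly = _
      rw [← Matrix.charpoly_toLin', hlin]

include p in
/-- The realized polynomials lie in the star set. -/
theorem rz_subset (Q : QuadraticForm F (ι₀ → F)) (hQ : (P Q).Nondegenerate) (r : ℕ) (hr : r.Prime) (hr2 : r ≠ 2)
    (hrp : r ≠ p) : rzSet Q r ⊆ starSet (RingHom.id F) r (Fintype.card ι₀) := by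
  classical
  rintro f ⟨A, hA1, hA2, hA3, rfl⟩
  have hcop : r.Coprime p := (Nat.coprime_primes hr Fact.out).2 hrp
  have hrF : (r : F) ≠ 0 := KS2.SSConj.cast_ne_zero_of_coprime (p := p) hcop (Or.inr trivial)
  have hdim : Module.finrank F (ι₀ → F) = Fintype.card ι₀ := Module.finrank_fintype_fun_eq_card F
  refine ⟨LinearMap.charpoly_monic _, ?_, isometry_star Q hQ A hA1 r hr.pos hA2, ?_, ?_⟩
  · rw [LinearMap.charpoly_natDegree, hdim]
  · intro π hπ hd
    have h1 : aeval (LinearMap.toMatrix' A) (X ^ r - 1 : F[X]) = 0 := by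
      have h2 : (LinearMap.toMatrix' A) ^ r = 1 := by
        have := congrArg (LinearMap.toMatrixAlgEquiv' (R := F) (n := ι₀)) hA2
        rwa [map_pow, map_one] at this
      simp [h2]
    refine irr_dvd_of_aeval_eq_zero _ _ _ hπ ?_ h1
    rw [← Matrix.charpoly_toLin', Matrix.toLin'_toMatrix']
    exact hd
  · intro hc
    obtain ⟨c, hc'⟩ := KS2.SSConj.conj_of_charpoly (F := F) (m := r) hrF _ (ι₀ → F) (ι₀ → F) A 1 rfl hA2 (one_pow r) (by
      rw [hc, LinearMap.charpoly_one, hdim])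
    apply hA3
    refine LinearMap.ext fun v => c.injective ?_
    rw [hc']
    rfl

end Wrap

end Cfsg.Agent.Lib.PrimeCl
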