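import Mathlib
import Cfsg.Agent.Lib.PrimeCl.Orth4
import Cfsg.Agent.Lib.PrimeCl.Sp

/-!
The block decomposition of realized polynomials.
-/

set_option autoImplicit false
set_option linter.unusedSimpArgs false
set_option linter.unusedVariables false
set_option linter.deprecated false
set_option linter.unusedSectionVars false

universe u

namespace Cfsg.Agent.Lib.PrimeCl

open Polynomial Cfsg.Agent.Lib.KS2.IsoCl Cfsg.Agent.Lib.Classical.Abs

variable {F : Type u} [Field F] [Fintype F] {p : ℕ} [hpf : Fact p.Prime] [CharP F p]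

local notation "P" => QuadraticMap.polarBilin

/-- Tuples of given total weight. -/
lemma card_tuples_eq (B : Type*) [Fintype B] [Nonempty B] (k : ℕ) :
    Nat.card {a : B → ℕ // ∑ b, a b = k} = Nat.choose (k + Fintype.card B - 1) (Fintype.card B - 1) := by
  classical
  have hB : 1 ≤ Fintype.card B := Fintype.card_pos
  rw [← Nat.card_congr (Sym.equivNatSumOfFintype B k), Nat.card_eq_fintype_card, Sym.card_sym_eq_choose]
  have h1 : Fintype.card B + k - 1 = k + Fintype.card B - 1 := by omega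
  rw [h1, ← Nat.choose_symm (by omega : k ≤ k + Fintype.card B - 1)]
  congr 1
  omega

/-- The hypotheses on a family of block polynomials. -/
structure Blocks (r d : ℕ) {B : Type*} [Fintype B] (Pb : B → F[X]) : Prop where
  monic : ∀ b, (Pb b).Monic
  deg : ∀ b, (Pb b).natDegree = d
  star : ∀ b, pstar (RingHom.id F) (Pb b) = Pb b
  fac : ∀ b π, Irreducible π → π ∣ Pb b → π ∣ X ^ r - 1
  cox : ∀ b, IsCoprime (Pb b) (X - 1)
  co : ∀ b c, b ≠ c → IsCoprime (Pb b) (Pb c)

section Count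

variable {r d : ℕ} {B : Type*} [Fintype B] {Pb : B → F[X]}

/-- The final count. -/
theorem count_rz [Nonempty B] (hB : Blocks r d Pb) (hd0 : 0 < d) (N : ℕ)
    (hX : ∀ f, f ∈ starSet (RingHom.id F) r N ↔ ∃ a : B → ℕ, d * ∑ b, a b ≤ N ∧ a ≠ (fun _ => 0) ∧ blk Pb N d a = f)
    (S : Set F[X]) (hS : S ⊆ starSet (RingHom.id F) r N) (c : Prop) [Decidable c] (hc : c → d ∣ N ∧ 0 < N)
    (h2 : ∀ a : B → ℕ, d * ∑ b, a b ≤ N → a ≠ (fun _ => 0) → (d * ∑ b, a b = N → ¬ c) → blk Pb N d a ∈ S)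
    (h3 : c → ∀ a : B → ℕ, d * ∑ b, a b = N → blk Pb N d a ∉ S) :
    Nat.card S = Nat.choose (N / d + Fintype.card B) (Fintype.card B) - 1 -
      (if c then Nat.choose (N / d + Fintype.card B - 1) (Fintype.card B - 1) else 0) := by
  classical
  by_cases hcc : c
  · rw [if_pos hcc]
    obtain ⟨⟨k, hk⟩, hN⟩ := hc hcc
    have hk0 : 0 < k := by
      rcases Nat.eq_zero_or_pos k with h | h
      · subst h
        omega
      · exact h
    have hNd : N / d = k := by
      rw [hk]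
      exact Nat.mul_div_cancel_left _ hd0
    have hcard := card_of_blk Pb N d hB.monic hB.deg hd0 hB.co hB.cox _ hX
    let A : Set (B → ℕ) := {a | ∑ b, a b = k}
    let Y : Set F[X] := blk Pb N d '' A
    have hAd : ∀ a ∈ A, d * ∑ b, a b = N := by
      intro a ha
      rw [show ∑ b, a b = k from ha, hk]
    have hA0 : ∀ a ∈ A, a ≠ (fun _ => 0) := by
      rintro a ha rfl
      have : ∑ b, (fun _ => 0 : B → ℕ) b = k := ha
      simp at this
      omega
    have hYX : Y ⊆ starSet (RingHom.id F) r N := by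
      rintro _ ⟨a, ha, rfl⟩
      exact (hX _).2 ⟨a, (hAd a ha).le, hA0 a ha, rfl⟩
    have hSeq : S = starSet (RingHom.id F) r N \ Y := by
      ext f
      constructor
      · intro hf
        refine ⟨hS hf, ?_⟩
        rintro ⟨a, ha, rfl⟩
        exact h3 hcc a (hAd a ha) hf
      · rintro ⟨hf, hfY⟩
        obtain ⟨a, ha1, ha2, rfl⟩ := (hX f).1 hf
        apply h2 a ha1 ha2
        intro ha3
        exfalso
        apply hfY
        refine ⟨a, ?_, rfl⟩
        show ∑ b, a b = k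
        rw [hk] at ha3
        exact Nat.eq_of_mul_eq_mul_left hd0 ha3
    have hYcard : Y.ncard = Nat.choose (k + Fintype.card B - 1) (Fintype.card B - 1) := by
      rw [Set.ncard_image_of_injOn (fun a _ a' _ h => blk_inj Pb N d hB.monic hB.deg hd0 hB.co hB.cox a a' h)]
      rw [← Nat.card_coe_set_eq]
      exact card_tuples_eq B k
    have hYne : Y.ncard ≠ 0 := by
      rw [hYcard]
      exact (Nat.choose_pos (by omega)).ne'
    have hYfin : Y.Finite := Set.finite_of_ncard_ne_zero hYne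
    rw [hSeq, Nat.card_coe_set_eq, Set.ncard_diff hYX hYfin, ← Nat.card_coe_set_eq, hcard, hYcard, hNd]
  · rw [if_neg hcc, Nat.sub_zero]
    refine card_of_blk Pb N d hB.monic hB.deg hd0 hB.co hB.cox _ ?_
    intro f
    constructor
    · intro hf
      exact (hX f).1 (hS hf)
    · rintro ⟨a, ha1, ha2, rfl⟩
      exact h2 a ha1 ha2 (fun _ => hcc)

end Count

section Real

/-- Realization on the plus space. -/
def PlusReal (r : ℕ) (g : F[X]) (w : ℕ) : Prop :=
  ∃ T : (Fin w ⊕ Fin w → F) →ₗ[F] (Fin w ⊕ Fin w → F), (∀ v, Qplus w F (T v) = Qplus w F v) ∧ T ^ r = 1 ∧ T.charpoly = g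

/-- Realization on the minus space. -/
def MinusReal (r : ℕ) (g : F[X]) (w : ℕ) (a c : F) : Prop :=
  ∃ T : ((Fin w ⊕ Fin w) ⊕ Fin 2 → F) →ₗ[F] ((Fin w ⊕ Fin w) ⊕ Fin 2 → F),
    (∀ v, Qminus w F a c (T v) = Qminus w F a c v) ∧ T ^ r = 1 ∧ T.charpoly = g

lemma conj_pow {V W : Type*} [AddCommGroup V] [Module F V] [AddCommGroup W] [Module F W] (θ : V ≃ₗ[F] W)
    (T : V →ₗ[F] V) (n : ℕ) (x : W) : ((θ.conj T) ^ n) x = θ ((T ^ n) (θ.symm x)) := by
  induction n generalizing x with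
  | zero => simp
  | succ n ih =>
    rw [pow_succ, Module.End.mul_apply, ih, pow_succ, Module.End.mul_apply, LinearEquiv.conj_apply_apply,
      LinearEquiv.symm_apply_apply]

variable {r d : ℕ} {B : Type*} [Fintype B] {Pb : B → F[X]}

include p in
/-- Every block product is realized on a plus or a minus space. -/
theorem block_dichotomy (hr : r.Prime) (hr2 : r ≠ 2) (hrp : r ≠ p) (hB : Blocks r d Pb) (hd : Even d) (a : B → ℕ) (w : ℕ)
    (hw : 2 * (w + 1) = d * ∑ b, a b) :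
    PlusReal r (∏ b, Pb b ^ a b) (w + 1) ∨
      ∃ ζ : F, (∀ t : F, t ^ 2 + t + ζ ≠ 0) ∧ MinusReal r (∏ b, Pb b ^ a b) w 1 ζ := by
  classical
  have hblk : blk Pb (d * ∑ b, a b) d a = ∏ b, Pb b ^ a b := by
    simp [blk]
  have hm : (∏ b, Pb b ^ a b).Monic := monic_prod_of_monic _ _ fun b _ => (hB.monic b).pow _
  have hdeg : (∏ b, Pb b ^ a b).natDegree = d * ∑ b, a b := by
    rw [← hblk]
    exact blk_natDegree _ _ _ hB.monic hB.deg a le_rfl
  have hco : IsCoprime (∏ b, Pb b ^ a b) (X - 1) :=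
    IsCoprime.prod_left fun b _ => (hB.cox b).pow_left
  obtain ⟨W, i1, i2, i3, QW, T, hQW, hT, hTr, hχ⟩ := exists_model (p := p) r hr hr2 hrp (∏ b, Pb b ^ a b) hm
    (by rw [hdeg]; exact hd.mul_right _)
    (by rw [← hblk]; exact blk_coeff_zero _ _ _ a hB.star hB.cox (hd.mul_right _) hd le_rfl)
    (by rw [← hblk]; exact blk_star _ _ _ _ a hB.star)
    (by
      intro π hπ h
      rw [← hblk] at h
      exact blk_factors _ _ _ r hr hB.fac a π hπ h)
    hco
  have hdim : Module.finrank F W = 2 * (w + 1) := by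
    rw [← LinearMap.charpoly_natDegree T, hχ, hdeg, hw]
  rcases Known3.QuadIso.isometry_even (by omega : 1 ≤ w + 1) hdim QW hQW with ⟨θ, hθ⟩ | ⟨ζ, θ, hζ, hθ⟩
  · left
    have hθ' : ∀ v, Qplus (w + 1) F (θ v) = QW v := fun v => by rw [Qplus_apply, hθ]
    refine ⟨θ.conj T, ?_, ?_, ?_⟩
    · intro v
      rw [LinearEquiv.conj_apply_apply, hθ', hT, ← hθ', θ.apply_symm_apply]
    · refine LinearMap.ext fun v => ?_
      rw [conj_pow, hTr]
      simp
    · rw [LinearEquiv.charpoly_conj, hχ]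
  · right
    refine ⟨ζ, hζ, ?_⟩
    have hθ' : ∀ v, Qminus w F 1 ζ (θ v) = QW v := fun v => by rw [Qminus_apply]; exact hθ v
    refine ⟨θ.conj T, ?_, ?_, ?_⟩
    · intro v
      rw [LinearEquiv.conj_apply_apply, hθ', hT, ← hθ', θ.apply_symm_apply]
    · refine LinearMap.ext fun v => ?_
      rw [conj_pow, hTr]
      simp
    · rw [LinearEquiv.charpoly_conj, hχ]

variable {ι₀ : Type} [Fintype ι₀] [DecidableEq ι₀]

/-- From an embedding to a realized polynomial. -/
theorem mem_rz_of_emb {W : Type u} [AddCommGroup W] [Module F W] [FiniteDimensional F W] (Q : QuadraticForm F (ι₀ → F))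
    (QW : QuadraticForm F W) (hQW : (P QW).Nondegenerate) (T : W →ₗ[F] W) (hT : ∀ v, QW (T v) = QW v) (hTr : T ^ r = 1)
    (h : QEmb (⇑QW) (⇑Q)) (hne : (X - 1) ^ (Fintype.card ι₀ - Module.finrank F W) * T.charpoly ≠ (X - 1) ^ Fintype.card ι₀) :
    (X - 1) ^ (Fintype.card ι₀ - Module.finrank F W) * T.charpoly ∈ rzSet Q r := by
  obtain ⟨ι, hι⟩ := h
  obtain ⟨A, h1, h2, h3⟩ := exists_extension Q QW hQW ι hι T hT r hTr
  have hdim : Module.finrank F (ι₀ → F) = Fintype.card ι₀ := Module.finrank_fintype_fun_eq_card F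
  rw [hdim] at h3
  refine ⟨A, h1, h2, ?_, h3⟩
  rintro rfl
  apply hne
  rw [← h3, LinearMap.charpoly_one, hdim]

theorem plus_real_mem (Q : QuadraticForm F (ι₀ → F)) (g : F[X]) (w : ℕ) (h : PlusReal r g w) (he : QEmb (Qplus w F) Q)
    (hne : (X - 1) ^ (Fintype.card ι₀ - 2 * w) * g ≠ (X - 1) ^ Fintype.card ι₀) :
    (X - 1) ^ (Fintype.card ι₀ - 2 * w) * g ∈ rzSet Q r := by
  obtain ⟨T, h1, h2, rfl⟩ := h
  have hdim : Module.finrank F (Fin w ⊕ Fin w → F) = 2 * w := by
    rw [Module.finrank_fintype_fun_eq_card, Fintype.card_sum, Fintype.card_fin, two_mul]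
  have := mem_rz_of_emb (r := r) Q (Qplus w F) (Classical.Abs.Qplus_nondeg w) T h1 h2 he (by rw [hdim]; exact hne)
  rwa [hdim] at this

theorem minus_real_mem (Q : QuadraticForm F (ι₀ → F)) (g : F[X]) (w : ℕ) (a c : F)
    (hac : ∀ z₁ z₂ : F, z₁ ^ 2 + a * z₁ * z₂ + c * z₂ ^ 2 = 0 → z₁ = 0 ∧ z₂ = 0)
    (h : MinusReal r g w a c) (he : QEmb (Qminus w F a c) Q)
    (hne : (X - 1) ^ (Fintype.card ι₀ - 2 * (w + 1)) * g ≠ (X - 1) ^ Fintype.card ι₀) :
    (X - 1) ^ (Fintype.card ι₀ - 2 * (w + 1)) * g ∈ rzSet Q r := by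
  obtain ⟨T, h1, h2, rfl⟩ := h
  have hdim : Module.finrank F ((Fin w ⊕ Fin w) ⊕ Fin 2 → F) = 2 * (w + 1) := by
    rw [Module.finrank_fintype_fun_eq_card, Fintype.card_sum, Fintype.card_sum, Fintype.card_fin, Fintype.card_fin]
    ring
  have := mem_rz_of_emb (r := r) Q (Qminus w F a c) (Classical.Abs.Qminus_nondeg hac w) T h1 h2 he (by rw [hdim]; exact hne)
  rwa [hdim] at this

end Real

end Cfsg.Agent.Lib.PrimeCl
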