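import Mathlib
import Cfsg.Agent.Lib.PrimeCl.Orth5

/-!
The two cases for the block decomposition: elliptic blocks and dual pairs.
-/

set_option autoImplicit false
set_option linter.unusedSimpArgs false
set_option linter.unusedVariables false
set_option linter.deprecated false
set_option linter.unusedSectionVars false

universe u

namespace Cfsg.Agent.Lib.PrimeCl

open Polynomial Cfsg.Agent.Lib.KS2.IsoCl Cfsg.Agent.Lib.Classical.Abs

variable {F : Type u} [Field F] [Fintype F] {p : ℕ} [hpf : Fact p.Prime] [CharP F p]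

local notation "P" => QuadraticMap.polarBilin

section Mem

variable {r d : ℕ} {B : Type*} [Fintype B] {Pb : B → F[X]} {ι₀ : Type} [Fintype ι₀] [DecidableEq ι₀]

theorem blk_mem_plus (Q : QuadraticForm F (ι₀ → F)) {N : ℕ} (hN : Fintype.card ι₀ = N) (hB : Blocks r d Pb) (hd0 : 0 < d)
    (a : B → ℕ) (ha0 : a ≠ (fun _ => 0)) (w : ℕ) (hw : 2 * w = d * ∑ b, a b) (h : PlusReal r (∏ b, Pb b ^ a b) w)
    (he : QEmb (Qplus w F) Q) : blk Pb N d a ∈ rzSet Q r := by
  subst hN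
  have h1 := plus_real_mem Q _ w h he (by
    have h2 := (blk_eq_X1_iff Pb (Fintype.card ι₀) d hB.monic hB.deg hd0 hB.co hB.cox a).not.2 ha0
    unfold blk at h2
    rwa [← hw] at h2)
  unfold blk
  rwa [← hw]

theorem blk_mem_minus (Q : QuadraticForm F (ι₀ → F)) {N : ℕ} (hN : Fintype.card ι₀ = N) (hB : Blocks r d Pb) (hd0 : 0 < d)
    (a : B → ℕ) (ha0 : a ≠ (fun _ => 0)) (w : ℕ) (hw : 2 * (w + 1) = d * ∑ b, a b) (x y : F)
    (hxy : ∀ z₁ z₂ : F, z₁ ^ 2 + x * z₁ * z₂ + y * z₂ ^ 2 = 0 → z₁ = 0 ∧ z₂ = 0)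
    (h : MinusReal r (∏ b, Pb b ^ a b) w x y)
    (he : QEmb (Qminus w F x y) Q) : blk Pb N d a ∈ rzSet Q r := by
  subst hN
  have h1 := minus_real_mem Q _ w x y hxy h he (by
    have h2 := (blk_eq_X1_iff Pb (Fintype.card ι₀) d hB.monic hB.deg hd0 hB.co hB.cox a).not.2 ha0
    unfold blk at h2
    rwa [← hw] at h2)
  unfold blk
  rwa [← hw]

/-- A realization by a full block polynomial on a target. -/
lemma rz_full (Q : QuadraticForm F (ι₀ → F)) {N : ℕ} (a : B → ℕ) (hN : d * ∑ b, a b = N) (h : blk Pb N d a ∈ rzSet Q r) :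
    ∃ A : (ι₀ → F) →ₗ[F] (ι₀ → F), (∀ v, Q (A v) = Q v) ∧ A ^ r = 1 ∧ A.charpoly = ∏ b, Pb b ^ a b := by
  obtain ⟨A, h1, h2, h3, h4⟩ := h
  refine ⟨A, h1, h2, ?_⟩
  rw [h4]
  unfold blk
  rw [hN]
  simp

lemma prod_coprime_X1 (hB : Blocks r d Pb) (a : B → ℕ) : IsCoprime (∏ b, Pb b ^ a b) (X - 1) :=
  IsCoprime.prod_left fun b _ => (hB.cox b).pow_left

omit [Field F] [Fintype F] [CharP F p] [DecidableEq ι₀] in
lemma exists_half (a : B → ℕ) (ha0 : a ≠ (fun _ => 0)) (hd : Even d) (hd0 : 0 < d) : ∃ w, 2 * (w + 1) = d * ∑ b, a b := by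
  have hs0 : 0 < ∑ c, a c := by
    rw [Nat.pos_iff_ne_zero]
    intro h0
    apply ha0
    funext c
    exact Finset.sum_eq_zero_iff.1 h0 c (Finset.mem_univ c)
  obtain ⟨k, hk⟩ := hd
  have h1 : 0 < k * ∑ c, a c := Nat.mul_pos (by omega) hs0
  refine ⟨k * (∑ c, a c) - 1, ?_⟩
  rw [Nat.sub_add_cancel h1, hk]
  ring

end Mem

section A

variable {q r i t : ℕ} (hF : Fintype.card F = q) (hr : r.Prime) (hr2 : r ≠ 2) (hrp : r ≠ p) (hi : i = orderOf (q : ZMod r))

include hF hr hr2 hrp hi in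
theorem blocksA (he : Even i) : Blocks r i (fun c : cycL F r => (c : F[X])) where
  monic c := (cycL_monic_deg (p := p) hF hr hrp hi c.1 c.2).1
  deg c := (cycL_monic_deg (p := p) hF hr hrp hi c.1 c.2).2
  star c := (star_id_iff (p := p) hF hr hr2 hrp c.2).2 (hi ▸ he)
  fac c π _ h := h.trans (mem_cycL_dvd hr c.2)
  cox c := cycL_coprime_X1 (p := p) hr hrp c.2
  co c c' hcc := cycL_coprime (p := p) hr hrp c.2 c'.2 (fun h => hcc (Subtype.ext h))

include hF hr hr2 hrp hi in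
theorem memA (he : Even i) (N : ℕ) (f : F[X]) :
    f ∈ starSet (RingHom.id F) r N ↔ ∃ a : cycL F r → ℕ, i * ∑ c, a c ≤ N ∧ a ≠ (fun _ => 0) ∧
      blk (fun c : cycL F r => (c : F[X])) N i a = f :=
  mem_starSet_A (p := p) hF hr hrp hi (RingHom.id F)
    (fun π hπ => (star_id_iff (p := p) hF hr hr2 hrp hπ).2 (hi ▸ he)) N f

include hF hr hrp hi in
theorem cardA (ht : t * i = r - 1) : Fintype.card (cycL F r) = t := by
  rw [Fintype.card_coe]
  exact card_cycL (p := p) hF hr hrp hi ht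

include hF hr hrp in
lemma coprime_q : (Fintype.card F).Coprime r := by
  obtain ⟨k, hk, hcop⟩ := card_pow_coprime (p := p) hF hr hrp
  rw [hF, hk]
  exact hcop.pow_left _

include hF hr hr2 hrp hi in
theorem plusReal_even (he : Even i) {g : F[X]} (hco : IsCoprime g (X - 1)) {w s : ℕ} (hw : 2 * (w + 1) = i * s)
    (h : PlusReal r g (w + 1)) : Even s := by
  obtain ⟨T, h1, h2, h3⟩ := h
  obtain ⟨k, hk⟩ := he
  have hi0 : 0 < i := order_pos_of (p := p) hF hr hrp hi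
  refine parity_plus r hr hr2 k (coprime_q (p := p) hF hr hrp) (by rw [hF, ← hi, hk]; ring) (by omega) (Qplus (w + 1) F) s w
    (by
      have : 2 * (w + 1) = 2 * (k * s) := by rw [hw, hk]; ring
      omega) (LinearEquiv.refl _ _) (fun v => (Qplus_apply _ _).symm) T h1 h2
    (free_of_coprime T (by rw [h3]; exact hco))

include hF hr hr2 hrp hi in
theorem minusReal_odd (he : Even i) {g : F[X]} (hco : IsCoprime g (X - 1)) {w s : ℕ} (hw : 2 * (w + 1) = i * s) (x y : F)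
    (hxy : ∀ z₁ z₂ : F, z₁ ^ 2 + x * z₁ * z₂ + y * z₂ ^ 2 = 0 → z₁ = 0 ∧ z₂ = 0)
    (h : MinusReal r g w x y) : Odd s := by
  obtain ⟨T, h1, h2, h3⟩ := h
  obtain ⟨k, hk⟩ := he
  have hi0 : 0 < i := order_pos_of (p := p) hF hr hrp hi
  refine parity_minus r hr hr2 k (coprime_q (p := p) hF hr hrp) (by rw [hF, ← hi, hk]; ring) (by omega) (Qminus w F x y) s w
    (by
      have : 2 * (w + 1) = 2 * (k * s) := by rw [hw, hk]; ring
      omega) x y hxy (LinearEquiv.refl _ _) (fun v => (Qminus_apply _ _ _ _).symm) T h1 h2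
    (free_of_coprime T (by rw [h3]; exact hco))

end A

section B

variable {q r i t : ℕ} (hF : Fintype.card F = q) (hr : r.Prime) (hr2 : r ≠ 2) (hrp : r ≠ p) (hi : i = orderOf (q : ZMod r))

/-- The case of dual pairs. -/
theorem dataB (hF : Fintype.card F = q) (hr : r.Prime) (hr2 : r ≠ 2) (hrp : r ≠ p) (hi : i = orderOf (q : ZMod r))
    (ho : Odd i) (ht : t * i = r - 1) :
    ∃ L₁ : Finset F[X], Blocks r (2 * i) (pairP L₁ (RingHom.id F)) ∧
      (∀ N f, f ∈ starSet (RingHom.id F) r N ↔ ∃ a : L₁ → ℕ, (2 * i) * ∑ c, a c ≤ N ∧ a ≠ (fun _ => 0) ∧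
        blk (pairP L₁ (RingHom.id F)) N (2 * i) a = f) ∧
      Fintype.card L₁ = t / 2 ∧
      ∀ (a : L₁ → ℕ) (w : ℕ) (x y : F), (∀ z₁ z₂ : F, z₁ ^ 2 + x * z₁ * z₂ + y * z₂ ^ 2 = 0 → z₁ = 0 ∧ z₂ = 0) →
        ¬ MinusReal r (∏ c, pairP L₁ (RingHom.id F) c ^ a c) w x y := by
  classical
  have hσ : ∀ a : F, RingHom.id F (RingHom.id F a) = a := fun _ => rfl
  have hBn : ∀ π ∈ cycL F r, pstar (RingHom.id F) π ≠ π := fun π hπ h =>
    (Nat.not_even_iff_odd.2 ho) (hi ▸ (star_id_iff (p := p) hF hr hr2 hrp hπ).1 h)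
  obtain ⟨L₁, hL1, hdis, hun⟩ := exists_L1 (p := p) hr hrp (RingHom.id F) hσ hBn
  have hmP := pairP_monic_deg (p := p) hF hr hrp hi (RingHom.id F) hσ hL1
  have hτ2 : ∀ π ∈ cycL F r, pstar (RingHom.id F) (pstar (RingHom.id F) π) = π := fun π hπ =>
    pstar_pstar _ hσ (mem_cycL.1 hπ).2.1 (coeff_zero_ne_of_mem hr hπ)
  have hinj : Set.InjOn (pstar (RingHom.id F)) (L₁ : Set F[X]) := by
    intro x hx y hy h
    rw [← hτ2 x (hL1 hx), h, hτ2 y (hL1 hy)]
  refine ⟨L₁, ?_, ?_, ?_, ?_⟩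
  · exact
    { monic := fun c => (hmP c).1
      deg := fun c => (hmP c).2
      star := pairP_star (p := p) hr hrp _ hσ hL1
      fac := pairP_factors (p := p) hr hrp _ hσ hL1
      cox := pairP_X1 (p := p) hr hrp _ hσ hL1
      co := pairP_coprime (p := p) hr hrp _ hσ hL1 hdis }
  · intro N f
    exact mem_starSet_B (p := p) hF hr hrp hi (RingHom.id F) hσ hBn hL1 hdis hun N f
  · have h1 := card_cycL (p := p) hF hr hrp hi ht
    rw [← hun, Finset.card_union_of_disjoint hdis, Finset.card_image_of_injOn hinj] at h1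
    rw [Fintype.card_coe]
    omega
  · rintro a w x y hxy ⟨T, h1, h2, h3⟩
    -- the factorization
    let f₁ : F[X] := ∏ c : L₁, (c : F[X]) ^ a c
    have hf₂ : pstar (RingHom.id F) f₁ = ∏ c : L₁, pstar (RingHom.id F) (c : F[X]) ^ a c := by
      simp only [f₁, pstar_prod, pstar_pow]
    have hprod : ∏ c : L₁, pairP L₁ (RingHom.id F) c ^ a c = f₁ * pstar (RingHom.id F) f₁ := by
      rw [hf₂]
      simp only [f₁, ← Finset.prod_mul_distrib, pairP, mul_pow]
    have hm : f₁.Monic := monic_prod_of_monic _ _ fun c _ => ((mem_cycL.1 (hL1 c.2)).2.1).pow _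
    have h0 : f₁.coeff 0 ≠ 0 := by
      rw [coeff_zero_eq_eval_zero, eval_prod, Finset.prod_ne_zero_iff]
      intro c _
      rw [eval_pow, ← coeff_zero_eq_eval_zero]
      exact pow_ne_zero _ (coeff_zero_ne_of_mem hr (hL1 c.2))
    have hd : ∀ x ∈ L₁, ∀ y ∈ L₁, x ≠ pstar (RingHom.id F) y := by
      intro x hx y hy h
      exact Finset.disjoint_left.1 hdis hx (Finset.mem_image.2 ⟨y, hy, h.symm⟩)
    have hco : IsCoprime f₁ (pstar (RingHom.id F) f₁) := by
      rw [hf₂]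
      refine IsCoprime.prod_left fun c _ => IsCoprime.prod_right fun c' _ => IsCoprime.pow ?_
      exact cycL_coprime (p := p) hr hrp (hL1 c.2) (pstar_mem_cycL (p := p) hr hrp _ hσ (hL1 c'.2)) (hd _ c.2 _ c'.2)
    have hcox : IsCoprime f₁ (X - 1) :=
      IsCoprime.prod_left fun c _ => (cycL_coprime_X1 (p := p) hr hrp (hL1 c.2)).pow_left
    have hcox' : IsCoprime (pstar (RingHom.id F) f₁) (X - 1) := by
      rw [hf₂]
      exact IsCoprime.prod_left fun c _ =>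
        (cycL_coprime_X1 (p := p) hr hrp (pstar_mem_cycL (p := p) hr hrp _ hσ (hL1 c.2))).pow_left
    refine not_minus_of_pair (Qminus w F x y) T f₁ hm h0 (by rw [h3, hprod]) hco hcox hcox' h1 w x y hxy
      (LinearEquiv.refl _ _) (fun v => (Qminus_apply _ _ _ _).symm)

end B

end Cfsg.Agent.Lib.PrimeCl
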