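import Mathlib

/-!
Rotation orbits on tuples of natural numbers with a fixed sum.
-/

set_option autoImplicit false
set_option linter.unusedSimpArgs false
set_option linter.unusedVariables false
set_option linter.deprecated false
set_option linter.unusedSectionVars false

namespace Cfsg.Agent.Lib.PrimeCl

variable (r n : ℕ) [hr : Fact r.Prime]

/-- Tuples of natural numbers indexed by `ZMod r`, of sum `n`, not concentrated at a point. -/
def TupSet : Type := {a : ZMod r → ℕ // ∑ j, a j = n ∧ ∀ j, a j < n}

variable {r n}

lemma sum_rot (a : ZMod r → ℕ) (k : ZMod r) : ∑ j, a (j - k) = ∑ j, a j :=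
  Equiv.sum_comp (Equiv.subRight k) a

/-- The rotation of a tuple. -/
def rotT (k : ZMod r) (a : TupSet r n) : TupSet r n :=
  ⟨fun j => a.1 (j - k), by rw [sum_rot]; exact a.2.1, fun j => a.2.2 _⟩

noncomputable instance instRot : MulAction (Multiplicative (ZMod r)) (TupSet r n) where
  smul k a := rotT (Multiplicative.toAdd k) a
  one_smul a := by
    apply Subtype.ext
    funext j
    show a.1 (j - Multiplicative.toAdd (1 : Multiplicative (ZMod r))) = a.1 j
    simp
  mul_smul k l a := by
    apply Subtype.ext
    funext j
    show a.1 (j - Multiplicative.toAdd (k * l)) = a.1 (j - Multiplicative.toAdd k - Multiplicative.toAdd l)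
    rw [toAdd_mul]
    congr 1
    ring

lemma smul_val (k : Multiplicative (ZMod r)) (a : TupSet r n) (j : ZMod r) :
    (k • a).1 j = a.1 (j - Multiplicative.toAdd k) := rfl

instance : Finite (TupSet r n) := by
  let f : TupSet r n → (ZMod r → Fin n) := fun a j => ⟨a.1 j, a.2.2 j⟩
  apply Finite.of_injective f
  intro a b h
  apply Subtype.ext
  funext j
  have := congrFun h j
  exact congrArg Fin.val this

/-- All tuples of sum `n`: the count. -/
lemma card_sum_eq (r n : ℕ) [Fact r.Prime] :
    Nat.card {a : ZMod r → ℕ // ∑ j, a j = n} = Nat.choose (n + r - 1) (r - 1) := by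
  classical
  rw [← Nat.card_congr (Sym.equivNatSumOfFintype (ZMod r) n), Nat.card_eq_fintype_card,
    Sym.card_sym_eq_choose, ZMod.card]
  have hr : 1 ≤ r := (Fact.out : r.Prime).one_lt.le
  have h1 : r + n - 1 = n + (r - 1) := by omega
  have h2 : n + r - 1 = n + (r - 1) := by omega
  rw [h1, h2]
  exact Nat.choose_symm_add

/-- The count of tuples which are not concentrated at a point. -/
lemma card_tupSet (hn : 1 ≤ n) : Nat.choose (n + r - 1) (r - 1) = Nat.card (TupSet r n) + r := by
  classical
  rw [← card_sum_eq r n]
  let S : Set (ZMod r → ℕ) := {a | ∑ j, a j = n}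
  let A : Set (ZMod r → ℕ) := {a | ∑ j, a j = n ∧ ∀ j, a j < n}
  let δ : ZMod r → (ZMod r → ℕ) := fun j i => if i = j then n else 0
  have hδ : ∀ j, ∑ i, δ j i = n := by
    intro j
    simp [δ]
  have hδinj : Function.Injective δ := by
    intro j j' h
    have h1 := congrFun h j
    simp only [δ, if_true] at h1
    by_contra hne
    rw [if_neg hne] at h1
    omega
  have hfin : S.Finite := by
    apply Set.Finite.subset (Set.finite_Iic (fun _ : ZMod r => n))
    intro a ha j
    have h1 : a j ≤ ∑ i, a i := Finset.single_le_sum (fun _ _ => Nat.zero_le _) (Finset.mem_univ j)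
    rw [show ∑ i, a i = n from ha] at h1
    exact h1
  have hS : S = A ∪ Set.range δ := by
    ext a
    constructor
    · intro ha
      by_cases h : ∀ j, a j < n
      · exact Or.inl ⟨ha, h⟩
      · push_neg at h
        obtain ⟨j, hj⟩ := h
        right
        refine ⟨j, ?_⟩
        have h0 : ∑ i, a i = n := ha
        have h1 : a j + ∑ i ∈ Finset.univ.erase j, a i = n := by
          rw [Finset.add_sum_erase _ _ (Finset.mem_univ j)]
          exact h0
        funext i
        by_cases hi : i = j
        · subst hi
          simp [δ]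
          omega
        · simp only [δ, if_neg hi]
          have h2 : a i ≤ ∑ i ∈ Finset.univ.erase j, a i :=
            Finset.single_le_sum (f := a) (fun _ _ => Nat.zero_le _) (Finset.mem_erase.2 ⟨hi, Finset.mem_univ i⟩)
          omega
    · rintro (h | ⟨j, rfl⟩)
      · exact h.1
      · exact hδ j
  have hdis : Disjoint A (Set.range δ) := by
    rw [Set.disjoint_left]
    rintro a ⟨_, h1⟩ ⟨j, rfl⟩
    have := h1 j
    simp [δ] at this
  have h1 : Nat.card {a : ZMod r → ℕ // ∑ j, a j = n} = S.ncard := Nat.card_coe_set_eq S
  have h2 : Nat.card (TupSet r n) = A.ncard := Nat.card_coe_set_eq A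
  have hAf : A.Finite := hfin.subset (fun a ha => ha.1)
  have hrf : (Set.range δ).Finite := Set.finite_range δ
  rw [h1, h2, hS, Set.ncard_union_eq hdis hAf hrf]
  congr 1
  rw [← Set.image_univ, Set.ncard_image_of_injective _ hδinj, Set.ncard_univ, Nat.card_eq_fintype_card, ZMod.card]

/-- A tuple fixed by a non-trivial rotation is constant. -/
lemma const_of_fixed (a : ZMod r → ℕ) (k : ZMod r) (hk : k ≠ 0) (h : ∀ j, a (j - k) = a j) (j : ZMod r) :
    a j = a 0 := by
  have h1 : ∀ m : ℕ, a (((m : ℕ) : ZMod r) * k) = a 0 := by
    intro m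
    induction m with
    | zero => simp
    | succ m ih =>
      rw [← ih, ← h (((m + 1 : ℕ) : ZMod r) * k)]
      congr 1
      push_cast
      ring
  have h2 : j = ((j / k).val : ZMod r) * k := by
    rw [ZMod.natCast_zmod_val]
    field_simp
  rw [h2]
  exact h1 _

/-- The Burnside count. -/
theorem card_orbits_rot (hn : 1 ≤ n) :
    Nat.card (MulAction.orbitRel.Quotient (Multiplicative (ZMod r)) (TupSet r n)) * r =
      Nat.card (TupSet r n) + (r - 1) * (if r ∣ n then 1 else 0) := by
  classical
  haveI : Fintype (TupSet r n) := Fintype.ofFinite _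
  haveI : Fintype (MulAction.orbitRel.Quotient (Multiplicative (ZMod r)) (TupSet r n)) := Fintype.ofFinite _
  have hb := MulAction.sum_card_fixedBy_eq_card_orbits_mul_card_group (Multiplicative (ZMod r)) (TupSet r n)
  have hcard : Fintype.card (Multiplicative (ZMod r)) = r := by
    rw [Fintype.card_multiplicative, ZMod.card]
  rw [hcard] at hb
  rw [Nat.card_eq_fintype_card, Nat.card_eq_fintype_card, ← hb]
  -- split the sum
  rw [← Finset.add_sum_erase _ _ (Finset.mem_univ (1 : Multiplicative (ZMod r)))]
  have h1 : Fintype.card (MulAction.fixedBy (TupSet r n) (1 : Multiplicative (ZMod r))) = Fintype.card (TupSet r n) := by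
    rw [Fintype.card_congr (Equiv.subtypeUnivEquiv (fun a => ?_))]
    exact one_smul _ a
  rw [h1]
  congr 1
  have h2 : ∀ k ∈ Finset.univ.erase (1 : Multiplicative (ZMod r)),
      Fintype.card (MulAction.fixedBy (TupSet r n) k) = if r ∣ n then 1 else 0 := by
    intro k hk
    have hk1 : Multiplicative.toAdd k ≠ 0 := by
      intro h
      exact (Finset.mem_erase.1 hk).1 (Multiplicative.toAdd.injective h)
    have hfix : ∀ a : TupSet r n, a ∈ MulAction.fixedBy (TupSet r n) k ↔ ∀ j, a.1 j = a.1 0 := by
      intro a
      constructor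
      · intro h j
        refine const_of_fixed a.1 _ hk1 (fun j => ?_) j
        have := congrArg (fun b : TupSet r n => b.1 j) h
        exact this
      · intro h
        apply Subtype.ext
        funext j
        show a.1 (j - _) = a.1 j
        rw [h, h j]
    have hcst : ∀ a : TupSet r n, (∀ j, a.1 j = a.1 0) → r * a.1 0 = n := by
      intro a h
      have := a.2.1
      rw [Finset.sum_congr rfl (fun j _ => h j), Finset.sum_const, Finset.card_univ, ZMod.card] at this
      simpa using this
    split_ifs with hd
    · obtain ⟨c, hc⟩ := hd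
      have hr1 : 1 < r := (Fact.out : r.Prime).one_lt
      have hc0 : 0 < c := by
        rcases Nat.eq_zero_or_pos c with h | h
        · subst h
          omega
        · exact h
      have hclt : c < n := by
        rw [hc]
        nlinarith
      let a₀ : TupSet r n := ⟨fun _ => c, by simp [ZMod.card, hc], fun _ => hclt⟩
      rw [Fintype.card_eq_one_iff]
      refine ⟨⟨a₀, (hfix a₀).2 fun _ => rfl⟩, ?_⟩
      rintro ⟨b, hb⟩
      apply Subtype.ext
      apply Subtype.ext
      have hb1 := (hfix b).1 hb
      have hb2 := hcst b hb1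
      funext j
      show b.1 j = c
      rw [hb1 j]
      exact Nat.eq_of_mul_eq_mul_left (Fact.out : r.Prime).pos (hb2.trans hc)
    · rw [Fintype.card_eq_zero_iff]
      constructor
      rintro ⟨b, hb⟩
      exact hd ⟨_, (hcst b ((hfix b).1 hb)).symm⟩
  rw [Finset.sum_congr rfl h2, Finset.sum_const, Finset.card_erase_of_mem (Finset.mem_univ _), Finset.card_univ, hcard,
    smul_eq_mul]

end Cfsg.Agent.Lib.PrimeCl
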