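import Mathlib
import Cfsg.Agent.Lib.PrimeCl.Rot
import Cfsg.Agent.Lib.PrimeCl.GL

/-!
Tuples of multiplicities of roots of unity and the scaling of characteristic polynomials.
-/

set_option autoImplicit false
set_option linter.unusedSimpArgs false
set_option linter.unusedVariables false
set_option linter.deprecated false
set_option linter.unusedSectionVars false

namespace Cfsg.Agent.Lib.PrimeCl

open Polynomial UniqueFactorizationMonoid

variable {K : Type*} [Field K]

/-- The characteristic polynomial of a scalar multiple. -/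
lemma charpoly_smul' {ι : Type*} [Fintype ι] [DecidableEq ι] (u : K) (hu : u ≠ 0) (M : Matrix ι ι K) :
    (u • M).charpoly = C (u ^ Fintype.card ι) * M.charpoly.comp (C u⁻¹ * X) := by
  classical
  have h1 : M.charpoly.comp (C u⁻¹ * X) = Polynomial.compRingHom (C u⁻¹ * X) M.charpoly := rfl
  have h2 : Polynomial.compRingHom (C u⁻¹ * X) M.charpoly =
      ((Polynomial.compRingHom (C u⁻¹ * X)).mapMatrix (Matrix.charmatrix M)).det := by
    rw [Matrix.charpoly, RingHom.map_det]
  have h3 : (Polynomial.compRingHom (C u⁻¹ * X)).mapMatrix (Matrix.charmatrix M) =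
      (C u⁻¹ : K[X]) • Matrix.charmatrix (u • M) := by
    ext1 i j
    simp only [RingHom.mapMatrix_apply, Matrix.map_apply, Matrix.smul_apply, smul_eq_mul]
    by_cases hij : i = j
    · subst hij
      rw [Matrix.charmatrix_apply_eq, Matrix.charmatrix_apply_eq]
      simp only [coe_compRingHom_apply, sub_comp, X_comp, C_comp, Matrix.smul_apply, smul_eq_mul, map_mul]
      rw [mul_sub, ← mul_assoc, ← C_mul, inv_mul_cancel₀ hu]
      simp
    · rw [Matrix.charmatrix_apply_ne _ _ _ hij, Matrix.charmatrix_apply_ne _ _ _ hij]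
      simp only [coe_compRingHom_apply, neg_comp, C_comp, Matrix.smul_apply, smul_eq_mul, map_mul, mul_neg]
      rw [← mul_assoc, ← C_mul, inv_mul_cancel₀ hu]
      simp
  rw [h1, h2, h3, Matrix.det_smul, ← Matrix.charpoly, ← mul_assoc, ← C_pow, ← C_mul, ← mul_pow,
    mul_inv_cancel₀ hu]
  simp

section Tup

variable {r : ℕ} [hr : Fact r.Prime] {ζ : K}

/-- The power of `ζ` attached to a residue. -/
noncomputable def pw (ζ : K) (j : ZMod r) : K := ζ ^ j.val

lemma pw_add (hζ : IsPrimitiveRoot ζ r) (j k : ZMod r) : pw ζ (j + k) = pw ζ j * pw ζ k := by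
  unfold pw
  rw [ZMod.val_add, ← pow_add]
  have h := pow_mod_orderOf ζ (j.val + k.val)
  rwa [← hζ.eq_orderOf] at h

lemma pw_inj (hζ : IsPrimitiveRoot ζ r) : Function.Injective (pw ζ : ZMod r → K) := by
  intro j k h
  exact ZMod.val_injective r (hζ.pow_inj (ZMod.val_lt j) (ZMod.val_lt k) h)

lemma pw_surj (hζ : IsPrimitiveRoot ζ r) {ξ : K} (h : ξ ^ r = 1) : ∃ j : ZMod r, pw ζ j = ξ := by
  obtain ⟨i, hi, hi2⟩ := hζ.eq_pow_of_pow_eq_one h
  refine ⟨(i : ZMod r), ?_⟩
  unfold pw
  rw [ZMod.val_cast_of_lt hi, hi2]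

lemma pw_ne_zero (hζ : IsPrimitiveRoot ζ r) (j : ZMod r) : pw ζ j ≠ 0 :=
  pow_ne_zero _ (hζ.ne_zero (Fact.out : r.Prime).ne_zero)

/-- The polynomial of a tuple of multiplicities. -/
noncomputable def tupP (ζ : K) (a : ZMod r → ℕ) : K[X] := ∏ j, (X - C (pw ζ j)) ^ a j

lemma tupP_monic (a : ZMod r → ℕ) : (tupP ζ a).Monic :=
  monic_prod_of_monic _ _ fun j _ => (monic_X_sub_C _).pow _

lemma tupP_natDegree (a : ZMod r → ℕ) : (tupP ζ a).natDegree = ∑ j, a j := by
  unfold tupP
  rw [natDegree_prod_of_monic _ _ fun j _ => (monic_X_sub_C _).pow _]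
  refine Finset.sum_congr rfl fun j _ => ?_
  rw [(monic_X_sub_C _).natDegree_pow, natDegree_X_sub_C, mul_one]

lemma tupP_le (hζ : IsPrimitiveRoot ζ r) (a a' : ZMod r → ℕ) (h : tupP ζ a = tupP ζ a') (j : ZMod r) :
    a j ≤ a' j := by
  classical
  have h1 : (X - C (pw ζ j)) ^ a j ∣ tupP ζ a := Finset.dvd_prod_of_mem (fun i => (X - C (pw ζ i)) ^ a i) (Finset.mem_univ j)
  rw [h] at h1
  unfold tupP at h1
  rw [← Finset.mul_prod_erase Finset.univ _ (Finset.mem_univ j)] at h1
  have h2 : IsCoprime ((X - C (pw ζ j)) ^ a j) (∏ i ∈ Finset.univ.erase j, (X - C (pw ζ i)) ^ a' i) := by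
    apply IsCoprime.pow_left
    refine IsCoprime.prod_right fun i hi => ?_
    apply IsCoprime.pow_right
    refine Polynomial.isCoprime_X_sub_C_of_isUnit_sub ?_
    have : pw ζ j - pw ζ i ≠ 0 := by
      rw [sub_ne_zero]
      exact fun h => (Finset.ne_of_mem_erase hi) (pw_inj hζ h).symm
    exact this.isUnit
  have h3 : (X - C (pw ζ j)) ^ a j ∣ (X - C (pw ζ j)) ^ a' j := h2.dvd_of_dvd_mul_right h1
  have h4 := natDegree_le_of_dvd h3 (((monic_X_sub_C _).pow _).ne_zero)
  rw [(monic_X_sub_C _).natDegree_pow, (monic_X_sub_C _).natDegree_pow, natDegree_X_sub_C, mul_one, mul_one] at h4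
  exact h4

lemma tupP_inj (hζ : IsPrimitiveRoot ζ r) : Function.Injective (tupP ζ : (ZMod r → ℕ) → K[X]) := by
  intro a a' h
  funext j
  exact le_antisymm (tupP_le hζ a a' h j) (tupP_le hζ a' a h.symm j)

/-- A single multiplicity. -/
lemma tupP_single (j : ZMod r) (n : ℕ) :
    tupP ζ (fun i => if i = j then n else 0) = (X - C (pw ζ j)) ^ n := by
  classical
  unfold tupP
  rw [Finset.prod_eq_single j]
  · simp
  · intro i _ hi
    simp [hi]
  · simp

/-- The scaling of tuples. -/
lemma tupP_rot (hζ : IsPrimitiveRoot ζ r) {ι : Type*} [Fintype ι] [DecidableEq ι] (M : Matrix ι ι K) (a : ZMod r → ℕ)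
    (ha : ∑ j, a j = Fintype.card ι) (hM : M.charpoly = tupP ζ a) (k : ZMod r) :
    (pw ζ k • M).charpoly = tupP ζ (fun j => a (j - k)) := by
  have hu := pw_ne_zero hζ k
  rw [charpoly_smul' _ hu, hM, ← ha]
  unfold tupP
  rw [prod_comp, ← Finset.prod_pow_eq_pow_sum, map_prod, ← Finset.prod_mul_distrib]
  rw [← Equiv.prod_comp (Equiv.addRight k) (fun j => (X - C (pw ζ j)) ^ a (j - k))]
  refine Finset.prod_congr rfl fun j _ => ?_
  simp only [Equiv.coe_addRight, add_sub_cancel_right, pow_comp, sub_comp, X_comp, C_comp, map_pow]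
  rw [← mul_pow]
  congr 1
  rw [mul_sub, ← mul_assoc, ← C_mul, mul_inv_cancel₀ hu, C_1, one_mul, ← C_mul, pw_add hζ, mul_comm (pw ζ j)]

/-- Irreducible factors of `X ^ r - 1`. -/
lemma factor_of_dvd (hζ : IsPrimitiveRoot ζ r) {π : K[X]} (hπ : Irreducible π) (hm : π.Monic)
    (h : π ∣ X ^ r - 1) : ∃ j : ZMod r, π = X - C (pw ζ j) := by
  classical
  rw [X_pow_sub_one_eq_prod (Fact.out : r.Prime).pos hζ] at h
  obtain ⟨ξ, hξ, hd⟩ := (Prime.dvd_finset_prod_iff hπ.prime _).1 h
  have h1 : ξ ^ r = 1 := by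
    have := (mem_nthRootsFinset (Fact.out : r.Prime).pos _).1 hξ
    exact this
  obtain ⟨j, rfl⟩ := pw_surj hζ h1
  refine ⟨j, ?_⟩
  exact eq_of_monic_of_associated hm (monic_X_sub_C _)
    ((hπ.dvd_irreducible_iff_associated (irreducible_X_sub_C _)).1 hd)

/-- Polynomials with factors in `X ^ r - 1` come from tuples. -/
lemma exists_tup (hζ : IsPrimitiveRoot ζ r) (f : K[X]) (hf : f.Monic)
    (h : ∀ π : K[X], Irreducible π → π ∣ f → π ∣ X ^ r - 1) :
    ∃ a : ZMod r → ℕ, ∑ j, a j = f.natDegree ∧ f = tupP ζ a := by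
  classical
  set M := normalizedFactors f with hM
  have hprod : M.prod = f := by
    have := Polynomial.Monic.normalize_eq_self hf
    rw [hM, prod_normalizedFactors_eq hf.ne_zero, this]
  let T : Finset K[X] := Finset.univ.image (fun j : ZMod r => X - C (pw ζ j))
  have hsub : M.toFinset ⊆ T := by
    intro π hπ
    have hπ' : π ∈ normalizedFactors f := Multiset.mem_toFinset.mp hπ
    have h1 := (mem_normalizedFactors_iff' hf.ne_zero).1 hπ'
    have hmon : π.Monic := by
      rw [← h1.2.1]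
      exact Polynomial.monic_normalize h1.1.ne_zero
    obtain ⟨j, hj⟩ := factor_of_dvd hζ h1.1 hmon (h π h1.1 h1.2.2)
    exact Finset.mem_image.2 ⟨j, Finset.mem_univ j, hj.symm⟩
  have h1 := Finset.prod_multiset_count_of_subset M T hsub
  have hinj : Set.InjOn (fun j : ZMod r => (X - C (pw ζ j) : K[X])) (Finset.univ : Finset (ZMod r)) := by
    intro j _ k _ hjk
    have h2 : (X - C (pw ζ j) : K[X]) = X - C (pw ζ k) := hjk
    have h3 := sub_right_injective h2
    exact pw_inj hζ (C_injective h3)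
  rw [hprod, Finset.prod_image hinj] at h1
  let a : ZMod r → ℕ := fun j => M.count (X - C (pw ζ j))
  have h2 : f = tupP ζ a := h1
  refine ⟨a, ?_, h2⟩
  rw [h2, tupP_natDegree]

/-- A monic polynomial all of whose factors divide a monic irreducible is a power of it. -/
lemma eq_pow_of_factors (f π : K[X]) (hf : f.Monic) (hπ : Irreducible π) (hm : π.Monic)
    (h : ∀ π' : K[X], Irreducible π' → π' ∣ f → π' ∣ π) : ∃ k : ℕ, f = π ^ k := by
  classical
  set M := normalizedFactors f with hM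
  have hprod : M.prod = f := by
    have := Polynomial.Monic.normalize_eq_self hf
    rw [hM, prod_normalizedFactors_eq hf.ne_zero, this]
  have h1 : ∀ b ∈ M, b = π := by
    intro b hb
    have h2 := (mem_normalizedFactors_iff' hf.ne_zero).1 hb
    have hmon : b.Monic := by
      rw [← h2.2.1]
      exact Polynomial.monic_normalize h2.1.ne_zero
    exact eq_of_monic_of_associated hmon hm ((h2.1.dvd_irreducible_iff_associated hπ).1 (h b h2.1 h2.2.2))
  refine ⟨Multiset.card M, ?_⟩
  rw [← hprod, Multiset.eq_replicate_card.2 h1, Multiset.prod_replicate, Multiset.card_replicate]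

end Tup

end Cfsg.Agent.Lib.PrimeCl
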