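import Mathlib
import Cfsg.Agent.Lib.PrimeCl.ProjPoly

/-!
Classes of elements of prime order in the central quotient of a group of matrices.
-/

set_option autoImplicit false
set_option linter.unusedSimpArgs false
set_option linter.unusedVariables false
set_option linter.deprecated false
set_option linter.unusedSectionVars false

namespace Cfsg.Agent.Lib.PrimeCl

open Polynomial UniqueFactorizationMonoid

variable {K : Type*} [Field K] {G : Type*} [Group G] {n : ℕ}

/-- The matrix of an element. -/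
def mat (ι : G →* GL (Fin n) K) (g : G) : Matrix (Fin n) (Fin n) K := ((ι g : GL (Fin n) K) : Matrix (Fin n) (Fin n) K)

lemma mat_mul (ι : G →* GL (Fin n) K) (g h : G) : mat ι (g * h) = mat ι g * mat ι h := by
  simp [mat]

lemma mat_one (ι : G →* GL (Fin n) K) : mat ι 1 = 1 := by
  simp [mat]

lemma mat_pow (ι : G →* GL (Fin n) K) (g : G) (k : ℕ) : mat ι (g ^ k) = mat ι g ^ k := by
  simp [mat]

lemma mat_conj_charpoly (ι : G →* GL (Fin n) K) (c g : G) :
    (mat ι (c * g * c⁻¹)).charpoly = (mat ι g).charpoly := by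
  have h1 := Matrix.charpoly_units_conj (ι c) (mat ι g)
  have h2 : mat ι (c * g * c⁻¹) = ((ι c : GL (Fin n) K) : Matrix (Fin n) (Fin n) K) * mat ι g *
      ((ι c : GL (Fin n) K) : Matrix (Fin n) (Fin n) K)⁻¹ := by
    rw [← Matrix.coe_units_inv]
    simp [mat]
  rw [h2, h1]

/-- The data of a group of matrices with scalars `U`. -/
structure ProjData (p r : ℕ) (ι : G →* GL (Fin n) K) (U : Subgroup Kˣ) (ζ : Kˣ) : Prop where
  inj : Function.Injective ι
  center : ∀ g, g ∈ Subgroup.center G ↔ ∃ u ∈ U, mat ι g = (u : K) • 1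
  scal : ∀ u ∈ U, ∃ z, mat ι z = (u : K) • 1
  conj : ∀ g h, (orderOf g).Coprime p → (orderOf h).Coprime p →
    (mat ι g).charpoly = (mat ι h).charpoly → IsConj g h
  real1 : ∀ f : K[X], f.Monic → f.natDegree = n → (∀ π : K[X], Irreducible π → π ∣ f → π ∣ X ^ r - 1) →
    ∃ g, (mat ι g).charpoly = f ∧ g ^ r = 1
  real2 : ∀ l : Kˣ, l ∈ U → (∀ v ∈ U, v ^ r ≠ l) → r ∣ n → ∃ g, (mat ι g) ^ r = (l : K) • 1
  irr : ∀ l : Kˣ, l ∈ U → (∀ v ∈ U, v ^ r ≠ l) → Irreducible (X ^ r - C (l : K))
  ζ_mem : ζ ∈ U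
  ζ_ord : orderOf ζ = r

section Main

variable [Fintype K] {p r : ℕ} [hp : Fact p.Prime] [CharP K p] [hr : Fact r.Prime]
  {ι : G →* GL (Fin n) K} {U : Subgroup Kˣ} {ζ : Kˣ} (D : ProjData p r ι U ζ) (hrp : r ≠ p) (hn : 1 ≤ n)

local notation "ρ" => (QuotientGroup.mk : G → G ⧸ Subgroup.center G)

include hrp in
lemma coprime_of_scalar (inj : Function.Injective ι) (g : G) (u : Kˣ) (h : mat ι g ^ r = (u : K) • 1) :
    (orderOf g).Coprime p := by
  have hcard : Fintype.card K - 1 ≠ 0 := by
    have := Fintype.one_lt_card (α := K)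
    omega
  have h1 : g ^ (r * (Fintype.card K - 1)) = 1 := by
    apply inj
    apply Units.ext
    show mat ι _ = _
    rw [mat_pow, pow_mul, h, _root_.smul_pow, one_pow, FiniteField.pow_card_sub_one_eq_one _ u.ne_zero, one_smul]
    simp
  have h2 : orderOf g ∣ r * (Fintype.card K - 1) := orderOf_dvd_of_pow_eq_one h1
  have h3 : (r * (Fintype.card K - 1)).Coprime p := by
    apply Nat.Coprime.mul_left
    · exact (Nat.coprime_primes hr.out hp.out).2 hrp
    · rw [Nat.coprime_comm, hp.out.coprime_iff_not_dvd]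
      intro h4
      have h5 : p ∣ Fintype.card K := by
        obtain ⟨k, _, hk⟩ := FiniteField.card K p
        rw [hk]
        exact dvd_pow_self _ k.ne_zero
      have h6 : p ∣ 1 := by
        have h7 := Nat.dvd_sub h5 h4
        have h8 : Fintype.card K - (Fintype.card K - 1) = 1 := by
          have := Fintype.card_pos (α := K)
          omega
        rwa [h8] at h7
      exact hp.out.one_lt.ne' (Nat.dvd_one.1 h6)
  exact Nat.Coprime.coprime_dvd_left h2 h3

lemma smul_inj_of_pos (hn : 1 ≤ n) {a b : K} (h : a • (1 : Matrix (Fin n) (Fin n) K) = b • 1) : a = b := by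
  have h1 := congrFun (congrFun h ⟨0, hn⟩) ⟨0, hn⟩
  simpa using h1

include D in
lemma prim_root : IsPrimitiveRoot (ζ : K) r := by
  have h1 : IsPrimitiveRoot ζ r := by
    rw [← D.ζ_ord]
    exact IsPrimitiveRoot.orderOf ζ
  exact h1.map_of_injective (f := Units.coeHom K) Units.val_injective |> fun h => h

/-- The scalars attached to `pw`. -/
noncomputable def pwU (ζ : Kˣ) (j : ZMod r) : Kˣ := ζ ^ j.val

lemma pwU_val (j : ZMod r) : ((pwU ζ j : Kˣ) : K) = pw (ζ : K) j := by
  simp [pwU, pw]

include D in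
lemma pwU_mem (j : ZMod r) : pwU ζ j ∈ U := U.pow_mem D.ζ_mem _

include D in
/-- A central element whose `r`-th power is trivial is a scalar root of unity. -/
lemma central_root (hn : 1 ≤ n) (z : G) (hz : z ∈ Subgroup.center G) (hz1 : z ^ r = 1) :
    ∃ j : ZMod r, mat ι z = pw (ζ : K) j • 1 := by
  obtain ⟨u, hu, huz⟩ := (D.center z).1 hz
  have h1 : ((u : K)) ^ r = 1 := by
    have h2 := congrArg (mat ι) hz1
    rw [mat_pow, mat_one, huz, _root_.smul_pow, one_pow] at h2
    exact smul_inj_of_pos hn (h2.trans (one_smul K 1).symm)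
  obtain ⟨j, hj⟩ := pw_surj (prim_root D) h1
  exact ⟨j, by rw [huz, hj]⟩

include D in
lemma charpoly_forward1 (g : G) (hg : g ^ r = 1) (π : K[X]) (hπ : Irreducible π) (h : π ∣ (mat ι g).charpoly) :
    π ∣ X ^ r - 1 := by
  apply irr_dvd_of_aeval_eq_zero _ _ _ hπ h
  have h1 : mat ι g ^ r = 1 := by
    rw [← mat_pow, hg, mat_one]
  simp [h1]

include D hrp in
lemma coprime_of_pow_one (g : G) (hg : g ^ r = 1) : (orderOf g).Coprime p := by
  have h1 := orderOf_dvd_of_pow_eq_one hg
  exact Nat.Coprime.coprime_dvd_left h1 ((Nat.coprime_primes hr.out hp.out).2 hrp)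

include D hrp in
/-- A realization of a tuple. -/
lemma exists_real (a : ZMod r → ℕ) (ha : ∑ j, a j = n) :
    ∃ g, (mat ι g).charpoly = tupP (ζ : K) a ∧ g ^ r = 1 := by
  apply D.real1 _ (tupP_monic a) (by rw [tupP_natDegree, ha])
  intro π hπ hd
  unfold tupP at hd
  obtain ⟨j, _, hb⟩ := (Prime.dvd_finset_prod_iff hπ.prime _).1 hd
  have h1 := hπ.prime.dvd_of_dvd_pow hb
  refine h1.trans ?_
  have h2 : (pw (ζ : K) j) ^ r = 1 := by
    have := (prim_root D).pow_eq_one
    unfold pw
    rw [← pow_mul, mul_comm, pow_mul, this, one_pow]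
  have h3 : (X ^ r - 1 : K[X]).IsRoot (pw (ζ : K) j) := by
    simp [IsRoot, h2]
  exact dvd_iff_isRoot.2 h3

/-- A choice of realization. -/
noncomputable def realT (D : ProjData p r ι U ζ) (hrp : r ≠ p) (a : TupSet r n) : G :=
  (exists_real D hrp a.1 a.2.1).choose

lemma realT_charpoly (a : TupSet r n) : (mat ι (realT D hrp a)).charpoly = tupP (ζ : K) a.1 :=
  (exists_real D hrp a.1 a.2.1).choose_spec.1

lemma realT_pow (a : TupSet r n) : (realT D hrp a) ^ r = 1 :=
  (exists_real D hrp a.1 a.2.1).choose_spec.2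

include D in
lemma charpoly_scalar (z : G) (c : K) (h : mat ι z = c • 1) : (mat ι z).charpoly = (X - C c) ^ n := by
  rw [h]
  have h1 : Matrix.charmatrix (c • (1 : Matrix (Fin n) (Fin n) K)) = Matrix.diagonal (fun _ => X - C c) := by
    ext1 i j
    by_cases hij : i = j
    · subst hij
      rw [Matrix.charmatrix_apply_eq]
      simp
    · rw [Matrix.charmatrix_apply_ne _ _ _ hij]
      simp [Matrix.one_apply, hij, Matrix.diagonal_apply]
  rw [Matrix.charpoly, h1, Matrix.det_diagonal]
  simp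

include D hrp in
/-- An element with `r`-th power one is central if some multiplicity is `n`. -/
lemma central_of_conc (hn : 1 ≤ n) (g : G) (hg : g ^ r = 1) (a : ZMod r → ℕ) (hc : (mat ι g).charpoly = tupP (ζ : K) a)
    (j : ZMod r) (hj : a j = n) (ha : ∑ i, a i = n) : g ∈ Subgroup.center G := by
  classical
  have h0 : a = fun i => if i = j then n else 0 := by
    funext i
    by_cases hi : i = j
    · subst hi
      simp [hj]
    · simp only [if_neg hi]
      have h1 : a j + ∑ i ∈ Finset.univ.erase j, a i = n := by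
        rw [Finset.add_sum_erase _ _ (Finset.mem_univ j)]
        exact ha
      have h2 : a i ≤ ∑ i ∈ Finset.univ.erase j, a i :=
        Finset.single_le_sum (f := a) (fun _ _ => Nat.zero_le _) (Finset.mem_erase.2 ⟨hi, Finset.mem_univ i⟩)
      omega
  obtain ⟨z, hz⟩ := D.scal _ (pwU_mem D j)
  have hzc : z ∈ Subgroup.center G := (D.center z).2 ⟨_, pwU_mem D j, hz⟩
  have hzc2 : (mat ι z).charpoly = (mat ι g).charpoly := by
    rw [charpoly_scalar D z _ hz, hc, h0, tupP_single, pwU_val]
  have hz1 : z ^ r = 1 := by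
    apply D.inj
    apply Units.ext
    show mat ι _ = _
    rw [mat_pow, hz, _root_.smul_pow, one_pow, pwU_val]
    have h2 : (pw (ζ : K) j) ^ r = 1 := by
      have := (prim_root D).pow_eq_one
      unfold pw
      rw [← pow_mul, mul_comm, pow_mul, this, one_pow]
    rw [h2, one_smul]
    simp
  have hconj : IsConj z g := D.conj z g (coprime_of_pow_one D hrp z hz1) (coprime_of_pow_one D hrp g hg) hzc2
  obtain ⟨c, hc'⟩ := isConj_iff.1 hconj
  rw [← hc', (Subgroup.mem_center_iff.1 hzc c), mul_inv_cancel_right]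
  exact hzc

include D hrp in
lemma realT_not_center (hn : 1 ≤ n) (a : TupSet r n) : realT D hrp a ∉ Subgroup.center G := by
  intro h
  obtain ⟨j, hj⟩ := central_root D hn _ h (realT_pow D hrp a)
  have h1 := realT_charpoly D hrp a
  rw [charpoly_scalar D _ _ hj, ← tupP_single (r := r) j n] at h1
  have h2 := tupP_inj (prim_root D) h1
  have h3 := a.2.2 j
  rw [← h2] at h3
  simp at h3

end Main

end Cfsg.Agent.Lib.PrimeCl
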