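import Mathlib
import Cfsg.Agent.Lib.PrimeCl.Proj

/-!
Classes of elements of prime order in the central quotient of a group of matrices: the count.
-/

set_option autoImplicit false
set_option linter.unusedSimpArgs false
set_option linter.unusedVariables false
set_option linter.deprecated false
set_option linter.unusedSectionVars false

namespace Cfsg.Agent.Lib.PrimeCl

open Polynomial UniqueFactorizationMonoid

variable {K : Type*} [Field K] {G : Type*} [Group G] {n : ℕ}

local notation "ρ" => (QuotientGroup.mk : G → G ⧸ Subgroup.center G)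

lemma conj_lift {g h : G} (H : IsConj (ρ g) (ρ h)) : ∃ c z : G, z ∈ Subgroup.center G ∧ h = c * g * c⁻¹ * z := by
  obtain ⟨cb, hc⟩ := isConj_iff.1 H
  obtain ⟨c, rfl⟩ := QuotientGroup.mk_surjective cb
  have h1 : ρ (c * g * c⁻¹) = ρ h := hc
  have h2 := QuotientGroup.eq.1 h1
  exact ⟨c, _, h2, by group⟩

lemma mk_of_central {g z : G} (hz : z ∈ Subgroup.center G) : ρ (z * g) = ρ g := by
  apply QuotientGroup.eq.2
  have h1 : (z * g)⁻¹ * g = z⁻¹ := by
    rw [(Subgroup.mem_center_iff.1 hz g).symm]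
    group
  rw [h1]
  exact Subgroup.inv_mem _ hz

lemma mk_isConj {g h : G} (H : IsConj g h) : IsConj (ρ g) (ρ h) :=
  MonoidHom.map_isConj (QuotientGroup.mk' (Subgroup.center G)) H

lemma pow_of_central {z g : G} (hz : z ∈ Subgroup.center G) (k : ℕ) : (z * g) ^ k = z ^ k * g ^ k :=
  (Subgroup.mem_center_iff.1 hz g).symm ▸ Commute.mul_pow (Subgroup.mem_center_iff.1 hz g).symm k

section Main

variable [Fintype K] {p r : ℕ} [hp : Fact p.Prime] [CharP K p] [hr : Fact r.Prime]
  {ι : G →* GL (Fin n) K} {U : Subgroup Kˣ} {ζ : Kˣ} (D : ProjData p r ι U ζ) (hrp : r ≠ p) (hn : 1 ≤ n)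

/-- Order `r` with a lift of trivial `r`-th power. -/
def P1 (r : ℕ) (x : G ⧸ Subgroup.center G) : Prop := orderOf x = r ∧ ∃ g : G, ρ g = x ∧ g ^ r = 1

/-- Order `r` without such a lift. -/
def P2 (r : ℕ) (x : G ⧸ Subgroup.center G) : Prop := orderOf x = r ∧ ¬ ∃ g : G, ρ g = x ∧ g ^ r = 1

lemma mat_central_mul (z g : G) (c : K) (h : mat ι z = c • 1) : mat ι (z * g) = c • mat ι g := by
  rw [mat_mul, h, smul_mul_assoc, one_mul]

/-- The power of a twisted conjugate. -/
lemma pow_conj_central (g d z : G) (hz : z ∈ Subgroup.center G) (l u : K) (hg : mat ι g ^ r = l • 1)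
    (hzu : mat ι z = u • 1) : mat ι (d * g * d⁻¹ * z) ^ r = (l * u ^ r) • 1 := by
  have h1 : d * g * d⁻¹ * z = z * (d * g * d⁻¹) := (Subgroup.mem_center_iff.1 hz _)
  rw [h1, ← mat_pow, pow_of_central hz, conj_pow, mat_mul, mat_mul, mat_mul, mat_pow, mat_pow, hzu, hg,
    _root_.smul_pow, one_pow]
  have h2 : mat ι d * (l • 1) * mat ι d⁻¹ = l • 1 := by
    rw [mul_smul_comm, mul_one, smul_mul_assoc, ← mat_mul, mul_inv_cancel, mat_one]
  rw [h2, smul_mul_smul_comm, one_mul, mul_comm]

lemma mk_eq_iff_conj (x y : G ⧸ Subgroup.center G) : ConjClasses.mk x = ConjClasses.mk y ↔ IsConj x y :=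
  ConjClasses.mk_eq_mk_iff_isConj

include D hrp in
lemma mk_real_eq (hn : 1 ≤ n) (a : TupSet r n) (k : Multiplicative (ZMod r)) :
    ConjClasses.mk (ρ (realT D hrp (k • a))) = ConjClasses.mk (ρ (realT D hrp a)) := by
  rw [mk_eq_iff_conj]
  set j := Multiplicative.toAdd k with hj
  obtain ⟨z, hz⟩ := D.scal _ (pwU_mem D j)
  have hzc : z ∈ Subgroup.center G := (D.center z).2 ⟨_, pwU_mem D j, hz⟩
  have hz' : mat ι z = pw (ζ : K) j • 1 := by rw [hz, pwU_val]
  have hz1 : z ^ r = 1 := by
    apply D.inj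
    apply Units.ext
    show mat ι _ = _
    rw [mat_pow, hz', _root_.smul_pow, one_pow]
    have h2 : (pw (ζ : K) j) ^ r = 1 := by
      have := (prim_root D).pow_eq_one
      unfold pw
      rw [← pow_mul, mul_comm, pow_mul, this, one_pow]
    rw [h2, one_smul]
    simp
  have h1 : (mat ι (z * realT D hrp a)).charpoly = tupP (ζ : K) (k • a).1 := by
    rw [mat_central_mul _ _ _ hz']
    exact tupP_rot (prim_root D) _ a.1 (by simpa using a.2.1) (realT_charpoly D hrp a) j
  have h2 : (z * realT D hrp a) ^ r = 1 := by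
    rw [pow_of_central hzc, hz1, realT_pow D hrp a, one_mul]
  have hconj : IsConj (realT D hrp (k • a)) (z * realT D hrp a) :=
    D.conj _ _ (coprime_of_pow_one D hrp _ (realT_pow D hrp _)) (coprime_of_pow_one D hrp _ h2)
      (by rw [realT_charpoly D hrp, h1])
  have h3 := mk_isConj hconj
  rwa [mk_of_central hzc] at h3

include D hrp in
lemma P1_real (hn : 1 ≤ n) (a : TupSet r n) : P1 r (ρ (realT D hrp a)) := by
  refine ⟨orderOf_eq_prime ?_ ?_, _, rfl, realT_pow D hrp a⟩
  · rw [← QuotientGroup.mk_pow, realT_pow D hrp a]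
    rfl
  · intro h
    exact realT_not_center D hrp hn a ((QuotientGroup.eq_one_iff _).1 h)

/-- The parametrization of the classes with a lift of trivial power. -/
noncomputable def Psi1 (D : ProjData p r ι U ζ) (hrp : r ≠ p) (hn : 1 ≤ n) :
    MulAction.orbitRel.Quotient (Multiplicative (ZMod r)) (TupSet r n) →
      {c : ConjClasses (G ⧸ Subgroup.center G) // ∃ x, ConjClasses.mk x = c ∧ P1 r x} :=
  Quotient.lift (fun a => ⟨ConjClasses.mk (ρ (realT D hrp a)), _, rfl, P1_real D hrp hn a⟩) (by
    intro a b hab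
    obtain ⟨k, rfl⟩ := (MulAction.orbitRel_apply.1 hab)
    apply Subtype.ext
    exact mk_real_eq D hrp hn b k)

include D hrp in
lemma Psi1_bij (hn : 1 ≤ n) : Function.Bijective (Psi1 D hrp hn) := by
  classical
  constructor
  · intro A B
    induction A using Quotient.inductionOn with | _ a => ?_
    induction B using Quotient.inductionOn with | _ b => ?_
    intro h
    have h1 : ConjClasses.mk (ρ (realT D hrp a)) = ConjClasses.mk (ρ (realT D hrp b)) := congrArg Subtype.val h
    rw [mk_eq_iff_conj] at h1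
    obtain ⟨d, z, hz, hzb⟩ := conj_lift h1
    have hz1 : z ^ r = 1 := by
      have h2 := congrArg (· ^ r) hzb
      simp only [realT_pow D hrp b] at h2
      have h3 : d * realT D hrp a * d⁻¹ * z = z * (d * realT D hrp a * d⁻¹) := (Subgroup.mem_center_iff.1 hz _)
      rw [h3, pow_of_central hz, conj_pow, realT_pow D hrp a] at h2
      simpa using h2.symm
    obtain ⟨j, hj⟩ := central_root D hn z hz hz1
    have h4 : (mat ι (realT D hrp b)).charpoly = tupP (ζ : K) (fun i => a.1 (i - j)) := by
      have h3 : d * realT D hrp a * d⁻¹ * z = z * (d * realT D hrp a * d⁻¹) := (Subgroup.mem_center_iff.1 hz _)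
      rw [hzb, h3, mat_central_mul _ _ _ hj]
      refine tupP_rot (prim_root D) _ a.1 (by simpa using a.2.1) ?_ j
      rw [mat_conj_charpoly, realT_charpoly D hrp a]
    rw [realT_charpoly D hrp b] at h4
    have h5 := tupP_inj (prim_root D) h4
    apply Quotient.sound
    refine MulAction.orbitRel_apply.2 ⟨Multiplicative.ofAdd (-j), ?_⟩
    apply Subtype.ext
    funext i
    show b.1 (i - Multiplicative.toAdd (Multiplicative.ofAdd (-j))) = a.1 i
    rw [h5]
    show a.1 (i - Multiplicative.toAdd (Multiplicative.ofAdd (-j)) - j) = a.1 i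
    congr 1
    simp
  · rintro ⟨c, x, rfl, hx1, g, rfl, hg⟩
    have hgc : g ∉ Subgroup.center G := by
      intro h
      have h1 : ρ g = 1 := (QuotientGroup.eq_one_iff _).2 h
      rw [h1, orderOf_one] at hx1
      exact (Fact.out : r.Prime).one_lt.ne hx1
    obtain ⟨a, ha, hca⟩ := exists_tup (prim_root D) (mat ι g).charpoly (Matrix.charpoly_monic _)
      (charpoly_forward1 D g hg)
    have hdeg : (mat ι g).charpoly.natDegree = n := by
      rw [Matrix.charpoly_natDegree_eq_dim, Fintype.card_fin]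
    rw [hdeg] at ha
    have hlt : ∀ j, a j < n := by
      intro j
      have h1 : a j ≤ ∑ i, a i := Finset.single_le_sum (fun _ _ => Nat.zero_le _) (Finset.mem_univ j)
      rw [ha] at h1
      refine lt_of_le_of_ne h1 fun h2 => hgc ?_
      exact central_of_conc D hrp hn g hg a hca j h2 ha
    let a' : TupSet r n := ⟨a, ha, hlt⟩
    refine ⟨Quotient.mk _ a', ?_⟩
    apply Subtype.ext
    show ConjClasses.mk (ρ (realT D hrp a')) = ConjClasses.mk (ρ g)
    rw [mk_eq_iff_conj]
    apply mk_isConj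
    apply D.conj _ _ (coprime_of_pow_one D hrp _ (realT_pow D hrp _)) (coprime_of_pow_one D hrp _ hg)
    rw [realT_charpoly D hrp, hca]

end Main

end Cfsg.Agent.Lib.PrimeCl
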