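import Mathlib
import Cfsg.Agent.Lib.PrimeCl.Proj2

/-!
Classes of elements of prime order in the central quotient of a group of matrices: the elements
without lift of trivial `r`-th power, and the total.
-/

set_option autoImplicit false
set_option linter.unusedSimpArgs false
set_option linter.unusedVariables false
set_option linter.deprecated false
set_option linter.unusedSectionVars false

namespace Cfsg.Agent.Lib.PrimeCl

open Polynomial UniqueFactorizationMonoid

variable {K : Type*} [Field K] {G : Type*} [Group G] {n : ℕ}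

local notation "ρ" => (QuotientGroup.mk : G → G ⧸ Subgroup.center G)

section Main

variable [Fintype K] {p r : ℕ} [hp : Fact p.Prime] [CharP K p] [hr : Fact r.Prime]
  {ι : G →* GL (Fin n) K} {U : Subgroup Kˣ} {ζ : Kˣ} (D : ProjData p r ι U ζ) (hrp : r ≠ p) (hn : 1 ≤ n)

include D in
lemma charpoly_forward2 (g : G) (l : Kˣ) (hl : l ∈ U) (hnp : ∀ v ∈ U, v ^ r ≠ l)
    (hg : mat ι g ^ r = (l : K) • 1) :
    r ∣ n ∧ (mat ι g).charpoly = (X ^ r - C (l : K)) ^ (n / r) := by
  have hr0 : 0 < r := (Fact.out : r.Prime).pos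
  have hirr := D.irr l hl hnp
  have hmon : (X ^ r - C (l : K)).Monic := monic_X_pow_sub_C _ hr0.ne'
  have h0 : aeval (mat ι g) (X ^ r - C (l : K)) = 0 := by
    simp only [map_sub, map_pow, aeval_X, aeval_C, hg]
    rw [Algebra.algebraMap_eq_smul_one, sub_self]
  obtain ⟨k, hk⟩ := eq_pow_of_factors (mat ι g).charpoly _ (Matrix.charpoly_monic _) hirr hmon
    (fun π' hπ' hd => irr_dvd_of_aeval_eq_zero _ _ _ hπ' hd h0)
  have hdeg : (mat ι g).charpoly.natDegree = n := by
    rw [Matrix.charpoly_natDegree_eq_dim, Fintype.card_fin]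
  rw [hk, hmon.natDegree_pow, natDegree_X_pow_sub_C] at hdeg
  have hd : r ∣ n := ⟨k, by rw [← hdeg, mul_comm]⟩
  refine ⟨hd, ?_⟩
  rw [hk]
  congr 1
  rw [← hdeg]
  exact (Nat.mul_div_cancel _ hr0).symm

include D in
lemma P2_real (hn : 1 ≤ n) (l : Kˣ) (hl : l ∈ U) (hnp : ∀ v ∈ U, v ^ r ≠ l) (g : G) (hg : mat ι g ^ r = (l : K) • 1) :
    P2 r (ρ g) := by
  have h1 : g ^ r ∈ Subgroup.center G := (D.center _).2 ⟨l, hl, by rw [mat_pow, hg]⟩
  refine ⟨orderOf_eq_prime ?_ ?_, ?_⟩
  · rw [← QuotientGroup.mk_pow]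
    exact (QuotientGroup.eq_one_iff _).2 h1
  · intro h
    obtain ⟨u, hu, huz⟩ := (D.center g).1 ((QuotientGroup.eq_one_iff _).1 h)
    rw [huz, _root_.smul_pow, one_pow] at hg
    have h2 := smul_inj_of_pos hn hg
    exact hnp u hu (Units.ext (by simpa using h2))
  · rintro ⟨g', hg', hg'1⟩
    have h2 : g⁻¹ * g' ∈ Subgroup.center G := QuotientGroup.eq.1 hg'.symm
    obtain ⟨u, hu, huz⟩ := (D.center _).1 h2
    have h3 : g' = (g⁻¹ * g') * g := by
      rw [(Subgroup.mem_center_iff.1 h2 g).symm]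
      group
    have h4 : mat ι g' ^ r = 1 := by
      rw [← mat_pow, hg'1, mat_one]
    rw [h3, mat_central_mul _ _ _ huz, _root_.smul_pow, hg, smul_smul] at h4
    have h5 : (u : K) ^ r * (l : K) = 1 := smul_inj_of_pos hn (h4.trans (one_smul K 1).symm)
    apply hnp u⁻¹ (U.inv_mem hu)
    apply Units.ext
    simp only [Units.val_pow_eq_pow_val, Units.val_inv_eq_inv_val, inv_pow]
    exact (eq_inv_of_mul_eq_one_right h5).symm

/-- The cosets of `r`-th powers in the scalars. -/
abbrev CosU (r : ℕ) (U : Subgroup Kˣ) : Type _ := ↥U ⧸ (powMonoidHom r : ↥U →* ↥U).range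

lemma out_nonpower (c : CosU r U) (hc : c ≠ 1) : ∀ v ∈ U, v ^ r ≠ ((Quotient.out c : ↥U) : Kˣ) := by
  intro v hv h
  apply hc
  have h1 : (⟨v, hv⟩ : ↥U) ^ r = Quotient.out c := Subtype.ext (by simpa using h)
  have h2 : (Quotient.out c : ↥U) ∈ (powMonoidHom r : ↥U →* ↥U).range := ⟨⟨v, hv⟩, h1⟩
  have h3 : ((Quotient.out c : ↥U) : CosU r U) = 1 := (QuotientGroup.eq_one_iff _).2 h2
  rw [← h3]
  exact (QuotientGroup.out_eq' c).symm

include D in
lemma exists_realC (hd : r ∣ n) (c : {c : CosU r U // c ≠ 1}) :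
    ∃ g : G, mat ι g ^ r = (((Quotient.out c.1 : ↥U) : Kˣ) : K) • 1 :=
  D.real2 _ (Quotient.out c.1 : ↥U).2 (out_nonpower c.1 c.2) hd

/-- A realization of a coset. -/
noncomputable def realC (D : ProjData p r ι U ζ) (hd : r ∣ n) (c : {c : CosU r U // c ≠ 1}) : G :=
  (exists_realC D hd c).choose

lemma realC_pow (hd : r ∣ n) (c : {c : CosU r U // c ≠ 1}) :
    mat ι (realC D hd c) ^ r = (((Quotient.out c.1 : ↥U) : Kˣ) : K) • 1 :=
  (exists_realC D hd c).choose_spec

/-- The parametrization of the other classes. -/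
noncomputable def Psi2 (D : ProjData p r ι U ζ) (hn : 1 ≤ n) (hd : r ∣ n) (c : {c : CosU r U // c ≠ 1}) :
    {c : ConjClasses (G ⧸ Subgroup.center G) // ∃ x, ConjClasses.mk x = c ∧ P2 r x} :=
  ⟨ConjClasses.mk (ρ (realC D hd c)), _, rfl,
    P2_real D hn _ (Quotient.out c.1 : ↥U).2 (out_nonpower c.1 c.2) _ (realC_pow D hd c)⟩

include D hrp in
lemma Psi2_bij (hn : 1 ≤ n) (hd : r ∣ n) : Function.Bijective (Psi2 D hn hd) := by
  classical
  constructor
  · intro c c' h
    have h1 : ConjClasses.mk (ρ (realC D hd c)) = ConjClasses.mk (ρ (realC D hd c')) := congrArg Subtype.val h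
    rw [mk_eq_iff_conj] at h1
    obtain ⟨d, z, hz, hzb⟩ := conj_lift h1
    obtain ⟨u, hu, huz⟩ := (D.center z).1 hz
    have h2 := pow_conj_central (r := r) (ι := ι) _ d z hz _ _ (realC_pow D hd c) huz
    rw [← hzb, realC_pow D hd c'] at h2
    have h3 := smul_inj_of_pos hn h2
    apply Subtype.ext
    rw [← QuotientGroup.out_eq' c.1, ← QuotientGroup.out_eq' c'.1]
    apply QuotientGroup.eq.2
    refine ⟨⟨u, hu⟩, ?_⟩
    apply Subtype.ext
    apply Units.ext
    simp only [powMonoidHom_apply, Subgroup.coe_pow, Subgroup.coe_mul, Subgroup.coe_inv, Units.val_pow_eq_pow_val,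
      Units.val_mul, Units.val_inv_eq_inv_val]
    show (u : K) ^ r = (((Quotient.out c.1 : ↥U) : Kˣ) : K)⁻¹ * (((Quotient.out c'.1 : ↥U) : Kˣ) : K)
    rw [h3, inv_mul_cancel_left₀ (Units.ne_zero _)]
  · rintro ⟨c, x, rfl, hx1, hx2⟩
    obtain ⟨g, rfl⟩ := QuotientGroup.mk_surjective x
    have h1 : g ^ r ∈ Subgroup.center G := by
      have h2 : ρ g ^ r = 1 := by
        rw [← hx1]
        exact pow_orderOf_eq_one _
      rw [← QuotientGroup.mk_pow] at h2
      exact (QuotientGroup.eq_one_iff _).1 h2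
    obtain ⟨l, hl, hgl⟩ := (D.center _).1 h1
    rw [mat_pow] at hgl
    have hnp : ∀ v ∈ U, v ^ r ≠ l := by
      intro v hv hvl
      obtain ⟨z, hz⟩ := D.scal _ (U.inv_mem hv)
      have hzc : z ∈ Subgroup.center G := (D.center z).2 ⟨_, U.inv_mem hv, hz⟩
      apply hx2
      refine ⟨z * g, mk_of_central hzc, ?_⟩
      apply D.inj
      apply Units.ext
      show mat ι _ = _
      rw [mat_pow, mat_central_mul _ _ _ hz, _root_.smul_pow, hgl, smul_smul, ← hvl]
      simp
    let cc : CosU r U := ((⟨l, hl⟩ : ↥U) : CosU r U)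
    have hcc : cc ≠ 1 := by
      intro h
      obtain ⟨v, hv⟩ := (QuotientGroup.eq_one_iff _).1 h
      exact hnp v.1 v.2 (congrArg Subtype.val hv)
    have hout : ((⟨l, hl⟩ : ↥U) : CosU r U) = ((Quotient.out cc : ↥U) : CosU r U) := (QuotientGroup.out_eq' cc).symm
    obtain ⟨w, hw⟩ := QuotientGroup.eq.1 hout
    have hw' : (Quotient.out cc : ↥U) = ⟨l, hl⟩ * w ^ r := by
      have h2 : w ^ r = (⟨l, hl⟩ : ↥U)⁻¹ * (Quotient.out cc : ↥U) := hw
      rw [h2, mul_inv_cancel_left]
    obtain ⟨z, hz⟩ := D.scal _ w.2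
    have hzc : z ∈ Subgroup.center G := (D.center z).2 ⟨_, w.2, hz⟩
    have hzg : mat ι (z * g) ^ r = (((Quotient.out cc : ↥U) : Kˣ) : K) • 1 := by
      rw [mat_central_mul _ _ _ hz, _root_.smul_pow, hgl, smul_smul, hw']
      simp [mul_comm]
    refine ⟨⟨cc, hcc⟩, ?_⟩
    apply Subtype.ext
    show ConjClasses.mk (ρ (realC D hd ⟨cc, hcc⟩)) = ConjClasses.mk (ρ g)
    rw [mk_eq_iff_conj, ← mk_of_central (g := g) hzc]
    apply mk_isConj
    have hnp' := out_nonpower cc hcc
    have h3 := (charpoly_forward2 D _ _ (Quotient.out cc : ↥U).2 hnp' (realC_pow D hd ⟨cc, hcc⟩)).2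
    have h4 := (charpoly_forward2 D _ _ (Quotient.out cc : ↥U).2 hnp' hzg).2
    exact D.conj _ _ (coprime_of_scalar hrp D.inj _ _ (realC_pow D hd ⟨cc, hcc⟩)) (coprime_of_scalar hrp D.inj _ _ hzg)
      (h3.trans h4.symm)

include D in
lemma P2_empty (hd : ¬ r ∣ n) (x : G ⧸ Subgroup.center G) : ¬ P2 r x := by
  obtain ⟨g, rfl⟩ := QuotientGroup.mk_surjective x
  rintro ⟨hx1, hx2⟩
  have h1 : g ^ r ∈ Subgroup.center G := by
    have h2 : ρ g ^ r = 1 := by
      rw [← hx1]
      exact pow_orderOf_eq_one _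
    rw [← QuotientGroup.mk_pow] at h2
    exact (QuotientGroup.eq_one_iff _).1 h2
  obtain ⟨l, hl, hgl⟩ := (D.center _).1 h1
  rw [mat_pow] at hgl
  have hnp : ∀ v ∈ U, v ^ r ≠ l := by
    intro v hv hvl
    obtain ⟨z, hz⟩ := D.scal _ (U.inv_mem hv)
    have hzc : z ∈ Subgroup.center G := (D.center z).2 ⟨_, U.inv_mem hv, hz⟩
    apply hx2
    refine ⟨z * g, mk_of_central hzc, ?_⟩
    apply D.inj
    apply Units.ext
    show mat ι _ = _
    rw [mat_pow, mat_central_mul _ _ _ hz, _root_.smul_pow, hgl, smul_smul, ← hvl]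
    simp
  exact hd (charpoly_forward2 D g l hl hnp hgl).1

include D in
lemma card_cosU : Nat.card (CosU r U) = r := by
  classical
  have h1 : Nat.card (CosU r U) = (powMonoidHom r : ↥U →* ↥U).range.index := rfl
  rw [h1, IsCyclic.index_powMonoidHom_range]
  have h2 : r ∣ Nat.card ↥U := by
    have h3 : orderOf (⟨ζ, D.ζ_mem⟩ : ↥U) = r := by
      rw [Subgroup.orderOf_mk, D.ζ_ord]
    rw [← h3]
    exact orderOf_dvd_natCard _
  exact Nat.gcd_eq_right h2

include D in
lemma card_cos1 : Nat.card {c : CosU r U // c ≠ 1} = r - 1 := by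
  classical
  have h1 := card_cosU D
  haveI : Finite (CosU r U) := inferInstance
  haveI : Fintype (CosU r U) := Fintype.ofFinite _
  rw [Nat.card_eq_fintype_card] at h1 ⊢
  rw [Fintype.card_subtype_compl, h1]
  simp

include D hrp in
/-- The number of classes of elements of prime order in the central quotient. -/
theorem card_classes_proj (hn : 1 ≤ n) :
    Nat.card {C : ConjClasses (G ⧸ Subgroup.center G) // ∃ x, ConjClasses.mk x = C ∧ orderOf x = r} =
      (Nat.choose (n + r - 1) (r - 1) - r - (if r ∣ n then 1 else 0)) / r + r * (if r ∣ n then 1 else 0) := by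
  classical
  haveI : Finite G := Finite.of_injective ι D.inj
  have hr1 : 1 < r := (Fact.out : r.Prime).one_lt
  set ε : ℕ := if r ∣ n then 1 else 0 with hε
  -- the first part
  have hN1 : Nat.card {c : ConjClasses (G ⧸ Subgroup.center G) // ∃ x, ConjClasses.mk x = c ∧ P1 r x} =
      Nat.card (MulAction.orbitRel.Quotient (Multiplicative (ZMod r)) (TupSet r n)) :=
    (Nat.card_congr (Equiv.ofBijective _ (Psi1_bij D hrp hn))).symm
  -- the second part
  have hN2 : Nat.card {c : ConjClasses (G ⧸ Subgroup.center G) // ∃ x, ConjClasses.mk x = c ∧ P2 r x} = (r - 1) * ε := by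
    by_cases hd : r ∣ n
    · rw [hε, if_pos hd, mul_one, ← Nat.card_congr (Equiv.ofBijective _ (Psi2_bij D hrp hn hd)), card_cos1 D]
    · rw [hε, if_neg hd, mul_zero]
      haveI : IsEmpty {c : ConjClasses (G ⧸ Subgroup.center G) // ∃ x, ConjClasses.mk x = c ∧ P2 r x} := by
        constructor
        rintro ⟨c, x, _, hx⟩
        exact P2_empty D hd x hx
      exact Nat.card_of_isEmpty
  -- union
  let A : Set (ConjClasses (G ⧸ Subgroup.center G)) := {c | ∃ x, ConjClasses.mk x = c ∧ orderOf x = r}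
  let A1 : Set (ConjClasses (G ⧸ Subgroup.center G)) := {c | ∃ x, ConjClasses.mk x = c ∧ P1 r x}
  let A2 : Set (ConjClasses (G ⧸ Subgroup.center G)) := {c | ∃ x, ConjClasses.mk x = c ∧ P2 r x}
  have hA : A = A1 ∪ A2 := by
    ext c
    constructor
    · rintro ⟨x, hx, hxr⟩
      by_cases h : ∃ g : G, ρ g = x ∧ g ^ r = 1
      · exact Or.inl ⟨x, hx, hxr, h⟩
      · exact Or.inr ⟨x, hx, hxr, h⟩
    · rintro (⟨x, hx, hxr, _⟩ | ⟨x, hx, hxr, _⟩)
      · exact ⟨x, hx, hxr⟩
      · exact ⟨x, hx, hxr⟩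
  have hdis : Disjoint A1 A2 := by
    rw [Set.disjoint_left]
    rintro c ⟨x, rfl, _, g, rfl, hg⟩ ⟨y, hy, _, hy2⟩
    obtain ⟨h, rfl⟩ := QuotientGroup.mk_surjective y
    have h1 : IsConj (ρ g) (ρ h) := (mk_eq_iff_conj _ _).1 hy.symm
    obtain ⟨cb, hcb⟩ := isConj_iff.1 h1
    obtain ⟨d, rfl⟩ := QuotientGroup.mk_surjective cb
    apply hy2
    refine ⟨d * g * d⁻¹, hcb, ?_⟩
    rw [conj_pow, hg]
    simp
  have hcard : Nat.card ↥A = Nat.card ↥A1 + Nat.card ↥A2 := by
    rw [Nat.card_coe_set_eq, Nat.card_coe_set_eq, Nat.card_coe_set_eq, hA,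
      Set.ncard_union_eq hdis (Set.toFinite _) (Set.toFinite _)]
  have hN1' : Nat.card ↥A1 = Nat.card (MulAction.orbitRel.Quotient (Multiplicative (ZMod r)) (TupSet r n)) := hN1
  have hN2' : Nat.card ↥A2 = (r - 1) * ε := hN2
  show Nat.card ↥A = _
  rw [hcard, hN1', hN2']
  have hC := card_tupSet (r := r) hn
  have hq := card_orbits_rot (r := r) hn
  rw [← hε] at hq
  set N := Nat.card (MulAction.orbitRel.Quotient (Multiplicative (ZMod r)) (TupSet r n)) with hNdef
  set T := Nat.card (TupSet r n) with hT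
  rw [hC]
  have h1 : T + r - r - ε = T - ε := by omega
  rw [h1]
  by_cases hd : r ∣ n
  · have hε1 : ε = 1 := by rw [hε, if_pos hd]
    rw [hε1] at hq ⊢
    simp only [mul_one] at hq ⊢
    -- the constant tuple shows `T ≥ 1`
    have hT1 : 1 ≤ T := by
      obtain ⟨c, hc⟩ := hd
      have hc0 : 0 < c := by
        rcases Nat.eq_zero_or_pos c with h | h
        · subst h
          omega
        · exact h
      have hclt : c < n := by
        rw [hc]
        nlinarith
      let a₀ : TupSet r n := ⟨fun _ => c, by simp [ZMod.card, hc], fun _ => hclt⟩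
      haveI : Nonempty (TupSet r n) := ⟨a₀⟩
      exact Nat.card_pos
    have hN1 : 1 ≤ N := by
      rcases Nat.eq_zero_or_pos N with h | h
      · rw [h] at hq
        omega
      · exact h
    have h2 : T - 1 = r * (N - 1) := by
      obtain ⟨M, hM⟩ : ∃ M, N = M + 1 := ⟨N - 1, by omega⟩
      rw [hM] at hq ⊢
      simp only [Nat.add_sub_cancel]
      have h3 : (M + 1) * r = M * r + r := by ring
      have h4 : r * M = M * r := mul_comm _ _
      omega
    rw [h2, Nat.mul_div_cancel_left _ (by omega)]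
    omega
  · have hε0 : ε = 0 := by rw [hε, if_neg hd]
    rw [hε0] at hq ⊢
    simp only [mul_zero, add_zero, Nat.sub_zero] at hq ⊢
    rw [← hq, Nat.mul_div_cancel _ (by omega)]

end Main

end Cfsg.Agent.Lib.PrimeCl
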