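import Mathlib
import Cfsg.Agent.Lib.PrimeCl.Proj3

/-!
Classes of elements of prime order in `PGL_n(q)`.
-/

set_option autoImplicit false
set_option linter.unusedSimpArgs false
set_option linter.unusedVariables false
set_option linter.deprecated false
set_option linter.unusedSectionVars false

namespace Cfsg.Agent.Lib.PrimeCl

open Polynomial UniqueFactorizationMonoid

variable {F : Type*} [Field F] [Fintype F] {p : ℕ} [hp : Fact p.Prime] [CharP F p] {n r : ℕ}

lemma coeff_zero_of_factors (hr : 0 < r) (l : F) (hl : l ≠ 0) (f : F[X])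
    (h : ∀ π : F[X], Irreducible π → π ∣ f → π ∣ X ^ r - C l) : f.coeff 0 ≠ 0 := by
  intro h0
  have h1 : (X : F[X]) ∣ f := X_dvd_iff.mpr h0
  have h2 := h X irreducible_X h1
  have h3 : (X : F[X]) ∣ C l := by
    have h4 : (X : F[X]) ∣ X ^ r := dvd_pow_self _ hr.ne'
    have := (dvd_sub h4 h2)
    simpa using this
  have h5 := X_dvd_iff.mp h3
  rw [coeff_C_zero] at h5
  exact hl h5

/-- Realization in `GL_n` with all factors dividing `X ^ r - l`. -/
lemma exists_gl_pow (hr : 0 < r) (l : F) (hl : l ≠ 0) (f : F[X]) (hf : f.Monic) (hd : f.natDegree = n)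
    (h : ∀ π : F[X], Irreducible π → π ∣ f → π ∣ X ^ r - C l) :
    ∃ x : GL (Fin n) F, (x : Matrix (Fin n) (Fin n) F).charpoly = f ∧ (orderOf x).Coprime p ∧
      (x : Matrix (Fin n) (Fin n) F) ^ r = l • 1 := by
  obtain ⟨x, hx, hc⟩ := KS2.SSConj.exists_matrix (p := p) f hf hd (coeff_zero_of_factors hr l hl f h)
  refine ⟨x, hc, hx, ?_⟩
  have hm : ((orderOf x : ℕ) : F) ≠ 0 := KS2.SSConj.cast_ne_zero_of_coprime (p := p) hx (Or.inr trivial)
  have hA : (x : Matrix (Fin n) (Fin n) F) ^ orderOf x = 1 := by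
    rw [← Units.val_pow_eq_pow_val, pow_orderOf_eq_one]
    simp
  have hR0 : (X ^ r - C l : F[X]) ≠ 0 := (monic_X_pow_sub_C l hr.ne').ne_zero
  have h1 := aeval_eq_zero_of_factors _ _ hm hA _ hR0 (by rw [hc]; exact h)
  simp only [map_sub, map_pow, aeval_X, aeval_C, sub_eq_zero] at h1
  rw [h1, Algebra.algebraMap_eq_smul_one]

lemma natDegree_pow_sub (hr : 0 < r) (hd : r ∣ n) (l : F) : ((X ^ r - C l : F[X]) ^ (n / r)).natDegree = n := by
  rw [(monic_X_pow_sub_C l hr.ne').natDegree_pow, natDegree_X_pow_sub_C, Nat.div_mul_cancel hd]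

/-- The data for `GL_n`. -/
lemma projData_gl (hr : r.Prime) (ζ : Fˣ) (hζ : orderOf ζ = r) :
    ProjData p r (MonoidHom.id (GL (Fin n) F)) (⊤ : Subgroup Fˣ) ζ where
  inj := Function.injective_id
  center := by
    intro g
    rw [Matrix.GeneralLinearGroup.center_eq_range_scalar, MonoidHom.mem_range]
    constructor
    · rintro ⟨c, rfl⟩
      refine ⟨c, Subgroup.mem_top _, ?_⟩
      ext i j
      simp [mat, Matrix.GeneralLinearGroup.scalar, Matrix.one_apply, Matrix.diagonal_apply]
    · rintro ⟨u, _, hu⟩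
      refine ⟨u, ?_⟩
      apply Units.ext
      have hu' : (g : Matrix (Fin n) (Fin n) F) = (u : F) • 1 := hu
      rw [hu']
      ext i j
      simp [Matrix.GeneralLinearGroup.scalar, Matrix.one_apply, Matrix.diagonal_apply]
  scal := by
    intro u _
    refine ⟨Matrix.GeneralLinearGroup.scalar (Fin n) u, ?_⟩
    ext i j
    simp [mat, Matrix.GeneralLinearGroup.scalar, Matrix.one_apply, Matrix.diagonal_apply]
  conj := by
    intro g h hg hh hc
    exact KS2.SSConj.gl_isConj (p := p) g h hg hh hc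
  real1 := by
    intro f hf hd h
    obtain ⟨x, hc, _, hxr⟩ := exists_gl_pow (p := p) (n := n) hr.pos (1 : F) one_ne_zero f hf hd (by simpa using h)
    refine ⟨x, hc, ?_⟩
    apply Units.ext
    rw [Units.val_pow_eq_pow_val, hxr]
    simp
  real2 := by
    intro l _ hnp hd
    obtain ⟨x, hc, _, hxr⟩ := exists_gl_pow (p := p) (n := n) hr.pos (l : F) l.ne_zero _
      ((monic_X_pow_sub_C (l : F) hr.ne_zero).pow (n / r)) (natDegree_pow_sub hr.pos hd (l : F))
      (fun π hπ h => hπ.prime.dvd_of_dvd_pow h)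
    exact ⟨x, hxr⟩
  irr := by
    intro l _ hnp
    apply X_pow_sub_C_irreducible_of_prime hr
    intro b hb
    have hb0 : b ≠ 0 := by
      rintro rfl
      rw [zero_pow hr.ne_zero] at hb
      exact l.ne_zero hb.symm
    exact hnp (Units.mk0 b hb0) (Subgroup.mem_top _) (Units.ext (by simpa using hb))
  ζ_mem := Subgroup.mem_top _
  ζ_ord := hζ

/-- The number of classes of elements of prime order in `PGL_n(q)`. -/
theorem card_classes_pgl {q : ℕ} (hF : Fintype.card F = q) (hn : 2 ≤ n) (hr : r.Prime) (hrq : r ∣ q - 1) :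
    Nat.card {C : ConjClasses (GL (Fin n) F ⧸ Subgroup.center (GL (Fin n) F)) //
        ∃ g : GL (Fin n) F ⧸ Subgroup.center (GL (Fin n) F), ConjClasses.mk g = C ∧ orderOf g = r} =
      (Nat.choose (n + r - 1) (r - 1) - r - (if r ∣ n then 1 else 0)) / r + r * (if r ∣ n then 1 else 0) := by
  classical
  haveI : Fact r.Prime := ⟨hr⟩
  obtain ⟨p, hpc⟩ := CharP.exists F
  haveI : Fact p.Prime := ⟨CharP.char_is_prime F p⟩
  have hcard : Fintype.card Fˣ = q - 1 := by rw [Fintype.card_units, hF]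
  obtain ⟨ζ, hζ⟩ := exists_prime_orderOf_dvd_card r (hcard ▸ hrq)
  have hrp : r ≠ p := by
    rintro rfl
    obtain ⟨k, _, hk⟩ := FiniteField.card F r
    have h1 : r ∣ q := by
      rw [← hF, hk]
      exact dvd_pow_self _ k.ne_zero
    have h2 : r ∣ 1 := by
      have h3 := Nat.dvd_sub h1 hrq
      have hq : 0 < q := by
        rw [← hF]
        exact Fintype.card_pos
      have h4 : q - (q - 1) = 1 := by omega
      rwa [h4] at h3
    exact hr.one_lt.ne' (Nat.dvd_one.1 h2)
  exact card_classes_proj (projData_gl (p := p) (n := n) hr ζ hζ) hrp (by omega)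

end Cfsg.Agent.Lib.PrimeCl
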