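import Mathlib
import Cfsg.Agent.Lib.PrimeCl.ProjGL
import Cfsg.Agent.Lib.PrimeCl.GU

/-!
Classes of elements of odd prime order in `PGU_n(q)`.
-/

set_option autoImplicit false
set_option linter.unusedSimpArgs false
set_option linter.unusedVariables false
set_option linter.deprecated false
set_option linter.unusedSectionVars false

universe u

namespace Cfsg.Agent.Lib.PrimeCl

open Polynomial UniqueFactorizationMonoid Cfsg.Agent.Lib.KS2.IsoCl Cfsg.Agent.Lib.Classical Matrix

variable {K : Type u} [Field K] [Fintype K] {p q n r : ℕ} [hp : Fact p.Prime] [CharP K p]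

/-- The star of `X ^ r - l`. -/
lemma pstar_X_pow_sub_C (σ : K →+* K) (hr : 0 < r) (l : K) (hl : l ≠ 0) :
    pstar σ (X ^ r - C l : K[X]) = X ^ r - C (σ l)⁻¹ := by
  have h1 : (X ^ r - C l : K[X]).coeff 0 = -l := by
    simp [coeff_X_pow, hr.ne]
  have h2 : (X ^ r - C l : K[X]).map σ = X ^ r - C (σ l) := by simp
  have h3 : (X ^ r - C (σ l) : K[X]).natDegree = r := natDegree_X_pow_sub_C
  have h4 : reverse (X ^ r - C (σ l) : K[X]) = 1 - C (σ l) * X ^ r := by
    rw [reverse, h3, reflect_sub, reflect_monomial, reflect_C]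
    simp [revAt_le le_rfl]
  have hσl : σ l ≠ 0 := (map_ne_zero σ).2 hl
  rw [pstar, h1, h2, h4, map_neg, inv_neg, mul_sub, mul_one, ← mul_assoc, ← C_mul, neg_mul, inv_mul_cancel₀ hσl]
  simp only [map_neg, map_one, neg_mul, one_mul, sub_neg_eq_add]
  ring

/-- Realization in `GU`. -/
lemma exists_gu (p : ℕ) [Fact p.Prime] [CharP K p] (hK : Fintype.card K = q ^ 2) (hr : 0 < r) (l : K) (hl : l ≠ 0) (f : K[X]) (hf : f.Monic)
    (hd : f.natDegree = n) (hstar : pstar (conjQ hK) f = f)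
    (h : ∀ π : K[X], Irreducible π → π ∣ f → π ∣ X ^ r - C l) :
    ∃ B : ↥(Cfsg.GU n K q), ((B : GL (Fin n) K) : Matrix (Fin n) (Fin n) K).charpoly = f ∧
      ((B : GL (Fin n) K) : Matrix (Fin n) (Fin n) K) ^ r = l • 1 := by
  classical
  obtain ⟨x, hc, hx, hxr⟩ := exists_gl_pow (p := p) (n := n) hr l hl f hf hd h
  set A : Matrix (Fin n) (Fin n) K := (x : Matrix (Fin n) (Fin n) K) with hA
  have hAdet : A.det ≠ 0 := ((Matrix.isUnit_iff_isUnit_det _).mp x.isUnit).ne_zero
  set m := orderOf x with hm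
  have hmF : (m : K) ≠ 0 := KS2.SSConj.cast_ne_zero_of_coprime (p := p) hx (Or.inr trivial)
  have hAm : A ^ m = 1 := by
    rw [hA, ← Units.val_pow_eq_pow_val, pow_orderOf_eq_one]
    simp
  have hy : ((hAdj hK A)⁻¹) ^ m = 1 := by
    rw [Matrix.inv_pow', ← Cfsg.Agent.Lib.UConj.hAdj_pow, hAm, Cfsg.Agent.Lib.UConj.hAdj_one]
    simp
  have hyc : A.charpoly = ((hAdj hK A)⁻¹).charpoly := by
    rw [charpoly_inv_adj hK A hAdet, hc, hstar]
  obtain ⟨c, hc'⟩ := KS2.SSConj.gl_conj hmF A _ hAm hy hyc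
  have hconj : IsConj A (hAdj hK A)⁻¹ := ⟨c, hc'⟩
  obtain ⟨B, hB⟩ := (Cfsg.Agent.S2588.result hK x).2 hconj
  obtain ⟨d, hd'⟩ := isConj_iff.1 hB
  refine ⟨B, ?_, ?_⟩
  · rw [← hd', Units.val_mul, Units.val_mul, Matrix.coe_units_inv, Matrix.charpoly_units_conj]
    exact hc
  · rw [← Units.val_pow_eq_pow_val, ← hd', conj_pow, Units.val_mul, Units.val_mul, Units.val_pow_eq_pow_val, hxr]
    rw [mul_smul_comm, mul_one, smul_mul_assoc, ← Units.val_mul, mul_inv_cancel]
    simp

lemma mem_center_of_smul (g : ↥(Cfsg.GU n K q)) (c : K)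
    (h : ((g : GL (Fin n) K) : Matrix (Fin n) (Fin n) K) = c • 1) : g ∈ Subgroup.center ↥(Cfsg.GU n K q) := by
  rw [Subgroup.mem_center_iff]
  intro x
  apply Subtype.ext
  apply Units.ext
  show ((x : GL (Fin n) K) : Matrix (Fin n) (Fin n) K) * ((g : GL (Fin n) K) : Matrix (Fin n) (Fin n) K) =
    ((g : GL (Fin n) K) : Matrix (Fin n) (Fin n) K) * ((x : GL (Fin n) K) : Matrix (Fin n) (Fin n) K)
  rw [h, mul_smul_comm, smul_mul_assoc, mul_one, one_mul]

/-- A central element of `GU` is scalar. -/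
lemma gu_center_scalar (hK : Fintype.card K = q ^ 2) (hn : 1 ≤ n) (ζ : K) (hζ : ζ ^ (q + 1) = 1) (hζ1 : ζ ≠ 1)
    (g : ↥(Cfsg.GU n K q)) (hg : g ∈ Subgroup.center ↥(Cfsg.GU n K q)) :
    ∃ c : Kˣ, c ^ (q + 1) = 1 ∧ ((g : GL (Fin n) K) : Matrix (Fin n) (Fin n) K) = (c : K) • 1 := by
  classical
  have hq0 : q ≠ 0 := by
    rintro rfl
    have := Fintype.one_lt_card (α := K)
    rw [hK] at this
    simp at this
  have hζ0 : ζ ≠ 0 := by
    rintro rfl
    rw [zero_pow (by omega)] at hζ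
    exact zero_ne_one hζ
  set M : Matrix (Fin n) (Fin n) K := ((g : GL (Fin n) K) : Matrix (Fin n) (Fin n) K) with hM
  -- commuting with diagonal elements
  have hdiag : ∀ a b, a ≠ b → M a b = 0 := by
    intro a b hab
    let d : Fin n → K := fun k => if k = a then ζ else 1
    let d' : Fin n → K := fun k => if k = a then ζ⁻¹ else 1
    have hdd : ∀ k, d k * d' k = 1 := by
      intro k
      by_cases hk : k = a
      · simp [d, d', hk, hζ0]
      · simp [d, d', hk]
    let D : GL (Fin n) K := ⟨diagonal d, diagonal d', by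
      rw [diagonal_mul_diagonal, ← diagonal_one]
      congr 1
      funext k
      exact hdd k, by
      rw [diagonal_mul_diagonal, ← diagonal_one]
      congr 1
      funext k
      rw [mul_comm]
      exact hdd k⟩
    have hD : D ∈ Cfsg.GU n K q := by
      intro u v
      show Cfsg.hermForm n K q (diagonal d *ᵥ u) (diagonal d *ᵥ v) = Cfsg.hermForm n K q u v
      unfold Cfsg.hermForm
      refine Finset.sum_congr rfl fun k _ => ?_
      rw [mulVec_diagonal, mulVec_diagonal, mul_pow]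
      have h1 : d k * d k ^ q = 1 := by
        by_cases hk : k = a
        · simp only [d, hk, if_true]
          rw [← pow_succ', hζ]
        · simp [d, hk]
      linear_combination (u k * v k ^ q) * h1
    have h1 := Subgroup.mem_center_iff.1 hg ⟨D, hD⟩
    have h2 : diagonal d * M = M * diagonal d := congrArg (fun x : ↥(Cfsg.GU n K q) => ((x : GL (Fin n) K) : Matrix (Fin n) (Fin n) K)) h1
    have h3 := congrFun (congrFun h2 a) b
    rw [diagonal_mul, mul_diagonal] at h3
    have h4 : d a = ζ := by simp [d]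
    have h5 : d b = 1 := by simp [d, hab.symm]
    rw [h4, h5, mul_one] at h3
    have h6 : (ζ - 1) * M a b = 0 := by linear_combination h3
    exact (mul_eq_zero.1 h6).resolve_left (sub_ne_zero.2 hζ1)
  -- commuting with permutation matrices
  have hconst : ∀ a b, M a a = M b b := by
    intro a b
    let σ : Equiv.Perm (Fin n) := Equiv.swap a b
    have hdet : IsUnit (σ.permMatrix K).det := by
      rw [det_permutation]
      have : ((Equiv.Perm.sign σ : ℤˣ) : ℤ) = 1 ∨ ((Equiv.Perm.sign σ : ℤˣ) : ℤ) = -1 := by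
        rcases Int.units_eq_one_or (Equiv.Perm.sign σ) with h | h
        · left
          simp [h]
        · right
          simp [h]
      rcases this with h | h
      · simp [h]
      · simp [h]
    let P : GL (Fin n) K := Matrix.GeneralLinearGroup.mk'' (σ.permMatrix K) hdet
    have hPv : ∀ v, (P : Matrix (Fin n) (Fin n) K) *ᵥ v = v ∘ σ := fun v => permMatrix_mulVec σ
    have hP : P ∈ Cfsg.GU n K q := by
      intro u v
      show Cfsg.hermForm n K q ((P : Matrix (Fin n) (Fin n) K) *ᵥ u) ((P : Matrix (Fin n) (Fin n) K) *ᵥ v) = Cfsg.hermForm n K q u v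
      rw [hPv, hPv]
      unfold Cfsg.hermForm
      exact Equiv.sum_comp σ (fun k => u k * v k ^ q)
    have h1 := Subgroup.mem_center_iff.1 hg ⟨P, hP⟩
    have h2 : (P : Matrix (Fin n) (Fin n) K) * M = M * (P : Matrix (Fin n) (Fin n) K) :=
      congrArg (fun x : ↥(Cfsg.GU n K q) => ((x : GL (Fin n) K) : Matrix (Fin n) (Fin n) K)) h1
    have h3 : (P : Matrix (Fin n) (Fin n) K) *ᵥ (M *ᵥ Pi.single b 1) = M *ᵥ ((P : Matrix (Fin n) (Fin n) K) *ᵥ Pi.single b 1) := by
      rw [mulVec_mulVec, mulVec_mulVec, h2]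
    rw [hPv, hPv] at h3
    have h4 := congrFun h3 a
    simp only [Function.comp_apply, mulVec_single_one] at h4
    have h5 : (Pi.single b 1 : Fin n → K) ∘ σ = Pi.single a 1 := by
      funext k
      simp only [Function.comp_apply, Pi.single_apply]
      by_cases hk : k = a
      · subst hk
        simp [σ]
      · have : σ k ≠ b := by
          intro h
          apply hk
          have h6 : σ a = b := by simp [σ]
          exact σ.injective (h.trans h6.symm)
        simp [this, hk]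
    rw [h5, mulVec_single_one] at h4
    have h6 : σ a = b := by simp [σ]
    simp only [col_apply, h6] at h4
    exact h4.symm
  let a₀ : Fin n := ⟨0, hn⟩
  have hM1 : M = M a₀ a₀ • 1 := by
    ext i j
    by_cases hij : i = j
    · subst hij
      simp [hconst i a₀]
    · simp [hij, hdiag i j hij]
  have hc0 : M a₀ a₀ ≠ 0 := by
    intro h
    rw [h, zero_smul] at hM1
    have h1 := ((Matrix.isUnit_iff_isUnit_det _).mp (g : GL (Fin n) K).isUnit)
    rw [← hM, hM1] at h1
    haveI : Nonempty (Fin n) := ⟨a₀⟩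
    simp [det_zero] at h1
  refine ⟨Units.mk0 _ hc0, ?_, hM1⟩
  apply Units.ext
  simp only [Units.val_pow_eq_pow_val, Units.val_mk0, Units.val_one]
  have h1 := g.2 (Pi.single a₀ 1) (Pi.single a₀ 1)
  have h2 : ((g : GL (Fin n) K) : Matrix (Fin n) (Fin n) K) *ᵥ (Pi.single a₀ 1) = M a₀ a₀ • Pi.single a₀ 1 := by
    have h2' : M *ᵥ (Pi.single a₀ 1) = (M a₀ a₀ • (1 : Matrix (Fin n) (Fin n) K)) *ᵥ (Pi.single a₀ 1) := by
      conv_lhs => rw [hM1]
    rw [← hM, h2', Matrix.smul_mulVec, Matrix.one_mulVec]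
  have h3 : Cfsg.hermForm n K q (M a₀ a₀ • Pi.single a₀ 1) (M a₀ a₀ • Pi.single a₀ 1) = M a₀ a₀ ^ (q + 1) := by
    unfold Cfsg.hermForm
    rw [Finset.sum_eq_single a₀]
    · simp [pow_succ']
    · intro k _ hk
      simp [Pi.single_apply, hk]
    · simp
  have h4 : Cfsg.hermForm n K q (Pi.single a₀ 1) (Pi.single a₀ 1) = 1 := by
    unfold Cfsg.hermForm
    rw [Finset.sum_eq_single a₀]
    · simp
    · intro k _ hk
      simp [Pi.single_apply, hk]
    · simp
  have h5 : Cfsg.hermForm n K q (((g : GL (Fin n) K) : Matrix (Fin n) (Fin n) K) *ᵥ (Pi.single a₀ 1)) (((g : GL (Fin n) K) : Matrix (Fin n) (Fin n) K) *ᵥ (Pi.single a₀ 1)) = Cfsg.hermForm n K q (Pi.single a₀ 1) (Pi.single a₀ 1) := h1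
  rw [h2, h3, h4] at h5
  exact h5

/-- The scalar subgroup of `GU`. -/
def U1K (K : Type u) [Field K] (q : ℕ) : Subgroup Kˣ := (powMonoidHom (q + 1) : Kˣ →* Kˣ).ker

lemma mem_U1K (u : Kˣ) : u ∈ U1K K q ↔ u ^ (q + 1) = 1 := MonoidHom.mem_ker

lemma smul_mem_GU (u : Kˣ) (hu : u ^ (q + 1) = 1) : (Matrix.GeneralLinearGroup.scalar (Fin n) u : GL (Fin n) K) ∈ Cfsg.GU n K q := by
  have hc' : (u : K) * (u : K) ^ q = 1 := by
    rw [← pow_succ', ← Units.val_pow_eq_pow_val, hu, Units.val_one]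
  intro a b
  have hs : ((Matrix.GeneralLinearGroup.scalar (Fin n) u : GL (Fin n) K) : Matrix (Fin n) (Fin n) K) = (u : K) • 1 := by
    ext i j
    simp [Matrix.GeneralLinearGroup.scalar, Matrix.one_apply, Matrix.diagonal_apply]
  show Cfsg.hermForm n K q (((Matrix.GeneralLinearGroup.scalar (Fin n) u : GL (Fin n) K) : Matrix (Fin n) (Fin n) K) *ᵥ a)
    (((Matrix.GeneralLinearGroup.scalar (Fin n) u : GL (Fin n) K) : Matrix (Fin n) (Fin n) K) *ᵥ b) = _
  rw [hs, Matrix.smul_mulVec, Matrix.one_mulVec, Matrix.smul_mulVec, Matrix.one_mulVec]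
  unfold Cfsg.hermForm
  refine Finset.sum_congr rfl fun i _ => ?_
  simp only [Pi.smul_apply, smul_eq_mul, mul_pow]
  linear_combination (a i * b i ^ q) * hc'

/-- Star invariance of polynomials with factors in `X ^ r - 1`, when `r ∣ q + 1`. -/
lemma star_of_factors (hK : Fintype.card K = q ^ 2) (hr : r.Prime) [Fact r.Prime] (ζ : K) (hζ : IsPrimitiveRoot ζ r)
    (hrq : r ∣ q + 1) (f : K[X]) (hf : f.Monic) (h : ∀ π : K[X], Irreducible π → π ∣ f → π ∣ X ^ r - 1) :
    pstar (conjQ hK) f = f := by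
  obtain ⟨a, _, rfl⟩ := exists_tup hζ f hf h
  unfold tupP
  rw [pstar_prod]
  refine Finset.prod_congr rfl fun j _ => ?_
  rw [pstar_pow]
  congr 1
  have hc : (pw ζ j) ^ (q + 1) = 1 := by
    obtain ⟨c, hc⟩ := hrq
    unfold pw
    rw [← pow_mul, mul_comm, pow_mul, hc, pow_mul, hζ.pow_eq_one, one_pow, one_pow]
  have h1 := pstar_X_pow_sub_C (r := 1) (conjQ hK) one_pos (pw ζ j) (pw_ne_zero hζ j)
  simp only [pow_one] at h1
  rw [h1, conjQ_apply]
  congr 2
  rw [pow_succ] at hc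
  exact inv_eq_of_mul_eq_one_right hc

/-- The data for `GU_n`. -/
lemma projData_gu (hK : Fintype.card K = q ^ 2) (hn : 1 ≤ n) (hr : r.Prime) (hr2 : r ≠ 2) (hrq : r ∣ q + 1) (ζ : Kˣ)
    (hζ : orderOf ζ = r) :
    ProjData p r (Cfsg.GU n K q).subtype (U1K K q) ζ := by
  classical
  haveI : Fact r.Prime := ⟨hr⟩
  have hq0 : q ≠ 0 := by
    rintro rfl
    have := Fintype.one_lt_card (α := K)
    rw [hK] at this
    simp at this
  have hζ1 : ζ ^ (q + 1) = 1 := by
    obtain ⟨c, hc⟩ := hrq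
    rw [hc, pow_mul, ← hζ, pow_orderOf_eq_one, one_pow]
  have hζne : (ζ : K) ≠ 1 := by
    intro h
    have h1 : ζ = 1 := Units.ext h
    rw [h1, orderOf_one] at hζ
    exact hr.one_lt.ne hζ
  have hprim : IsPrimitiveRoot (ζ : K) r := by
    have h1 : IsPrimitiveRoot ζ r := by
      rw [← hζ]
      exact IsPrimitiveRoot.orderOf ζ
    exact h1.map_of_injective (f := Units.coeHom K) Units.val_injective
  have hmat : ∀ g : ↥(Cfsg.GU n K q), mat (Cfsg.GU n K q).subtype g = ((g : GL (Fin n) K) : Matrix (Fin n) (Fin n) K) :=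
    fun _ => rfl
  refine ⟨Subtype.val_injective, ?_, ?_, ?_, ?_, ?_, ?_, (mem_U1K _).2 hζ1, hζ⟩
  · intro g
    constructor
    · intro h
      obtain ⟨c, hc1, hc2⟩ := gu_center_scalar hK hn (ζ : K) (by
        rw [← Units.val_pow_eq_pow_val, hζ1, Units.val_one]) hζne g h
      exact ⟨c, (mem_U1K _).2 hc1, hc2⟩
    · rintro ⟨u, _, hu⟩
      exact mem_center_of_smul g _ hu
  · intro u hu
    refine ⟨⟨_, smul_mem_GU u ((mem_U1K _).1 hu)⟩, ?_⟩
    rw [hmat]
    ext i j
    simp [Matrix.GeneralLinearGroup.scalar, Matrix.one_apply, Matrix.diagonal_apply]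
  · intro g h hg hh hc
    rw [Cfsg.Agent.S2587.result hK]
    exact KS2.SSConj.gl_isConj (p := p) _ _ (by rwa [orderOf_GU]) (by rwa [orderOf_GU]) hc
  · intro f hf hd h
    obtain ⟨B, hB1, hB2⟩ := exists_gu (r := r) (n := n) p hK hr.pos (1 : K) one_ne_zero f hf hd
      (star_of_factors hK hr (ζ : K) hprim hrq f hf h) (by simpa using h)
    refine ⟨B, hB1, ?_⟩
    apply Subtype.ext
    apply Units.ext
    simpa using hB2
  · intro l hl hnp hd
    have hl1 : (l : K) ^ (q + 1) = 1 := by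
      rw [← Units.val_pow_eq_pow_val, (mem_U1K _).1 hl, Units.val_one]
    have hstar : pstar (conjQ hK) ((X ^ r - C (l : K)) ^ (n / r)) = (X ^ r - C (l : K)) ^ (n / r) := by
      rw [pstar_pow, pstar_X_pow_sub_C _ hr.pos _ l.ne_zero, conjQ_apply]
      congr 3
      rw [pow_succ] at hl1
      exact inv_eq_of_mul_eq_one_right hl1
    obtain ⟨B, _, hB2⟩ := exists_gu (r := r) (n := n) p hK hr.pos (l : K) l.ne_zero _
      ((monic_X_pow_sub_C (l : K) hr.ne_zero).pow (n / r)) (natDegree_pow_sub hr.pos hd (l : K)) hstar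
      (fun π hπ h => hπ.prime.dvd_of_dvd_pow h)
    exact ⟨B, hB2⟩
  · intro l hl hnp
    apply X_pow_sub_C_irreducible_of_prime hr
    intro b hb
    have hb0 : b ≠ 0 := by
      rintro rfl
      rw [zero_pow hr.ne_zero] at hb
      exact l.ne_zero hb.symm
    let ν : Kˣ := Units.mk0 b hb0
    have hνr : ν ^ r = l := Units.ext (by simpa [ν] using hb)
    have hl1 := (mem_U1K _).1 hl
    set η := ν ^ (q + 1) with hη
    have h1 : η ^ r = 1 := by
      rw [hη, ← pow_mul, mul_comm, pow_mul, hνr, hl1]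
    have h2 : η ^ (q - 1) = 1 := by
      have hcard : Fintype.card Kˣ = (q + 1) * (q - 1) := by
        rw [Fintype.card_units, hK]
        obtain ⟨m, rfl⟩ : ∃ m, q = m + 1 := ⟨q - 1, by omega⟩
        simp only [Nat.add_sub_cancel]
        have : (m + 1) ^ 2 = (m + 1 + 1) * m + 1 := by ring
        omega
      rw [hη, ← pow_mul, ← hcard]
      exact pow_card_eq_one
    have hcop : Nat.Coprime r (q - 1) := by
      rw [hr.coprime_iff_not_dvd]
      intro h3
      have h4 : r ∣ 2 := by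
        have h5 := Nat.dvd_sub hrq h3
        have h6 : q + 1 - (q - 1) = 2 := by omega
        rwa [h6] at h5
      exact hr2 ((Nat.prime_dvd_prime_iff_eq hr Nat.prime_two).1 h4)
    have h3 : η = 1 := by
      have h5 : orderOf η ∣ Nat.gcd r (q - 1) :=
        Nat.dvd_gcd (orderOf_dvd_of_pow_eq_one h1) (orderOf_dvd_of_pow_eq_one h2)
      rw [hcop, Nat.dvd_one] at h5
      exact orderOf_eq_one_iff.1 h5
    exact hnp ν ((mem_U1K _).2 h3) hνr

/-- The number of classes of elements of odd prime order in `PGU_n(q)`. -/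
theorem card_classes_pgu (hK : Fintype.card K = q ^ 2) (hn : 3 ≤ n) (hr : r.Prime) (hr2 : r ≠ 2) (hrq : r ∣ q + 1) :
    Nat.card {C : ConjClasses (↥(Cfsg.GU n K q) ⧸ Subgroup.center ↥(Cfsg.GU n K q)) //
        ∃ g : ↥(Cfsg.GU n K q) ⧸ Subgroup.center ↥(Cfsg.GU n K q), ConjClasses.mk g = C ∧ orderOf g = r} =
      (Nat.choose (n + r - 1) (r - 1) - r - (if r ∣ n then 1 else 0)) / r + r * (if r ∣ n then 1 else 0) := by
  classical
  haveI : Fact r.Prime := ⟨hr⟩
  obtain ⟨p, hpc⟩ := CharP.exists K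
  haveI : Fact p.Prime := ⟨CharP.char_is_prime K p⟩
  have hq0 : q ≠ 0 := by
    rintro rfl
    have := Fintype.one_lt_card (α := K)
    rw [hK] at this
    simp at this
  have hcard : r ∣ Fintype.card Kˣ := by
    rw [Fintype.card_units, hK]
    obtain ⟨m, rfl⟩ : ∃ m, q = m + 1 := ⟨q - 1, by omega⟩
    have : (m + 1) ^ 2 - 1 = (m + 1 + 1) * m := by
      have : (m + 1) ^ 2 = (m + 1 + 1) * m + 1 := by ring
      omega
    rw [this]
    exact hrq.mul_right _
  obtain ⟨ζ, hζ⟩ := exists_prime_orderOf_dvd_card r hcard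
  have hrp : r ≠ p := by
    rintro rfl
    obtain ⟨k, _, hk⟩ := FiniteField.card K r
    have h1 : r ∣ q ^ 2 := by
      rw [← hK, hk]
      exact dvd_pow_self _ k.ne_zero
    have h2 : r ∣ q := hr.dvd_of_dvd_pow h1
    have h3 : r ∣ 1 := (Nat.dvd_add_right h2).1 hrq
    exact hr.one_lt.ne' (Nat.dvd_one.1 h3)
  exact card_classes_proj (projData_gu (p := p) hK (by omega) hr hr2 hrq ζ hζ) hrp (by omega)

end Cfsg.Agent.Lib.PrimeCl
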